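import Mathlib

/-!
Strongly closed subgroups of a Sylow `p`-subgroup of the alternating group of degree at least `p²`.
-/

set_option autoImplicit false

namespace CfsgLib.AltFusion

open Equiv Equiv.Perm

variable {p : ℕ}

theorem isPGroup_closure_comm {G : Type*} [Group G] {s : Set G} (hc : ∀ x ∈ s, ∀ y ∈ s, x * y = y * x)
    (hp : ∀ x ∈ s, ∃ k : ℕ, x ^ p ^ k = 1) : IsPGroup p (Subgroup.closure s) := by
  haveI := Subgroup.isMulCommutative_closure hc
  rintro ⟨x, hx⟩
  induction hx using Subgroup.closure_induction with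
  | mem y hy =>
    obtain ⟨k, hk⟩ := hp y hy
    exact ⟨k, Subtype.ext hk⟩
  | one => exact ⟨0, Subtype.ext (one_pow _)⟩
  | mul y z hy hz ihy ihz =>
    obtain ⟨k, hk⟩ := ihy
    obtain ⟨l, hl⟩ := ihz
    refine ⟨k + l, ?_⟩
    show ((⟨y, hy⟩ : Subgroup.closure s) * ⟨z, hz⟩) ^ p ^ (k + l) = 1
    have hyz : Commute (⟨y, hy⟩ : Subgroup.closure s) ⟨z, hz⟩ := mul_comm' _ _
    rw [hyz.mul_pow]
    conv_lhs => rw [pow_add, pow_mul, hk, one_pow, one_mul, mul_comm, pow_mul, hl, one_pow]
  | inv y hy ih =>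
    obtain ⟨k, hk⟩ := ih
    refine ⟨k, ?_⟩
    show (⟨y, hy⟩ : Subgroup.closure s)⁻¹ ^ p ^ k = 1
    rw [inv_pow, hk, inv_one]

variable {α : Type*} [Fintype α] [DecidableEq α] [Fact p.Prime]

theorem sign_eq_one_of_odd_pow {x : Perm α} {m : ℕ} (hm : Odd m) (hx : x ^ m = 1) : sign x = 1 := by
  have h := congrArg (sign (α := α)) hx
  rwa [map_pow, map_one, ← Nat.two_mul_div_two_add_one_of_odd hm, pow_succ, pow_mul, Int.units_sq, one_pow,
    one_mul] at h

/-- An element of order `p` of `Sym(n)`, `p² ≤ n`, has the same conjugates under `Sym(n)` and `Alt(n)`. -/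
theorem exists_even_conj (hn : p ^ 2 ≤ Fintype.card α) {x : Perm α} (hx : x ^ p = 1) (g : Perm α) :
    ∃ a ∈ alternatingGroup α, a * x * a⁻¹ = g * x * g⁻¹ := by
  have hpp : p.Prime := Fact.out
  by_cases hx1 : x = 1
  · exact ⟨1, one_mem _, by simp [hx1]⟩
  rcases Int.units_eq_one_or (sign g) with h | h
  · exact ⟨g, mem_alternatingGroup.2 h, rfl⟩
  obtain ⟨u, huc, hu⟩ : ∃ u ∈ Subgroup.centralizer {x}, u ∉ alternatingGroup α := by
    by_contra hcon
    push Not at hcon
    obtain ⟨-, hsum, hcount⟩ := centralizer_le_alternating_iff.1 (SetLike.le_def.2 hcon)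
    have ho : orderOf x = p := orderOf_eq_prime hx hx1
    obtain ⟨k, hk⟩ := cycleType_prime_order (ho ▸ hpp)
    rw [ho] at hk
    have := hcount p
    rw [hk, Multiset.count_replicate_self] at this
    rw [hk, Multiset.sum_replicate, show k = 0 by omega] at hsum
    simp only [zero_add, one_smul] at hsum
    nlinarith [hpp.two_le]
  refine ⟨g * u, mem_alternatingGroup.2 ?_, ?_⟩
  · rw [mem_alternatingGroup] at hu
    rw [map_mul, h, (Int.units_eq_one_or (sign u)).resolve_left hu]
    decide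
  · have hux : x * u = u * x := Subgroup.mem_centralizer_iff.1 huc x rfl
    rw [mul_assoc g, ← hux, ← mul_assoc g, mul_inv_rev, ← mul_assoc, mul_inv_cancel_right]

/-- `T` is strongly closed in the Sylow `p`-subgroup `S` of `Alt(α)`. -/
structure AltSetting (p : ℕ) (S T : Subgroup (Perm α)) : Prop where
  le_alt : S ≤ alternatingGroup α
  le : T ≤ S
  closed : ∀ t ∈ T, ∀ a ∈ alternatingGroup α, a * t * a⁻¹ ∈ S → a * t * a⁻¹ ∈ T
  sylow : ∀ P : Subgroup (Perm α), IsPGroup p P → P ≤ alternatingGroup α →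
    ∃ a ∈ alternatingGroup α, ∀ x ∈ P, a * x * a⁻¹ ∈ S

/-- All conjugates of `x` lying in `S` lie in `T`. -/
def Good (S T : Subgroup (Perm α)) (x : Perm α) : Prop := ∀ g : Perm α, g * x * g⁻¹ ∈ S → g * x * g⁻¹ ∈ T

variable {S T : Subgroup (Perm α)}

theorem good_one : Good S T 1 := fun g _ => by simp

theorem good_inv {x : Perm α} (hx : Good S T x) : Good S T x⁻¹ := fun g hg => by
  have e : g * x⁻¹ * g⁻¹ = (g * x * g⁻¹)⁻¹ := by group
  rw [e] at hg ⊢
  exact T.inv_mem (hx g (inv_mem_iff.1 hg))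

theorem good_of_isConj {x y : Perm α} (hx : Good S T x) (h : IsConj x y) : Good S T y := by
  obtain ⟨c, rfl⟩ := isConj_iff.1 h
  intro g hg
  have e : g * (c * x * c⁻¹) * g⁻¹ = g * c * x * (g * c)⁻¹ := by group
  rw [e] at hg ⊢
  exact hx _ hg

theorem good_mul (hs : AltSetting p S T) {x y : Perm α} (hx : Good S T x) (hy : Good S T y)
    {P : Subgroup (Perm α)} (hP : IsPGroup p P) (hPA : P ≤ alternatingGroup α) (hxP : x ∈ P) (hyP : y ∈ P) :
    Good S T (x * y) := by
  intro g hg
  have hA : ∀ z ∈ P, g * z * g⁻¹ ∈ alternatingGroup α := fun z hz => by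
    have h := mem_alternatingGroup.1 (hPA hz)
    simp [h]
  obtain ⟨a, ha, haS⟩ := hs.sylow (P.map (MulAut.conj g).toMonoidHom) (hP.map _) (by
    rintro _ ⟨z, hz, rfl⟩
    exact hA z hz)
  have h : ∀ z ∈ P, Good S T z → a * (g * z * g⁻¹) * a⁻¹ ∈ T := fun z hz hzG => by
    have e : a * (g * z * g⁻¹) * a⁻¹ = a * g * z * (a * g)⁻¹ := by group
    rw [e]
    exact hzG _ (e ▸ haS _ ⟨z, hz, rfl⟩)
  have h2 := T.mul_mem (h x hxP hx) (h y hyP hy)
  have e2 : g * (x * y) * g⁻¹ = a⁻¹ * (a * (g * x * g⁻¹) * a⁻¹ * (a * (g * y * g⁻¹) * a⁻¹)) * a⁻¹⁻¹ := by group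
  rw [e2] at hg ⊢
  exact hs.closed _ h2 _ (inv_mem ha) hg

theorem good_of_mem (hs : AltSetting p S T) (hn : p ^ 2 ≤ Fintype.card α) {t : Perm α} (ht : t ∈ T)
    (htp : t ^ p = 1) : Good S T t := by
  intro g hg
  obtain ⟨a, ha, hag⟩ := exists_even_conj hn htp g
  rw [← hag] at hg ⊢
  exact hs.closed t ht a ha hg

theorem good_pow_p_odd (hs : AltSetting p S T) (hn : p ^ 2 ≤ Fintype.card α) (hp : p ≠ 2) {t : Perm α}
    (ht : t ∈ T) (htp : t ^ p = 1) (ht1 : t ≠ 1) : ∀ x : Perm α, x ^ p = 1 → Good S T x := by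
  have hpp : p.Prime := Fact.out
  have hodd : Odd p := hpp.odd_of_ne_two hp
  have halt : ∀ x : Perm α, x ^ p = 1 → x ∈ alternatingGroup α := fun x hx =>
    mem_alternatingGroup.2 (sign_eq_one_of_odd_pow hodd hx)
  have hcyc : ∀ x : Perm α, x ^ p = 1 → ∀ c ∈ x.cycleFactorsFinset, c.IsCycle ∧ c.cycleType = {p} ∧ c ^ p = 1 := by
    intro x hx c hc
    have h1 := (mem_cycleFactorsFinset_iff.1 hc).1
    have h2 : c.support.card ∈ x.cycleType := by
      rw [cycleType_def]
      exact Multiset.mem_map.2 ⟨c, hc, rfl⟩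
    have h3 : c.support.card = p := ((hpp.eq_one_or_self_of_dvd _
      ((dvd_of_mem_cycleType h2).trans (orderOf_dvd_of_pow_eq_one hx))).resolve_left
      (by have := two_le_of_mem_cycleType h2; omega))
    refine ⟨h1, by rw [h1.cycleType, h3], ?_⟩
    have := pow_orderOf_eq_one c
    rwa [h1.orderOf, h3] at this
  obtain ⟨c, hc⟩ : t.cycleFactorsFinset.Nonempty :=
    Finset.nonempty_iff_ne_empty.2 (fun h => ht1 (cycleFactorsFinset_eq_empty_iff.1 h))
  obtain ⟨hcc, hct, hcp⟩ := hcyc t htp c hc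
  set r := t * c⁻¹ with hr
  have hd : Perm.Disjoint r c := disjoint_mul_inv_of_mem_cycleFactorsFinset hc
  have htr : t = r * c := by rw [hr, inv_mul_cancel_right]
  have hord : orderOf c = p := by
    have := hcc.cycleType
    rw [hct, Multiset.singleton_inj] at this
    rw [hcc.orderOf, ← this]
  have hc2 : (c ^ 2).cycleType = {p} := by
    have hlt : 2 < p := by have := hpp.two_le; omega
    rw [(hcc.isCycle_pow_pos_of_lt_prime_order (hord ▸ hpp) 2 (by norm_num) (hord ▸ hlt)).cycleType,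
      support_pow_coprime (by rw [hord]; exact (Nat.coprime_primes Nat.prime_two hpp).2 hp.symm), ← hcc.cycleType,
      hct]
  have hd2 : Perm.Disjoint r (c ^ 2) := fun a => by
    rcases hd a with h | h
    · exact Or.inl h
    · exact Or.inr (pow_apply_eq_self_of_apply_eq_self h 2)
  have hconj : IsConj t (r * c ^ 2) := by
    rw [isConj_iff_cycleType_eq, htr, hd.cycleType_mul, hd2.cycleType_mul, hc2, hct]
  have hrc : Commute r c := hd.commute
  have hrp : r ^ p = 1 := by
    have h := htp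
    rwa [htr, hrc.mul_pow, hcp, mul_one] at h
  have hgc : Good S T c := by
    have h1 := good_mul hs (good_of_isConj (good_of_mem hs hn ht htp) hconj) (good_inv (good_of_mem hs hn ht htp))
      (P := Subgroup.closure {r, c}) (isPGroup_closure_comm (by
        intro a ha b hb
        simp only [Set.mem_insert_iff, Set.mem_singleton_iff] at ha hb
        rcases ha with rfl | rfl <;> rcases hb with rfl | rfl
        exacts [rfl, hrc, hrc.symm, rfl]) (by
        intro a ha
        simp only [Set.mem_insert_iff, Set.mem_singleton_iff] at ha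
        rcases ha with rfl | rfl <;> exact ⟨1, by rwa [pow_one]⟩))
      ((Subgroup.closure_le _).2 (by
        intro a ha
        simp only [Set.mem_insert_iff, Set.mem_singleton_iff] at ha
        rcases ha with rfl | rfl
        exacts [halt _ hrp, halt _ hcp]))
      (mul_mem (Subgroup.subset_closure (by simp)) (pow_mem (Subgroup.subset_closure (by simp)) 2))
      (inv_mem (htr ▸ mul_mem (Subgroup.subset_closure (by simp)) (Subgroup.subset_closure (by simp))))
    convert h1 using 1
    rw [htr]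
    calc c = r * (c * r⁻¹) := by rw [← (hrc.inv_left).eq]; group
      _ = r * c ^ 2 * (r * c)⁻¹ := by group
  intro x hx
  induction hk : x.support.card using Nat.strong_induction_on generalizing x with
  | _ k ih =>
    by_cases hx1 : x = 1
    · exact hx1 ▸ good_one
    obtain ⟨e, he⟩ : x.cycleFactorsFinset.Nonempty :=
      Finset.nonempty_iff_ne_empty.2 (fun h => hx1 (cycleFactorsFinset_eq_empty_iff.1 h))
    obtain ⟨hec, het, hep⟩ := hcyc x hx e he
    set y := x * e⁻¹ with hy
    have hdy : Perm.Disjoint y e := disjoint_mul_inv_of_mem_cycleFactorsFinset he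
    have hxy : x = y * e := by rw [hy, inv_mul_cancel_right]
    have hyp : y ^ p = 1 := by
      have h := hx
      rwa [hxy, hdy.commute.mul_pow, hep, mul_one] at h
    have hlt : y.support.card < k := by
      rw [← hk, hxy, hdy.card_support_mul]
      have := hec.two_le_card_support
      omega
    rw [hxy]
    refine good_mul hs (ih _ hlt y hyp rfl) (good_of_isConj hgc (isConj_iff_cycleType_eq.2 (hct.trans het.symm)))
      (P := Subgroup.closure {y, e}) (isPGroup_closure_comm (by
        intro a ha b hb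
        simp only [Set.mem_insert_iff, Set.mem_singleton_iff] at ha hb
        rcases ha with rfl | rfl <;> rcases hb with rfl | rfl
        exacts [rfl, hdy.commute, hdy.commute.symm, rfl]) (by
        intro a ha
        simp only [Set.mem_insert_iff, Set.mem_singleton_iff] at ha
        rcases ha with rfl | rfl <;> exact ⟨1, by rwa [pow_one]⟩))
      ((Subgroup.closure_le _).2 (by
        intro a ha
        simp only [Set.mem_insert_iff, Set.mem_singleton_iff] at ha
        rcases ha with rfl | rfl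
        exacts [halt _ hyp, halt _ hep]))
      (Subgroup.subset_closure (by simp)) (Subgroup.subset_closure (by simp))

theorem isPGroup_closure_pair {x y : Perm α} (h : x * y = y * x) (hx : ∃ k : ℕ, x ^ p ^ k = 1)
    (hy : ∃ k : ℕ, y ^ p ^ k = 1) : IsPGroup p (Subgroup.closure {x, y} : Subgroup (Perm α)) := by
  refine isPGroup_closure_comm ?_ ?_
  · intro a ha b hb
    simp only [Set.mem_insert_iff, Set.mem_singleton_iff] at ha hb
    rcases ha with rfl | rfl <;> rcases hb with rfl | rfl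
    exacts [rfl, h, h.symm, rfl]
  · intro a ha
    simp only [Set.mem_insert_iff, Set.mem_singleton_iff] at ha
    rcases ha with rfl | rfl
    exacts [hx, hy]

theorem closure_pair_le {H : Subgroup (Perm α)} {x y : Perm α} (hx : x ∈ H) (hy : y ∈ H) :
    Subgroup.closure {x, y} ≤ H := (Subgroup.closure_le _).2 (Set.insert_subset hx (Set.singleton_subset_iff.2 hy))

theorem cycleType_swap_swap {a b c d : α} (hac : a ≠ c) (had : a ≠ d) (hbc : b ≠ c) (hbd : b ≠ d) (hab : a ≠ b)
    (hcd : c ≠ d) : (swap a b * swap c d).cycleType = Multiset.replicate 2 2 := by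
  have h : Perm.Disjoint (swap a b) (swap c d) := fun x => by
    by_cases h1 : x = a ∨ x = b
    · rcases h1 with rfl | rfl
      · exact Or.inr (swap_apply_of_ne_of_ne hac had)
      · exact Or.inr (swap_apply_of_ne_of_ne hbc hbd)
    · push Not at h1
      exact Or.inl (swap_apply_of_ne_of_ne h1.1 h1.2)
  rw [h.cycleType_mul, (Perm.isCycle_swap hab).cycleType, (Perm.isCycle_swap hcd).cycleType, card_support_swap hab,
    card_support_swap hcd]
  rfl

/-- Two disjoint transpositions inside an involution that is even and non-trivial. -/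
theorem exists_two_pairs {x : Perm α} (hxA : x ∈ alternatingGroup α) (hx : x ^ 2 = 1) (hx1 : x ≠ 1) :
    ∃ a b : α, x a ≠ a ∧ x b ≠ b ∧ b ≠ a ∧ b ≠ x a ∧ x b ≠ a ∧ x b ≠ x a ∧ x (x a) = a ∧ x (x b) = b := by
  have hinv : ∀ z, x (x z) = z := fun z => by rw [← Perm.mul_apply, ← pow_two, hx, Perm.one_apply]
  obtain ⟨a, ha⟩ : ∃ a, x a ≠ a := by
    by_contra hcon
    push Not at hcon
    exact hx1 (Perm.ext hcon)
  obtain ⟨b, hb, hba, hbxa⟩ : ∃ b, x b ≠ b ∧ b ≠ a ∧ b ≠ x a := by
    by_contra hcon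
    push Not at hcon
    have hxs : x = swap a (x a) := Perm.ext fun z => by
      by_cases h1 : z = a
      · rw [h1, swap_apply_left]
      by_cases h2 : z = x a
      · rw [h2, swap_apply_right, hinv]
      rw [swap_apply_of_ne_of_ne h1 h2]
      by_contra h3
      exact h2 (hcon z h3 h1)
    have h := mem_alternatingGroup.1 hxA
    rw [hxs, sign_swap (Ne.symm ha)] at h
    exact absurd h (by decide)
  exact ⟨a, b, ha, hb, hba, hbxa, fun h => hbxa (by rw [← h, hinv]), fun h => hba (x.injective h), hinv a, hinv b⟩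

theorem good_pow_p_two (hs : AltSetting 2 S T) (hn : 2 ^ 2 ≤ Fintype.card α) {t : Perm α}
    (ht : t ∈ T) (htp : t ^ 2 = 1) (ht1 : t ≠ 1) :
    ∀ x : Perm α, x ∈ alternatingGroup α → x ^ 2 = 1 → Good S T x := by
  have htA := hs.le_alt (hs.le ht)
  obtain ⟨a, b, ha, hb, hba, hbxa, hxba, hxbxa, hta, htb⟩ := exists_two_pairs htA htp ht1
  set g := swap (t a) b with hg
  set t' := g * t * g⁻¹ with ht'
  set D := swap a (t b) * swap (t a) b with hD
  have htinv : ∀ z, t (t z) = z := fun z => by rw [← Perm.mul_apply, ← pow_two, htp, Perm.one_apply]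
  have hprod : t * t' = D := Perm.ext fun z => by
    rw [ht', hD, hg, swap_inv]
    simp only [Perm.mul_apply]
    by_cases h1 : z = a
    · subst h1
      simp [swap_apply_left, swap_apply_right, swap_apply_of_ne_of_ne, htinv, *, Ne.symm]
    by_cases h2 : z = t a
    · subst h2
      simp [swap_apply_left, swap_apply_right, swap_apply_of_ne_of_ne, htinv, *, Ne.symm]
    by_cases h3 : z = b
    · subst h3
      simp [swap_apply_left, swap_apply_right, swap_apply_of_ne_of_ne, htinv, *, Ne.symm]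
    by_cases h4 : z = t b
    · subst h4
      simp [swap_apply_left, swap_apply_right, swap_apply_of_ne_of_ne, htinv, *, Ne.symm]
    have h5 : t z ≠ t a := fun h => h1 (t.injective h)
    have h6 : t z ≠ b := fun h => h4 (by rw [← h, htinv])
    rw [swap_apply_of_ne_of_ne h2 h3, swap_apply_of_ne_of_ne h5 h6, htinv, swap_apply_of_ne_of_ne h1 h4]
  have ht'p : t' ^ 2 = 1 := by rw [ht', conj_pow, htp, mul_one, mul_inv_cancel]
  have hD2 : D ^ 2 = 1 := by
    have hdisj : Commute (swap a (t b)) (swap (t a) b) := Perm.Disjoint.commute fun x => by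
      by_cases h1 : x = a ∨ x = t b
      · rcases h1 with rfl | rfl
        · exact Or.inr (swap_apply_of_ne_of_ne (Ne.symm ha) hba.symm)
        · exact Or.inr (swap_apply_of_ne_of_ne hxbxa hb)
      · push Not at h1
        exact Or.inl (swap_apply_of_ne_of_ne h1.1 h1.2)
    rw [hD, hdisj.mul_pow, pow_two, pow_two, swap_mul_self, swap_mul_self, one_mul]
  have hcomm : t * t' = t' * t := by
    have h1 : (t * t')⁻¹ = t * t' := by
      rw [inv_eq_iff_mul_eq_one, hprod, ← pow_two, hD2]
    rw [← h1, mul_inv_rev]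
    congr 1
    · rw [inv_eq_iff_mul_eq_one, ← pow_two, ht'p]
    · rw [inv_eq_iff_mul_eq_one, ← pow_two, htp]
  have ht'A : t' ∈ alternatingGroup α := by
    have h := mem_alternatingGroup.1 htA
    rw [mem_alternatingGroup, ht']
    simp [h]
  have hgt := good_of_mem hs hn ht htp
  have hgD : Good S T D := hprod ▸ good_mul hs hgt (good_of_isConj hgt (isConj_iff.2 ⟨g, rfl⟩))
    (isPGroup_closure_pair hcomm ⟨1, htp⟩ ⟨1, ht'p⟩) (closure_pair_le htA ht'A)
    (Subgroup.subset_closure (by simp)) (Subgroup.subset_closure (by simp))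
  intro x
  induction hk : x.support.card using Nat.strong_induction_on generalizing x with
  | _ k ih =>
    intro hxA hx
    by_cases hx1 : x = 1
    · exact hx1 ▸ good_one
    obtain ⟨c, d, hc, hd, hdc, hdxc, hxdc, hxdxc, hxc, hxd⟩ := exists_two_pairs hxA hx hx1
    set e := swap c (x c) * swap d (x d) with he
    have heD : Good S T e := good_of_isConj hgD (isConj_iff_cycleType_eq.2 (by
      rw [hD, he, cycleType_swap_swap (Ne.symm ha) hba.symm hxbxa hb hxba.symm hbxa.symm,
        cycleType_swap_swap hdc.symm hxdc.symm hdxc.symm hxdxc.symm (Ne.symm hc) (Ne.symm hd)]))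
    have hxinv : ∀ z, x (x z) = z := fun z => by rw [← Perm.mul_apply, ← pow_two, hx, Perm.one_apply]
    have hex : ∀ z, (z = c ∨ z = x c ∨ z = d ∨ z = x d) → e z = x z := by
      rintro z (rfl | rfl | rfl | rfl) <;>
        simp [he, swap_apply_left, swap_apply_right, swap_apply_of_ne_of_ne, hxinv, *, Ne.symm]
    have hez : ∀ z, ¬(z = c ∨ z = x c ∨ z = d ∨ z = x d) → e z = z := by
      intro z hz
      push Not at hz
      rw [he, Perm.mul_apply, swap_apply_of_ne_of_ne hz.2.2.1 hz.2.2.2, swap_apply_of_ne_of_ne hz.1 hz.2.1]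
    have hxset : ∀ z, (z = c ∨ z = x c ∨ z = d ∨ z = x d) → (x z = c ∨ x z = x c ∨ x z = d ∨ x z = x d) := by
      rintro z (rfl | rfl | rfl | rfl) <;> simp [hxinv]
    clear_value e
    have hcom : e * x = x * e := Perm.ext fun z => by
      by_cases hz : z = c ∨ z = x c ∨ z = d ∨ z = x d
      · rw [Perm.mul_apply, Perm.mul_apply, hex z hz, hex _ (hxset z hz)]
      · rw [Perm.mul_apply, Perm.mul_apply, hez z hz, hez _ fun h => hz (by have := hxset _ h; rwa [hxinv] at this)]
    have he2 : e ^ 2 = 1 := Perm.ext fun z => by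
      rw [pow_two, Perm.mul_apply, Perm.one_apply]
      by_cases hz : z = c ∨ z = x c ∨ z = d ∨ z = x d
      · rw [hex z hz, hex _ (hxset z hz), hxinv]
      · rw [hez z hz, hez z hz]
    have heA : e ∈ alternatingGroup α := by
      rw [mem_alternatingGroup, he, map_mul, sign_swap (Ne.symm hc), sign_swap (Ne.symm hd)]
      decide
    have hy2 : (e * x) ^ 2 = 1 := by rw [(show Commute e x from hcom).mul_pow, he2, hx, one_mul]
    have hlt : (e * x).support.card < k := by
      rw [← hk]
      refine Finset.card_lt_card ⟨fun z hz => ?_, fun h => ?_⟩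
      · rw [mem_support] at hz ⊢
        intro hxz
        by_cases hz' : z = c ∨ z = x c ∨ z = d ∨ z = x d
        · exact hz (by rw [Perm.mul_apply, hxz, hex z hz', hxz])
        · exact hz (by rw [Perm.mul_apply, hxz, hez z hz'])
      · have h1 := h (mem_support.2 hc)
        rw [mem_support, Perm.mul_apply, hex (x c) (Or.inr (Or.inl rfl)), hxinv] at h1
        exact h1 rfl
    have hxe : x = e * (e * x) := by rw [← mul_assoc, ← pow_two, he2, one_mul]
    rw [hxe]
    exact good_mul hs heD (ih _ hlt (e * x) rfl (mul_mem heA hxA) hy2)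
      (isPGroup_closure_pair (by rw [mul_assoc e x e, ← hcom]) ⟨1, he2⟩ ⟨1, hy2⟩)
      (closure_pair_le heA (mul_mem heA hxA)) (Subgroup.subset_closure (by simp)) (Subgroup.subset_closure (by simp))

theorem cycleOf_pow_eq_one {f : Perm α} {N : ℕ} (hf : f ^ N = 1) (a : α) : f.cycleOf a ^ N = 1 := by
  by_cases ha : f a = a
  · rw [(cycleOf_eq_one_iff f).2 ha, one_pow]
  have hc := cycleOf_mem_cycleFactorsFinset_iff.2 (mem_support.2 ha)
  rw [← orderOf_dvd_iff_pow_eq_one, (mem_cycleFactorsFinset_iff.1 hc).1.orderOf]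
  refine (dvd_of_mem_cycleType ?_).trans (orderOf_dvd_of_pow_eq_one hf)
  rw [cycleType_def]
  exact Multiset.mem_map.2 ⟨_, hc, rfl⟩

theorem sign_cycleOf_two {f : Perm α} {k : ℕ} (hf : f ^ 2 ^ k = 1) {a : α} (ha : f a ≠ a) : sign (f.cycleOf a) = -1 := by
  have hc := isCycle_cycleOf f ha
  obtain ⟨j, -, hj⟩ := (Nat.dvd_prime_pow Nat.prime_two).1 (orderOf_dvd_of_pow_eq_one (cycleOf_pow_eq_one hf a))
  rw [hc.orderOf] at hj
  have h2 := hc.two_le_card_support
  rw [hc.sign, hj]
  obtain ⟨i, rfl⟩ : ∃ i, j = i + 1 := ⟨j - 1, by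
    rcases Nat.eq_zero_or_pos j with rfl | h
    · simp at hj; omega
    · omega⟩
  rw [pow_succ', pow_mul, Int.units_sq, one_pow]

/-- Every `p`-element of the alternating group is good once one element of order `p` of `T` is given. -/
theorem good_of_isPGroup (hs : AltSetting p S T)
    (h1 : ∀ x : Perm α, x ∈ alternatingGroup α → x ^ p = 1 → Good S T x) :
    ∀ x : Perm α, x ∈ alternatingGroup α → ∀ k : ℕ, x ^ p ^ k = 1 → Good S T x := by
  have hpp : p.Prime := Fact.out
  intro x
  induction hn : x.support.card using Nat.strong_induction_on generalizing x with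
  | _ n ih =>
  intro hxA k hxk
  by_cases hxp : x ^ p = 1
  · exact h1 x hxA hxp
  obtain ⟨a, ha⟩ : ∃ a, (x ^ p) a ≠ a := by
    by_contra hcon
    push Not at hcon
    exact hxp (Perm.ext hcon)
  have hxa : x a ≠ a := fun h => ha (pow_apply_eq_self_of_apply_eq_self h p)
  set c := x.cycleOf a with hcdef
  set ρ := (x ^ p).cycleOf a with hρdef
  set r := c⁻¹ * x with hrdef
  set τ := c * ρ⁻¹ with hτdef
  have hxr : x = τ * (ρ * r) := by rw [hτdef, hrdef]; group
  have hm : p ∣ MulAction.period x a := by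
    have h2 : MulAction.period x a ∣ p ^ k :=
      (MulAction.period_dvd_orderOf x a).trans (orderOf_dvd_of_pow_eq_one hxk)
    obtain ⟨j, -, hj⟩ := (Nat.dvd_prime_pow hpp).1 h2
    rcases Nat.eq_zero_or_pos j with rfl | hj0
    · exfalso
      rw [pow_zero] at hj
      exact hxa (MulAction.period_eq_one_iff.1 hj)
    · exact hj ▸ dvd_pow_self p hj0.ne'
  have hdvd : ∀ i j : ℤ, (x ^ i) a = (x ^ j) a → (p : ℤ) ∣ i - j := by
    intro i j h
    have h3 : x ^ (i - j) • a = a := by
      show (x ^ (i - j)) a = a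
      rw [show i - j = -j + i by ring, zpow_add, Perm.mul_apply, h, ← Perm.mul_apply, ← zpow_add, neg_add_cancel,
        zpow_zero, Perm.one_apply]
    exact (Int.natCast_dvd_natCast.2 hm).trans (MulAction.zpow_smul_eq_iff_period_dvd.1 h3)
  have horb : ∀ b, x.SameCycle a b ↔ ∃ i : ℤ, (x ^ i) a = b := fun b => Iff.rfl
  have hc1 : ∀ i : ℤ, c ((x ^ i) a) = (x ^ (i + 1)) a := fun i => by
    rw [hcdef, SameCycle.cycleOf_apply ⟨i, rfl⟩, add_comm, zpow_add, Perm.mul_apply, zpow_one]
  have hc0 : ∀ b, ¬ x.SameCycle a b → c b = b := fun b hb => cycleOf_apply_of_not_sameCycle hb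
  have hpw : ∀ i : ℤ, (x ^ p) ^ i = x ^ ((p : ℤ) * i) := fun i => by rw [zpow_mul, zpow_natCast]
  have hρ1 : ∀ i : ℤ, (p : ℤ) ∣ i → ρ ((x ^ i) a) = (x ^ (i + p)) a := by
    rintro i ⟨m, rfl⟩
    rw [hρdef, SameCycle.cycleOf_apply ⟨m, by rw [hpw]⟩, add_comm, zpow_add, Perm.mul_apply, zpow_natCast]
  have hρ2 : ∀ i : ℤ, ¬ (p : ℤ) ∣ i → ρ ((x ^ i) a) = (x ^ i) a := fun i hi =>
    cycleOf_apply_of_not_sameCycle fun ⟨m, hm'⟩ => hi (by
      have h := hdvd _ _ (hpw m ▸ hm')
      simpa using dvd_sub (dvd_mul_right (p : ℤ) m) h)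
  have hρ0 : ∀ b, ¬ x.SameCycle a b → ρ b = b := fun b hb =>
    cycleOf_apply_of_not_sameCycle fun ⟨m, hm'⟩ => hb ⟨_, (hpw m ▸ hm')⟩
  have hτρ : ∀ z, τ (ρ z) = c z := fun z => by rw [hτdef, Perm.mul_apply, Perm.inv_def, symm_apply_apply]
  have hτ1 : ∀ i : ℤ, ¬ (p : ℤ) ∣ i → τ ((x ^ i) a) = (x ^ (i + 1)) a := fun i hi => by
    conv_lhs => rw [← hρ2 i hi]
    rw [hτρ, hc1]
  have hτ2 : ∀ i : ℤ, (p : ℤ) ∣ i → τ ((x ^ i) a) = (x ^ (i - p + 1)) a := fun i hi => by
    have h : ρ ((x ^ (i - p)) a) = (x ^ i) a := by rw [hρ1 _ (dvd_sub hi dvd_rfl), sub_add_cancel]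
    conv_lhs => rw [← h]
    rw [hτρ, hc1]
  have hτ0 : ∀ b, ¬ x.SameCycle a b → τ b = b := fun b hb => by
    conv_lhs => rw [← hρ0 b hb]
    rw [hτρ, hc0 b hb]
  have hiter : ∀ (m : ℤ) (j : ℕ), j ≤ p - 1 → (τ ^ j) ((x ^ ((p : ℤ) * m + 1)) a) = (x ^ ((p : ℤ) * m + 1 + j)) a := by
    intro m j
    induction j with
    | zero => intro _; simp
    | succ j ihj =>
      intro hj
      rw [pow_succ', Perm.mul_apply, ihj (by omega), hτ1 _ ?_]
      · congr 2
        push_cast
        ring
      · intro hd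
        have h1 : (p : ℤ) ∣ ((j + 1 : ℕ) : ℤ) := by
          have := dvd_sub hd (dvd_mul_right (p : ℤ) m)
          push_cast
          rwa [show (p : ℤ) * m + 1 + j - p * m = j + 1 by ring] at this
        have h2 := Nat.le_of_dvd (by omega) (Int.natCast_dvd_natCast.1 h1)
        omega
  have hτp : τ ^ p = 1 := Perm.ext fun b => by
    rw [Perm.one_apply]
    by_cases hb : x.SameCycle a b
    · obtain ⟨i, rfl⟩ := (horb b).1 hb
      have hbase : ∀ m : ℤ, (τ ^ p) ((x ^ ((p : ℤ) * m + 1)) a) = (x ^ ((p : ℤ) * m + 1)) a := by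
        intro m
        have e : p = (p - 1) + 1 := by have := hpp.one_lt; omega
        have e2 : τ ^ p = τ * τ ^ (p - 1) := by rw [← pow_succ', ← e]
        rw [e2, Perm.mul_apply, hiter m _ le_rfl]
        rw [hτ2 _ ⟨m + 1, by
          rw [Nat.cast_sub hpp.one_lt.le]
          push_cast
          ring⟩]
        congr 2
        rw [Nat.cast_sub hpp.one_lt.le]
        push_cast
        ring
      have hp0 : (0 : ℤ) < p := by exact_mod_cast hpp.pos
      have e1 : i = (p : ℤ) * ((i - 1) / p) + 1 + ((i - 1) % p).toNat := by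
        rw [Int.toNat_of_nonneg (Int.emod_nonneg _ hp0.ne')]
        have := Int.mul_ediv_add_emod (i - 1) p
        linarith
      have hs1 : ((i - 1) % (p : ℤ)).toNat ≤ p - 1 := by
        have := Int.emod_lt_of_pos (i - 1) hp0
        omega
      rw [e1, ← hiter _ _ hs1, ← Perm.mul_apply, ← pow_add, add_comm, pow_add, Perm.mul_apply, hbase]
    · exact pow_apply_eq_self_of_apply_eq_self (hτ0 b hb) p
  have hr0 : ∀ b, x.SameCycle a b → r b = b := by
    intro b hb
    rw [hrdef, Perm.mul_apply, Perm.inv_def, Equiv.symm_apply_eq, hcdef, hb.cycleOf_apply]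
  have hxc : Commute x c := self_mem_cycle_factors_commute
    (cycleOf_mem_cycleFactorsFinset_iff.2 (mem_support.2 hxa)) |>.symm
  have hρx : Commute (x ^ p) ρ := self_mem_cycle_factors_commute
    (cycleOf_mem_cycleFactorsFinset_iff.2 (mem_support.2 ha)) |>.symm
  have hcxp : Commute (x ^ p) c := hxc.pow_left p
  have hτxp : Commute (x ^ p) τ := hcxp.mul_right hρx.inv_right
  have hρr : Commute ρ r := Perm.Disjoint.commute fun b => by
    by_cases hb : x.SameCycle a b
    · exact Or.inr (hr0 b hb)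
    · exact Or.inl (hρ0 b hb)
  have hτr : Commute τ r := Perm.Disjoint.commute fun b => by
    by_cases hb : x.SameCycle a b
    · exact Or.inr (hr0 b hb)
    · exact Or.inl (hτ0 b hb)
  have hρk : ρ ^ p ^ k = 1 := cycleOf_pow_eq_one (by rw [← pow_mul, mul_comm, pow_mul, hxk, one_pow]) a
  have hrk : r ^ p ^ k = 1 := by
    rw [hrdef, hxc.symm.inv_left.mul_pow, inv_pow, cycleOf_pow_eq_one hxk a, hxk, inv_one, one_mul]
  set y := ρ * r with hy
  have hyk : y ^ p ^ k = 1 := by rw [hy, hρr.mul_pow, hρk, hrk, one_mul]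
  -- parity
  have hτA : τ ∈ alternatingGroup α := by
    rcases hpp.eq_two_or_odd' with h2 | hodd
    · subst h2
      rw [mem_alternatingGroup, hτdef, map_mul, map_inv, hcdef, hρdef, sign_cycleOf_two hxk hxa,
        sign_cycleOf_two (f := x ^ 2) (k := k) (by rw [← pow_mul, mul_comm, pow_mul, hxk, one_pow]) ha]
      decide
    · exact mem_alternatingGroup.2 (sign_eq_one_of_odd_pow hodd hτp)
  have hyA : y ∈ alternatingGroup α := by
    have e : y = τ⁻¹ * x := by rw [hxr]; group
    exact e ▸ mul_mem (inv_mem hτA) hxA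
  -- the support of `y`
  have hlt : y.support.card < n := by
    rw [← hn]
    refine Finset.card_lt_card ⟨fun b hb => ?_, fun h => ?_⟩
    · rw [mem_support] at hb ⊢
      intro hxb
      apply hb
      by_cases hs' : x.SameCycle a b
      · exact absurd (hs'.symm.eq_of_left hxb) (fun h => hxa (by rwa [h] at hxb))
      · have hcb := hc0 b hs'
        have hrb : r b = b := by rw [hrdef, Perm.mul_apply, hxb, Perm.inv_def, Equiv.symm_apply_eq, hcb]
        rw [hy, Perm.mul_apply, hrb, hρ0 b hs']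
    · have h1 := h (mem_support.2 fun e => hxa (x.injective e) : x a ∈ x.support)
      rw [mem_support, hy, Perm.mul_apply, hr0 _ ⟨1, by simp⟩] at h1
      refine h1 ?_
      have := hρ2 1 (fun h => hpp.not_dvd_one (Int.natCast_dvd_natCast.1 (by exact_mod_cast h)))
      simpa using this
  -- a `p`-group containing `τ` and `y`
  set K : Subgroup (Perm α) := Subgroup.closure
    ({e | ∃ b, x.SameCycle a b ∧ e = (x ^ p).cycleOf b} ∪ {r}) with hK
  have hKp : IsPGroup p K := by
    refine isPGroup_closure_comm ?_ ?_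
    · have hre : ∀ b, x.SameCycle a b → Commute ((x ^ p).cycleOf b) r := fun b hb => Perm.Disjoint.commute fun z => by
        by_cases hz : x.SameCycle a z
        · exact Or.inr (hr0 z hz)
        · exact Or.inl (cycleOf_apply_of_not_sameCycle fun h => hz (hb.trans h.of_pow))
      have hee : ∀ b b', Commute ((x ^ p).cycleOf b) ((x ^ p).cycleOf b') := fun b b' => by
        by_cases hb : (x ^ p) b = b
        · rw [(cycleOf_eq_one_iff _).2 hb]; exact Commute.one_left _
        by_cases hb' : (x ^ p) b' = b'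
        · rw [(cycleOf_eq_one_iff _).2 hb']; exact Commute.one_right _
        exact cycleFactorsFinset_mem_commute' (x ^ p) (cycleOf_mem_cycleFactorsFinset_iff.2 (mem_support.2 hb))
          (cycleOf_mem_cycleFactorsFinset_iff.2 (mem_support.2 hb'))
      rintro u (⟨b, hb, rfl⟩ | rfl) v (⟨b', hb', rfl⟩ | rfl)
      exacts [hee b b', hre b hb, (hre b' hb').symm, rfl]
    · rintro u (⟨b, -, rfl⟩ | rfl)
      · exact ⟨k, cycleOf_pow_eq_one (by rw [← pow_mul, mul_comm, pow_mul, hxk, one_pow]) b⟩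
      · exact ⟨k, hrk⟩
  have hKn : ∀ u ∈ K, τ * u * τ⁻¹ ∈ K := by
    intro u hu
    induction hu using Subgroup.closure_induction with
    | mem v hv =>
      rcases hv with ⟨b, hb, rfl⟩ | rfl
      · refine Subgroup.subset_closure (Or.inl ⟨τ b, ?_, ?_⟩)
        · obtain ⟨i, rfl⟩ := (horb b).1 hb
          by_cases hi : (p : ℤ) ∣ i
          · exact ⟨_, (hτ2 i hi).symm⟩
          · exact ⟨_, (hτ1 i hi).symm⟩
        · refine Perm.ext fun z => ?_
          have hconj : τ * x ^ p * τ⁻¹ = x ^ p := by rw [← hτxp.eq, mul_inv_cancel_right]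
          have hiff : (x ^ p).SameCycle (τ b) z ↔ (x ^ p).SameCycle b (τ⁻¹ z) := by
            conv_lhs => rw [← hconj]
            rw [sameCycle_conj]
            simp
          rw [Perm.mul_apply, Perm.mul_apply, cycleOf_apply, cycleOf_apply]
          by_cases h : (x ^ p).SameCycle b (τ⁻¹ z)
          · rw [if_pos h, if_pos (hiff.2 h), ← Perm.mul_apply, ← hτxp.eq, Perm.mul_apply]
            simp
          · rw [if_neg h, if_neg (fun h' => h (hiff.1 h'))]
            simp
      · rw [hτr.eq, mul_inv_cancel_right]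
        exact Subgroup.subset_closure (Or.inr rfl)
    | one => simp
    | mul v w _ _ hv hw =>
      have e : τ * (v * w) * τ⁻¹ = τ * v * τ⁻¹ * (τ * w * τ⁻¹) := by group
      rw [e]; exact K.mul_mem hv hw
    | inv v _ hv =>
      have e : τ * v⁻¹ * τ⁻¹ = (τ * v * τ⁻¹)⁻¹ := by group
      rw [e]; exact K.inv_mem hv
  have hτn : Subgroup.zpowers τ ≤ Subgroup.normalizer (K : Set (Perm α)) := by
    rw [Subgroup.zpowers_le, Subgroup.mem_normalizer_iff]
    have hpow : ∀ (j : ℕ) (u), u ∈ K → τ ^ j * u * (τ ^ j)⁻¹ ∈ K := fun j => by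
      induction j with
      | zero => intro u hu; simpa using hu
      | succ j ihj =>
        intro u hu
        have := hKn _ (ihj u hu)
        rwa [show τ ^ (j + 1) * u * (τ ^ (j + 1))⁻¹ = τ * (τ ^ j * u * (τ ^ j)⁻¹) * τ⁻¹ by rw [pow_succ']; group]
    refine fun u => ⟨hKn u, fun hu => ?_⟩
    have h2 := hpow (p - 1) _ hu
    have e : τ ^ (p - 1) = τ⁻¹ := by
      rw [eq_inv_iff_mul_eq_one, ← pow_succ, Nat.sub_add_cancel hpp.one_lt.le, hτp]
    rw [e] at h2
    simpa [mul_assoc] using h2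
  have hP : IsPGroup p (Subgroup.zpowers τ ⊔ K : Subgroup (Perm α)) :=
    IsPGroup.to_sup_of_normal_right' (isPGroup_closure_pair (p := p) (x := τ) (y := τ) rfl ⟨1, by rwa [pow_one]⟩
      ⟨1, by rwa [pow_one]⟩ |>.to_le (by rw [Subgroup.zpowers_le]; exact Subgroup.subset_closure (by simp))) hKp hτn
  have hρK : ρ ∈ K := Subgroup.subset_closure (Or.inl ⟨a, SameCycle.refl _ _, rfl⟩)
  have hrK : r ∈ K := Subgroup.subset_closure (Or.inr rfl)
  rw [hxr]
  exact good_mul hs (h1 τ hτA hτp) (ih _ hlt y rfl hyA k hyk)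
    (P := (Subgroup.zpowers τ ⊔ K) ⊓ alternatingGroup α) (hP.to_le inf_le_left) inf_le_right
    ⟨Subgroup.mem_sup_left (Subgroup.mem_zpowers τ), hτA⟩ ⟨Subgroup.mem_sup_right (K.mul_mem hρK hrK), hyA⟩

/-- A non-trivial subgroup of a Sylow subgroup strongly closed in `Alt(α)` is the whole Sylow subgroup. -/
theorem eq_of_closed (hs : AltSetting p S T) (hSp : IsPGroup p S) (hn : p ^ 2 ≤ Fintype.card α) (hT : T ≠ ⊥) :
    T = S := by
  have hpp : p.Prime := Fact.out
  have hTp : IsPGroup p T := hSp.to_le hs.le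
  haveI : Nontrivial T := (Subgroup.nontrivial_iff_ne_bot T).2 hT
  obtain ⟨m, hm0, hm⟩ := hTp.nontrivial_iff_card.1 inferInstance
  obtain ⟨t, ht⟩ := exists_prime_orderOf_dvd_card' (G := T) p (hm ▸ dvd_pow_self p hm0.ne')
  have ho : orderOf (t : Perm α) = p := by rwa [Subgroup.orderOf_coe]
  have htp : (t : Perm α) ^ p = 1 := by
    have := pow_orderOf_eq_one (t : Perm α)
    rwa [ho] at this
  have ht1 : (t : Perm α) ≠ 1 := fun h => hpp.one_lt.ne (by rwa [h, orderOf_one] at ho)
  have h1 : ∀ x : Perm α, x ∈ alternatingGroup α → x ^ p = 1 → Good S T x := by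
    rcases eq_or_ne p 2 with h2 | h2
    · subst h2
      exact good_pow_p_two hs hn t.2 htp ht1
    · exact fun x _ => good_pow_p_odd hs hn h2 t.2 htp ht1 x
  refine le_antisymm hs.le fun x hx => ?_
  obtain ⟨k, hk⟩ := hSp ⟨x, hx⟩
  have := good_of_isPGroup hs h1 x (hs.le_alt hx) k (congrArg Subtype.val hk) 1 (by simpa using hx)
  simpa using this

end CfsgLib.AltFusion
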