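import Cfsg.Agent.Fusion.AltNormalizer

/-!
Two levels of the monomial model: a self-centralising subgroup made of regular elementary abelian
groups of order `p²` on blocks, the normal closure of its stabiliser in the Sylow group, and the
generation of the normaliser of a Sylow `p`-subgroup of the alternating group (`p` odd).
-/

set_option autoImplicit false

namespace CfsgLib.AltFusion

open Equiv Equiv.Perm CfsgLib.Fusion

variable {p : ℕ} [Fact p.Prime] {β κ ρ : Type*} [Fintype β] [DecidableEq β] [Fintype κ] [DecidableEq κ]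
  [Fintype ρ] [DecidableEq ρ]

/-- The translations of the blocks in two directions, and of the further fibres. -/
def trans (d c : β → ZMod p) (e : κ → ZMod p) : Perm ((β × ZMod p ⊕ κ) × ZMod p ⊕ ρ) :=
  M (M (1 : Perm β) 1 d) 1 (Sum.elim (fun a => c a.1) e)

/-- The transvection `(j, x) ↦ (j, x + ν j)` on each block. -/
def lowerT (ν : β → ZMod p) : Perm ((β × ZMod p ⊕ κ) × ZMod p ⊕ ρ) :=
  M 1 1 (Sum.elim (fun a => ν a.1 * a.2) 0)

/-- The exchange of the two coordinates on each block. -/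
def swapT : Perm ((β × ZMod p ⊕ κ) × ZMod p ⊕ ρ) :=
  Function.Involutive.toPerm
    (Sum.map (fun a => match a with
      | (Sum.inl (b, j), x) => (Sum.inl (b, x), j)
      | (Sum.inr k, x) => (Sum.inr k, x)) id)
    (by rintro (⟨⟨b, j⟩ | k, x⟩ | z) <;> rfl)

/-- The transvection `(j, x) ↦ (j + ν x, x)` on each block. -/
def upperT (ν : β → ZMod p) : Perm ((β × ZMod p ⊕ κ) × ZMod p ⊕ ρ) := swapT * lowerT ν * swapT

section Simp

omit [Fintype β] [DecidableEq β] [Fintype κ] [DecidableEq κ] [Fintype ρ] [DecidableEq ρ]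

@[simp] theorem trans_blk (d c : β → ZMod p) (e : κ → ZMod p) (b : β) (j x : ZMod p) :
    trans (ρ := ρ) d c e (Sum.inl (Sum.inl (b, j), x)) = Sum.inl (Sum.inl (b, j + d b), x + c b) := by simp [trans]

@[simp] theorem trans_fib (d c : β → ZMod p) (e : κ → ZMod p) (k : κ) (x : ZMod p) :
    trans (ρ := ρ) d c e (Sum.inl (Sum.inr k, x)) = Sum.inl (Sum.inr k, x + e k) := by simp [trans]

@[simp] theorem trans_inr (d c : β → ZMod p) (e : κ → ZMod p) (z : ρ) :
    trans (ρ := ρ) d c e (Sum.inr z) = Sum.inr z := by simp [trans]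

@[simp] theorem lowerT_blk (ν : β → ZMod p) (b : β) (j x : ZMod p) :
    lowerT (κ := κ) (ρ := ρ) ν (Sum.inl (Sum.inl (b, j), x)) = Sum.inl (Sum.inl (b, j), x + ν b * j) := by
  simp [lowerT]

@[simp] theorem lowerT_fib (ν : β → ZMod p) (k : κ) (x : ZMod p) :
    lowerT (β := β) (ρ := ρ) ν (Sum.inl (Sum.inr k, x)) = Sum.inl (Sum.inr k, x) := by simp [lowerT]

@[simp] theorem lowerT_inr (ν : β → ZMod p) (z : ρ) :
    lowerT (κ := κ) (ρ := ρ) ν (Sum.inr z) = Sum.inr z := by simp [lowerT]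

@[simp] theorem swapT_blk (b : β) (j x : ZMod p) :
    swapT (κ := κ) (ρ := ρ) (Sum.inl (Sum.inl (b, j), x)) = Sum.inl (Sum.inl (b, x), j) := rfl

@[simp] theorem swapT_fib (k : κ) (x : ZMod p) :
    swapT (β := β) (ρ := ρ) (Sum.inl (Sum.inr k, x)) = Sum.inl (Sum.inr k, x) := rfl

@[simp] theorem swapT_inr (z : ρ) : swapT (p := p) (β := β) (κ := κ) (ρ := ρ) (Sum.inr z) = Sum.inr z := rfl

@[simp] theorem upperT_blk (ν : β → ZMod p) (b : β) (j x : ZMod p) :
    upperT (κ := κ) (ρ := ρ) ν (Sum.inl (Sum.inl (b, j), x)) = Sum.inl (Sum.inl (b, j + ν b * x), x) := by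
  simp [upperT]

@[simp] theorem upperT_fib (ν : β → ZMod p) (k : κ) (x : ZMod p) :
    upperT (β := β) (ρ := ρ) ν (Sum.inl (Sum.inr k, x)) = Sum.inl (Sum.inr k, x) := by simp [upperT]

@[simp] theorem upperT_inr (ν : β → ZMod p) (z : ρ) :
    upperT (κ := κ) (ρ := ρ) ν (Sum.inr z) = Sum.inr z := by simp [upperT]

theorem trans_mul (d c d' c' : β → ZMod p) (e e' : κ → ZMod p) :
    trans (ρ := ρ) d c e * trans d' c' e' = trans (d + d') (c + c') (e + e') := by
  ext (⟨⟨b, j⟩ | k, x⟩ | z) <;> simp [add_assoc, add_comm, add_left_comm]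

theorem trans_zero : trans (p := p) (ρ := ρ) (0 : β → ZMod p) 0 (0 : κ → ZMod p) = 1 := by
  ext (⟨⟨b, j⟩ | k, x⟩ | z) <;> simp

end Simp

/-- The group of all translations. -/
def transGroup (β κ ρ : Type*) (p : ℕ) [Fact p.Prime] : Subgroup (Perm ((β × ZMod p ⊕ κ) × ZMod p ⊕ ρ)) where
  carrier := {g | ∃ d c e, g = trans d c e}
  one_mem' := ⟨0, 0, 0, trans_zero.symm⟩
  mul_mem' := by
    rintro _ _ ⟨d, c, e, rfl⟩ ⟨d', c', e', rfl⟩
    exact ⟨_, _, _, trans_mul _ _ _ _ _ _⟩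
  inv_mem' := by
    rintro _ ⟨d, c, e, rfl⟩
    exact ⟨-d, -c, -e, inv_eq_of_mul_eq_one_right (by rw [trans_mul, add_neg_cancel, add_neg_cancel, add_neg_cancel,
      trans_zero])⟩

/-- The translations contain their centraliser. -/
theorem centralizer_transGroup [Subsingleton ρ] {g : Perm ((β × ZMod p ⊕ κ) × ZMod p ⊕ ρ)}
    (hg : g ∈ Subgroup.centralizer ((transGroup β κ ρ p : Subgroup _) : Set _)) : g ∈ transGroup β κ ρ p := by
  have hcom : ∀ d c e z, g (trans d c e z) = trans d c e (g z) := fun d c e z =>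
    (DFunLike.congr_fun (Subgroup.mem_centralizer_iff.1 hg _ ⟨d, c, e, rfl⟩) z).symm
  have hblk : ∀ b, ∃ d c : ZMod p, g (Sum.inl (Sum.inl (b, 0), 0)) = Sum.inl (Sum.inl (b, d), c) := by
    intro b
    have h := hcom (Pi.single b 1) 0 0 (Sum.inl (Sum.inl (b, 0), 0))
    rcases hg0 : g (Sum.inl (Sum.inl (b, 0), 0)) with ⟨⟨b', d⟩ | k, c⟩ | z
    · rcases eq_or_ne b' b with rfl | hb
      · exact ⟨d, c, rfl⟩
      · exfalso
        rw [hg0] at h
        simp [Pi.single_eq_of_ne hb] at h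
        have := g.injective (h.trans hg0.symm)
        simp at this
    · exfalso
      rw [hg0] at h
      simp at h
      have := g.injective (h.trans hg0.symm)
      simp at this
    · exfalso
      rw [hg0] at h
      simp at h
      have := g.injective (h.trans hg0.symm)
      simp at this
  have hfib : ∀ k, ∃ e : ZMod p, g (Sum.inl (Sum.inr k, 0)) = Sum.inl (Sum.inr k, e) := by
    intro k
    have h := hcom 0 0 (Pi.single k 1) (Sum.inl (Sum.inr k, 0))
    rcases hg0 : g (Sum.inl (Sum.inr k, 0)) with ⟨⟨b', d⟩ | k', c⟩ | z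
    · exfalso
      rw [hg0] at h
      simp at h
      have := g.injective (h.trans hg0.symm)
      simp at this
    · rcases eq_or_ne k' k with rfl | hk
      · exact ⟨c, rfl⟩
      · exfalso
        rw [hg0] at h
        simp [Pi.single_eq_of_ne hk] at h
        have := g.injective (h.trans hg0.symm)
        simp at this
    · exfalso
      rw [hg0] at h
      simp at h
      have := g.injective (h.trans hg0.symm)
      simp at this
  choose d c hdc using hblk
  choose e he using hfib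
  have hgb : ∀ b j x, g (Sum.inl (Sum.inl (b, j), x)) = Sum.inl (Sum.inl (b, j + d b), x + c b) := by
    intro b j x
    have h := hcom (Pi.single b j) (Pi.single b x) 0 (Sum.inl (Sum.inl (b, 0), 0))
    rw [hdc] at h
    simpa [add_comm] using h
  have hgf : ∀ k x, g (Sum.inl (Sum.inr k, x)) = Sum.inl (Sum.inr k, x + e k) := by
    intro k x
    have h := hcom 0 0 (Pi.single k x) (Sum.inl (Sum.inr k, 0))
    rw [he] at h
    simpa [add_comm] using h
  refine ⟨d, c, e, Perm.ext ?_⟩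
  rintro (⟨⟨b, j⟩ | k, x⟩ | z)
  · simp [hgb]
  · simp [hgf]
  · rcases hgz : g (Sum.inr z) with ⟨⟨b, j⟩ | k, x⟩ | z'
    · exfalso
      have h1 := hgb b (j - d b) (x - c b)
      rw [sub_add_cancel, sub_add_cancel, ← hgz] at h1
      exact Sum.inl_ne_inr (g.injective h1)
    · exfalso
      have h1 := hgf k (x - e k)
      rw [sub_add_cancel, ← hgz] at h1
      exact Sum.inl_ne_inr (g.injective h1)
    · rw [trans_inr, Subsingleton.elim z' z]

variable {P : Subgroup (Perm β)}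

theorem lowerT_mem_base (ν : β → ZMod p) :
    lowerT (κ := κ) (ρ := ρ) ν ∈ base (p := p) (base (p := p) (ρ := κ) P) := M_mem_base (Subgroup.one_mem _) _

theorem transGroup_le_base : transGroup β κ ρ p ≤ base (p := p) (base (p := p) (ρ := κ) P) := by
  rintro _ ⟨d, c, e, rfl⟩
  exact M_mem_base (M_mem_base P.one_mem d) _

theorem lowerT_mem_normalizer (ν : β → ZMod p) :
    lowerT (κ := κ) (ρ := ρ) ν ∈ Subgroup.normalizer ((transGroup β κ ρ p : Subgroup _) : Set _) := by
  refine CfsgLib.AltSylowTwo.mem_normalizer_of_forall ?_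
  rintro _ ⟨d, c, e, rfl⟩
  refine ⟨d, c + ν * d, e, mul_inv_eq_iff_eq_mul.2 (Perm.ext ?_)⟩
  rintro (⟨⟨b, j⟩ | k, x⟩ | z) <;> simp <;> ring

theorem upperT_mem_closureGen (hp : p ≠ 2) (hP : IsPGroup p P) (ν : β → ZMod p) :
    upperT (κ := κ) (ρ := ρ) ν ∈ closureGen (alternatingGroup ((β × ZMod p ⊕ κ) × ZMod p ⊕ ρ))
      (base (p := p) (base (p := p) (ρ := κ) P)) (transGroup β κ ρ p) := by
  set m : Perm ((β × ZMod p ⊕ κ) × ZMod p ⊕ ρ) := upperT 1 * lowerT (-1) * upperT 1 with hm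
  have hmA : m ∈ alternatingGroup ((β × ZMod p ⊕ κ) × ZMod p ⊕ ρ) := by
    have hl : ∀ ν : β → ZMod p, sign (lowerT (κ := κ) (ρ := ρ) ν) = 1 := fun ν =>
      mem_alternatingGroup.1 (base_le_alt hp (isPGroup_base hP) (lowerT_mem_base (P := P) ν))
    rw [mem_alternatingGroup, hm, upperT]
    simp [map_mul, hl, mul_assoc, Int.units_mul_self]
  have hmN : m ∈ Subgroup.normalizer ((transGroup β κ ρ p : Subgroup _) : Set _) := by
    refine CfsgLib.AltSylowTwo.mem_normalizer_of_forall ?_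
    rintro _ ⟨d, c, e, rfl⟩
    refine ⟨c, -d, e, mul_inv_eq_iff_eq_mul.2 (Perm.ext ?_)⟩
    rintro (⟨⟨b, j⟩ | k, x⟩ | z) <;> simp [hm] <;> ring_nf <;> simp
  have e : upperT ν = m * lowerT (-ν) * m⁻¹ := by
    rw [eq_mul_inv_iff_mul_eq]
    refine Perm.ext ?_
    rintro (⟨⟨b, j⟩ | k, x⟩ | z) <;> simp [hm] <;> ring_nf <;> simp
  rw [e]
  exact Subgroup.subset_closure
    ⟨m, ⟨hmA, hmN⟩, _, ⟨lowerT_mem_base _, lowerT_mem_normalizer _⟩, rfl⟩

/-- The block torus `(j, x) ↦ (j / v, v x)`. -/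
theorem torus_mem_closureGen (hp : p ≠ 2) (hP : IsPGroup p P) (v : β → (ZMod p)ˣ) :
    M (ρ := ρ) (M (ρ := κ) (1 : Perm β) v⁻¹ 0) (Sum.elim (fun a => v a.1) 1) 0 ∈
      closureGen (alternatingGroup ((β × ZMod p ⊕ κ) × ZMod p ⊕ ρ))
        (base (p := p) (base (p := p) (ρ := κ) P)) (transGroup β κ ρ p) := by
  set K := closureGen (alternatingGroup ((β × ZMod p ⊕ κ) × ZMod p ⊕ ρ))
        (base (p := p) (base (p := p) (ρ := κ) P)) (transGroup β κ ρ p)
  have hl : ∀ ν, lowerT ν ∈ K := fun ν => Subgroup.subset_closure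
    ⟨1, one_mem _, _, ⟨lowerT_mem_base _, lowerT_mem_normalizer ν⟩, by simp⟩
  have hu := upperT_mem_closureGen (κ := κ) (ρ := ρ) hp hP
  have e : M (ρ := ρ) (M (ρ := κ) (1 : Perm β) v⁻¹ 0) (Sum.elim (fun a => v a.1) 1) 0 =
      upperT (fun b => ((v b)⁻¹ : (ZMod p)ˣ)) * lowerT (fun b => -(v b : ZMod p)) *
        upperT (fun b => ((v b)⁻¹ : (ZMod p)ˣ)) * (upperT (-1) * lowerT 1 * upperT (-1)) := by
    refine Perm.ext ?_
    rintro (⟨⟨b, j⟩ | k, x⟩ | z)
    · simp only [Perm.mul_apply, M_inl, upperT_blk, lowerT_blk, Pi.inv_apply, Pi.zero_apply, Sum.elim_inl,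
        Pi.neg_apply, Pi.one_apply, Perm.one_apply]
      have h1 : (((v b)⁻¹ : (ZMod p)ˣ) : ZMod p) * (v b : ZMod p) = 1 := by rw [← Units.val_mul, inv_mul_cancel]; rfl
      congr 2
      · congr 1
        congr 1
        first
          | linear_combination ((((v b)⁻¹ : (ZMod p)ˣ) : ZMod p) * j - x) * h1
          | linear_combination (x - (((v b)⁻¹ : (ZMod p)ˣ) : ZMod p) * j) * h1
      · first
          | linear_combination j * h1
          | linear_combination (-j) * h1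
    · simp only [Perm.mul_apply, M_inl, M_inr, upperT_fib, lowerT_fib, Sum.elim_inr, Pi.one_apply, Pi.zero_apply,
        Units.val_one, one_mul, add_zero]
    · simp only [Perm.mul_apply, M_inr, upperT_inr, lowerT_inr]
  rw [e]
  exact K.mul_mem (K.mul_mem (K.mul_mem (hu _) (hl _)) (hu _)) (K.mul_mem (K.mul_mem (hu _) (hl _)) (hu _))

theorem zmod_three_facts : (∀ x : ZMod 3, x = 0 ∨ x = 1 ∨ x = 2) ∧ ((1 : ZMod 3) ≠ 2 ∧ (0 : ZMod 3) ≠ 2 ∧
    (0 : ZMod 3) ≠ 1) ∧ (2 : ZMod 3) + 1 = 0 ∧ (1 : ZMod 3) + 1 = 2 := by decide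

/-- The normaliser of the model Sylow subgroup is generated by its parts in the normal closures. -/
theorem hasClosureGen_model [Subsingleton ρ] [Nonempty β] (hp : p ≠ 2) (hκ : Fintype.card κ < p) (P : Sylow p (Perm β)) :
    HasClosureGen (alternatingGroup ((β × ZMod p ⊕ κ) × ZMod p ⊕ ρ))
      (base (p := p) (ρ := ρ) (base (p := p) (ρ := κ) (P : Subgroup (Perm β)))) := by
  classical
  have hpp : p.Prime := Fact.out
  set A := alternatingGroup ((β × ZMod p ⊕ κ) × ZMod p ⊕ ρ)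
  set Q := base (p := p) (ρ := κ) (P : Subgroup (Perm β))
  set S := base (p := p) (ρ := ρ) Q
  have hQp : IsPGroup p Q := isPGroup_base P.isPGroup'
  intro g hg
  obtain ⟨π, u, c, rfl⟩ := exists_eq_M hg.2
  set μ := ∏ i, u i
  obtain ⟨b₀⟩ := ‹Nonempty β›
  set O := MulAction.orbit (P : Subgroup (Perm β)) b₀
  obtain ⟨o, ho⟩ := P.isPGroup'.card_orbit b₀
  set v : β → (ZMod p)ˣ := fun b => if b ∈ O then μ else 1 with hv
  have hOinv : ∀ s ∈ (P : Subgroup (Perm β)), ∀ b, v (s b) = v b := by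
    intro s hs b
    have h : s b ∈ O ↔ b ∈ O := ⟨fun ⟨x, hx⟩ => ⟨⟨s, hs⟩⁻¹ * x, by
        show (⟨s, hs⟩⁻¹ * x : (P : Subgroup (Perm β))) • b₀ = b
        rw [mul_smul, show x • b₀ = (⟨s, hs⟩ : (P : Subgroup (Perm β))) • b from hx, inv_smul_smul]⟩,
      fun ⟨x, hx⟩ => ⟨⟨s, hs⟩ * x, by
        show ((⟨s, hs⟩ : (P : Subgroup (Perm β))) * x) • b₀ = s b
        rw [mul_smul, show x • b₀ = b from hx]; rfl⟩⟩
    simp only [hv, h]
  set δ : Perm ((β × ZMod p ⊕ κ) × ZMod p ⊕ ρ) := M (M (ρ := κ) (1 : Perm β) v⁻¹ 0) (Sum.elim (fun a => v a.1) 1) 0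
  have hδK : δ ∈ closureGen A S (transGroup β κ ρ p) := torus_mem_closureGen hp P.isPGroup' v
  have hδN : δ ∈ Subgroup.normalizer (S : Set _) := by
    refine M_mem_normalizer_base ?_ ?_
    · rintro _ ⟨s, hs, d, rfl⟩ (⟨b, j⟩ | k)
      · simp [hOinv s hs b]
      · simp
    · intro q hq
      refine (Subgroup.mem_normalizer_iff.1 (M_mem_normalizer_base ?_ ?_) q).1 hq
      · intro s hs b
        simp [hOinv s hs b]
      · intro s hs
        simpa using hs
  have hclA : ∀ R : Subgroup (Perm ((β × ZMod p ⊕ κ) × ZMod p ⊕ ρ)), closureGen A S R ≤ A := by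
    intro R
    rw [closureGen, Subgroup.closure_le]
    rintro _ ⟨m, hm, x, hx, rfl⟩
    exact mul_mem (mul_mem hm.1 (base_le_alt hp hQp hx.1)) (inv_mem hm.1)
  have hδA : δ ∈ A := hclA _ hδK
  obtain ⟨π', u', c', hh⟩ := exists_eq_M (Subgroup.mul_mem _ (Subgroup.inv_mem _ hδN) hg.2)
  have hprod : ∏ i, u' i = 1 := by
    have h1 : M (ρ := ρ) π u c = δ * M π' u' c' := by rw [← hh, mul_inv_cancel_left]
    rw [M_mul] at h1
    obtain ⟨-, hu, -⟩ := M_inj h1
    have h2 : μ = (∏ i, Sum.elim (fun a : β × ZMod p => v a.1) (1 : κ → (ZMod p)ˣ) i) * ∏ i, u' i := by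
      show (∏ i, u i) = _
      rw [hu, Finset.prod_mul_distrib]
      congr 1
      exact Equiv.prod_comp π' _
    have h3 : (∏ i, Sum.elim (fun a : β × ZMod p => v a.1) (1 : κ → (ZMod p)ˣ) i) = μ := by
      have hμp : μ ^ p = μ := Units.ext (by rw [Units.val_pow_eq_pow_val, ZMod.pow_card])
      have hiter : ∀ k : ℕ, μ ^ p ^ k = μ := fun k => by
        induction k with
        | zero => simp
        | succ k ih => rw [pow_succ, pow_mul, ih, hμp]
      rw [Fintype.prod_sum_type, Fintype.prod_prod_type]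
      simp only [Sum.elim_inl, Sum.elim_inr, Pi.one_apply, Finset.prod_const_one, mul_one]
      simp only [Finset.prod_const, Finset.card_univ, ZMod.card]
      simp only [hv]
      rw [Finset.prod_pow, Finset.prod_ite, Finset.prod_const, Finset.prod_const_one, mul_one,
        show (Finset.univ.filter fun b => b ∈ O).card = p ^ o by
          rw [← ho, Nat.card_eq_fintype_card, ← Set.toFinset_card]
          congr 1
          ext b
          simp [O], ← pow_mul, ← pow_succ, hiter]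
    rw [h3] at h2
    exact (left_eq_mul (a := μ)).1 h2
  have hKT : A ⊓ Subgroup.centralizer ((transGroup β κ ρ p : Subgroup _) : Set _) ≤ transGroup β κ ρ p :=
    fun x hx => centralizer_transGroup hx.2
  have hKE : A ⊓ Subgroup.centralizer ((base (p := p) (ρ := ρ) (⊥ : Subgroup (Perm (β × ZMod p ⊕ κ)))
      : Subgroup _) : Set _) ≤ base (p := p) (ρ := ρ) (⊥ : Subgroup (Perm (β × ZMod p ⊕ κ))) :=
    fun x hx => centralizer_base_bot hx.2
  have hES : base (p := p) (ρ := ρ) (⊥ : Subgroup (Perm (β × ZMod p ⊕ κ))) ≤ S := by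
    rintro _ ⟨s, hs, d, rfl⟩
    exact ⟨s, by rw [Subgroup.mem_bot.1 hs]; exact Q.one_mem, d, rfl⟩
  have hhA : δ⁻¹ * M π u c ∈ A := mul_mem (inv_mem hδA) hg.1
  set t : Perm (β × ZMod p ⊕ κ) := M 1 1 (Pi.single b₀ 1) with ht
  have htQ : t ∈ Q := M_mem_base (Subgroup.one_mem _) _
  have hhK : δ⁻¹ * M π u c ∈ closureGen A S (base (p := p) (ρ := ρ) (⊥ : Subgroup (Perm (β × ZMod p ⊕ κ)))) := by
    rw [hh] at hhA ⊢
    refine mem_closureGen_bot hp ?_ hQp htQ (base_le_alt hp P.isPGroup' htQ) ?_ ?_ hhA hprod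
    · rw [Fintype.card_sum, Fintype.card_prod, ZMod.card]
      have := Fintype.card_pos (α := β)
      nlinarith
    · intro h
      have := DFunLike.congr_fun h (Sum.inl (b₀, 0))
      simp [ht] at this
    · intro h3
      subst h3
      obtain ⟨hall, ⟨h12, h02, h01⟩, h21, h11⟩ := zmod_three_facts
      refine ⟨?_, swap (Sum.inl (b₀, 1)) (Sum.inl (b₀, 2)), sign_swap (by simp [h12]), ?_⟩
      · have hs : t.support = {Sum.inl (b₀, 0), Sum.inl (b₀, 1), Sum.inl (b₀, 2)} := by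
          ext (⟨b, x⟩ | k)
          · rcases eq_or_ne b b₀ with rfl | hb
            · simp [ht, hall x]
            · simp [ht, Pi.single_eq_of_ne hb, hb]
          · simp [ht]
        rw [← card_support_eq_three_iff, hs, Finset.card_eq_three]
        exact ⟨_, _, _, by simp [h01], by simp [h02], by simp [h12], rfl⟩
      · refine eq_inv_of_mul_eq_one_left (Perm.ext ?_)
        rintro (⟨b, x⟩ | k)
        · rcases eq_or_ne b b₀ with rfl | hb
          · rcases hall x with rfl | rfl | rfl <;>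
              simp [ht, swap_apply_def, h12, h02, h01, h21, h11, h12.symm, h02.symm, h01.symm]
          · simp [ht, Pi.single_eq_of_ne hb, swap_apply_def, hb]
        · simp [ht, swap_apply_def]
  rw [← mul_inv_cancel_left δ (M π u c)]
  refine Subgroup.mul_mem _ ?_ ?_
  · exact Subgroup.mem_iSup_of_mem _ (Subgroup.mem_iSup_of_mem ⟨transGroup_le_base, hKT⟩ ⟨⟨hδA, hδN⟩, hδK⟩)
  · exact Subgroup.mem_iSup_of_mem _ (Subgroup.mem_iSup_of_mem ⟨hES, hKE⟩
      ⟨⟨hhA, Subgroup.mul_mem _ (Subgroup.inv_mem _ hδN) hg.2⟩, hhK⟩)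

end CfsgLib.AltFusion
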