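import Cfsg.Agent.Fusion.Invariant
import Cfsg.Agent.Fusion.Group
set_option autoImplicit false

/-!
A simplicity criterion for fusion systems of groups: no proper strongly closed subgroup, and the
normaliser of the Sylow group is generated by its parts inside the normal closures of `N_S(R)` in
`N(R)`, `R` running over the self-centralising subgroups of the Sylow group.
-/

namespace CfsgLib.Fusion

open Cfsg

variable {G : Type*} [Group G]

/-- The subgroup generated by the conjugates of `N_S(R)` under `N_A(R)`. -/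
def closureGen (A S R : Subgroup G) : Subgroup G :=
  Subgroup.closure {g | ∃ m ∈ A ⊓ Subgroup.normalizer (R : Set G), ∃ x ∈ S ⊓ Subgroup.normalizer (R : Set G),
    g = m * x * m⁻¹}

/-- `N_A(S)` is generated by its parts inside `closureGen A S R`, `R` centric. -/
def HasClosureGen (A S : Subgroup G) : Prop :=
  A ⊓ Subgroup.normalizer (S : Set G) ≤ ⨆ (R : Subgroup G) (_ : R ≤ S ∧ A ⊓ Subgroup.centralizer (R : Set G) ≤ R),
    A ⊓ Subgroup.normalizer (S : Set G) ⊓ closureGen A S R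

theorem hasClosureGen_of_normalizer_eq {A S : Subgroup G} (_hSA : S ≤ A)
    (hC : A ⊓ Subgroup.centralizer (S : Set G) ≤ S) (hN : A ⊓ Subgroup.normalizer (S : Set G) ≤ S) :
    HasClosureGen A S := by
  refine le_trans ?_ (le_iSup₂_of_le S ⟨le_rfl, hC⟩ le_rfl)
  exact fun x hx => ⟨hx, Subgroup.subset_closure
    ⟨1, one_mem _, x, ⟨hN hx, Subgroup.le_normalizer (hN hx)⟩, by simp⟩⟩

theorem mem_normalizer_map_iff {H : Type*} [Group H] {φ : H →* G} (hφ : Function.Injective φ) {R : Subgroup H}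
    {x : H} : φ x ∈ Subgroup.normalizer ((R.map φ : Subgroup G) : Set G) ↔ x ∈ Subgroup.normalizer (R : Set H) := by
  have hmem : ∀ y, φ y ∈ R.map φ ↔ y ∈ R := fun y =>
    ⟨fun ⟨z, hz, e⟩ => hφ e ▸ hz, fun h => ⟨y, h, rfl⟩⟩
  have hc : ∀ y, φ x * φ y * (φ x)⁻¹ = φ (x * y * x⁻¹) := fun y => by simp
  simp only [Subgroup.mem_normalizer_iff]
  constructor
  · intro h y
    rw [← hmem, ← hmem, ← hc, ← h]
  · intro h z
    constructor
    · rintro ⟨y, hy, rfl⟩
      rw [hc]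
      exact (hmem _).2 ((h y).1 hy)
    · rintro ⟨w, hw, e⟩
      refine ⟨x⁻¹ * w * x, (h _).2 (by rwa [show x * (x⁻¹ * w * x) * x⁻¹ = w by group]), ?_⟩
      rw [map_mul, map_mul, map_inv, e]
      group

/-- The property pulls back along an injective homomorphism. -/
theorem HasClosureGen.comap {H : Type*} [Group H] {φ : H →* G} (hφ : Function.Injective φ) {A S : Subgroup H}
    (h : HasClosureGen (A.map φ) (S.map φ)) : HasClosureGen A S := by
  intro x hx
  have hmem : ∀ {K : Subgroup H} (y : H), φ y ∈ K.map φ ↔ y ∈ K := fun y =>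
    ⟨fun ⟨z, hz, e⟩ => hφ e ▸ hz, fun h => ⟨y, h, rfl⟩⟩
  suffices h' : φ x ∈ (⨆ (R : Subgroup H) (_ : R ≤ S ∧ A ⊓ Subgroup.centralizer (R : Set H) ≤ R),
      A ⊓ Subgroup.normalizer (S : Set H) ⊓ closureGen A S R).map φ from (hmem x).1 h'
  refine (le_trans h (iSup₂_le fun R' hR' => ?_)) ⟨(hmem x).2 hx.1, (mem_normalizer_map_iff hφ).2 hx.2⟩
  obtain ⟨hR'S, hR'C⟩ := hR'
  set R := R'.comap φ
  have hRmap : R.map φ = R' := Subgroup.map_comap_eq_self (hR'S.trans (Subgroup.map_le_range _ _))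
  have hRS : R ≤ S := fun y hy => (hmem y).1 (hR'S hy)
  have hRC : A ⊓ Subgroup.centralizer (R : Set H) ≤ R := fun y hy =>
    hR'C ⟨(hmem y).2 hy.1, Subgroup.mem_centralizer_iff.2 fun z hz => by
      rw [← hRmap] at hz
      obtain ⟨w, hw, rfl⟩ := hz
      rw [← map_mul, ← map_mul, Subgroup.mem_centralizer_iff.1 hy.2 w hw]⟩
  have hK : closureGen (A.map φ) (S.map φ) R' ≤ (closureGen A S R).map φ := by
    rw [closureGen, Subgroup.closure_le]
    rintro _ ⟨_, ⟨⟨m, hm, rfl⟩, hmN⟩, _, ⟨⟨y, hy, rfl⟩, hyN⟩, rfl⟩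
    rw [← hRmap] at hmN hyN
    exact ⟨m * y * m⁻¹, Subgroup.subset_closure
      ⟨m, ⟨hm, (mem_normalizer_map_iff hφ).1 hmN⟩, y, ⟨hy, (mem_normalizer_map_iff hφ).1 hyN⟩, rfl⟩, by simp⟩
  rintro _ ⟨⟨⟨y, hy, rfl⟩, hyS⟩, hyK⟩
  exact ⟨y, Subgroup.mem_iSup_of_mem R (Subgroup.mem_iSup_of_mem ⟨hRS, hRC⟩
    ⟨⟨hy, (mem_normalizer_map_iff hφ).1 hyS⟩, (hmem y).1 (hK hyK)⟩), rfl⟩

theorem isSimple_of_closure [Finite G] (p : ℕ) [Fact p.Prime] (S : Sylow p G)
    (hS1 : (S : Subgroup G) ≠ ⊥)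
    (ha : ∀ T : Subgroup G, (Cfsg.groupFusionSystem (S : Subgroup G)).StronglyClosed T → T = ⊥ ∨ T = (S : Subgroup G))
    (hb : HasClosureGen ⊤ (S : Subgroup G)) :
    (Cfsg.groupFusionSystem (S : Subgroup G)).IsSimple p := by
  refine ⟨isSaturated_group S, hS1, fun T E hEn => ?_⟩
  obtain ⟨⟨hEsat, hFsat, hinv⟩, -⟩ := hEn
  rcases ha T hinv.2.1 with hT | hT
  · exact Or.inl hT
  subst hT
  refine Or.inr ⟨rfl, hom_eq_of_aut_le hinv ?_⟩
  rw [autGroup_group le_rfl]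
  set MS := ((E.autGroup (S : Subgroup G)).comap (conjAut (S : Subgroup G) ⊤)).map
    (Cfsg.FusionSystem.normalizerIn ⊤ (S : Subgroup G)).subtype with hMS
  have hsup : Subgroup.normalizer ((S : Subgroup G) : Set G) ≤ MS := by
    refine (le_inf le_top le_rfl).trans (hb.trans (iSup₂_le fun R hR => ?_))
    obtain ⟨hRS, hRC'⟩ := hR
    rw [top_inf_eq] at hRC'
    rintro g ⟨⟨-, hgS⟩, hg⟩
    have hRC := hRC'
    set M := ((E.autGroup R).comap (conjAut R ⊤)).map
      (Cfsg.FusionSystem.normalizerIn ⊤ R).subtype with hM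
    haveI := finite_mulAut hRS
    have hRc : (Cfsg.groupFusionSystem (S : Subgroup G)).IsCentric R := by
      refine ⟨hRS, fun Q hQ => ?_⟩
      obtain ⟨φ, hφ, rfl⟩ := hQ
      obtain ⟨-, -, h, hh⟩ := mem_group_hom.mp hφ
      intro y hy
      have hy' : h⁻¹ * y * h ∈ R := hRC (Subgroup.mem_centralizer_iff.mpr fun x hx => by
        have h1 := Subgroup.mem_centralizer_iff.mp hy.2 (φ ⟨x, hx⟩) ⟨_, rfl⟩
        rw [hh] at h1
        simp only at h1
        calc x * (h⁻¹ * y * h) = h⁻¹ * (h * x * h⁻¹ * y) * h := by group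
          _ = h⁻¹ * (y * (h * x * h⁻¹)) * h := by rw [h1]
          _ = h⁻¹ * y * h * x := by group)
      exact ⟨⟨_, hy'⟩, by rw [hh]; group⟩
    have hle : closureGen ⊤ (S : Subgroup G) R ≤ M := by
      rw [closureGen, Subgroup.closure_le]
      rintro _ ⟨m, ⟨-, hmN⟩, x, ⟨hxS, hxN⟩, rfl⟩
      refine ⟨⟨m, trivial, hmN⟩ * ⟨x, trivial, hxN⟩ * ⟨m, trivial, hmN⟩⁻¹, ?_, rfl⟩
      show conjAut R ⊤ _ ∈ E.autGroup R
      rw [map_mul, map_mul, map_inv]
      refine conj_mem_autGroup_of_invariant hinv hRS ?_ ?_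
      · refine autInducedBy_le_autGroup hRS (mem_autInducedBy.2 ⟨x, hxS, fun y => ?_⟩)
        rw [conjAut_apply]
      · rw [autGroup_group hRS, ← range_conjAut]
        exact ⟨_, rfl⟩
    obtain ⟨n, hn, hng⟩ := hle hg
    have hgN : g ∈ Subgroup.normalizer (R : Set G) := hng ▸ n.2.2
    refine ⟨⟨g, trivial, hgS⟩, ?_, rfl⟩
    have hαF : conjAut (S : Subgroup G) ⊤ ⟨g, trivial, hgS⟩ ∈
        (Cfsg.groupFusionSystem (S : Subgroup G)).autGroup (S : Subgroup G) := by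
      rw [autGroup_group le_rfl, ← range_conjAut]
      exact ⟨_, rfl⟩
    refine mem_autGroup_of_restrict S.isPGroup' hFsat hEsat hinv.1 hαF R hRS hRc ?_ ?_
    · intro x
      exact (Subgroup.mem_normalizer_iff.1 hgN x).symm
    · refine mem_of_eq ((mem_autGroup hRS).1 hn) fun x => ?_
      show g * (x : G) * g⁻¹ = _
      rw [← hng]
      rfl
  intro α hα
  obtain ⟨g, -, hgα⟩ := mem_autInducedBy.1 hα
  have hgS : g ∈ Subgroup.normalizer ((S : Subgroup G) : Set G) := by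
    rw [Subgroup.mem_normalizer_iff]
    intro x
    refine ⟨fun hx => by rw [← hgα ⟨x, hx⟩]; exact (α ⟨x, hx⟩).2, fun hx => ?_⟩
    obtain ⟨y, hy⟩ := α.surjective ⟨_, hx⟩
    have h1 := congrArg Subtype.val hy
    rw [hgα] at h1
    simp only [mul_left_inj, mul_right_inj] at h1
    exact h1 ▸ y.2
  obtain ⟨n, hn, hng⟩ := hsup hgS
  have : conjAut (S : Subgroup G) ⊤ n = α := by
    refine MulEquiv.ext fun x => Subtype.ext ?_
    rw [conjAut_apply, hgα, show (n : G) = g from hng]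
  exact this ▸ hn

end CfsgLib.Fusion
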