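import Cfsg.Agent.Fusion.AltClosed
import Cfsg.Agent.Fusion.GenSimpleClosure
import Cfsg.Agent.AltSylowTwo.Basic

/-!
The normaliser of a Sylow `p`-subgroup (`p` odd) of the alternating group, in a monomial model:
points `ι × ZMod p ⊕ ρ`, the Sylow group being the translations on the fibres extended by a Sylow
subgroup of `Perm ι`.
-/

set_option autoImplicit false

namespace CfsgLib.AltFusion

open Equiv Equiv.Perm CfsgLib.Fusion

variable {p : ℕ} [Fact p.Prime] {ι ρ : Type*}

/-- The permutation `(i, x) ↦ (π i, u i * x + c i)`, fixing the further points. -/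
def M (π : Perm ι) (u : ι → (ZMod p)ˣ) (c : ι → ZMod p) : Perm (ι × ZMod p ⊕ ρ) where
  toFun := Sum.map (fun a => (π a.1, (u a.1 : ZMod p) * a.2 + c a.1)) id
  invFun := Sum.map (fun a => (π.symm a.1, ((u (π.symm a.1))⁻¹ : (ZMod p)ˣ) * (a.2 - c (π.symm a.1)))) id
  left_inv := by rintro (⟨i, x⟩ | z) <;> simp [Units.inv_mul_cancel_left, -Units.val_inv_eq_inv_val]
  right_inv := by rintro (⟨i, x⟩ | z) <;> simp [Units.mul_inv_cancel_left, -Units.val_inv_eq_inv_val]

@[simp] theorem M_inl (π : Perm ι) (u : ι → (ZMod p)ˣ) (c : ι → ZMod p) (i : ι) (x : ZMod p) :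
    M (ρ := ρ) π u c (Sum.inl (i, x)) = Sum.inl (π i, (u i : ZMod p) * x + c i) := rfl

@[simp] theorem M_inr (π : Perm ι) (u : ι → (ZMod p)ˣ) (c : ι → ZMod p) (z : ρ) :
    M π u c (Sum.inr z) = Sum.inr z := rfl

theorem M_mul (π π' : Perm ι) (u u' : ι → (ZMod p)ˣ) (c c' : ι → ZMod p) :
    M (ρ := ρ) π u c * M π' u' c' =
      M (π * π') (fun i => u (π' i) * u' i) (fun i => (u (π' i) : ZMod p) * c' i + c (π' i)) := by
  ext (⟨i, x⟩ | z)
  · simp only [Perm.mul_apply, M_inl, Units.val_mul]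
    congr 2
    ring
  · simp

theorem M_one : M (ρ := ρ) (1 : Perm ι) (1 : ι → (ZMod p)ˣ) 0 = 1 := by
  ext (⟨i, x⟩ | z) <;> simp

theorem M_inj {π π' : Perm ι} {u u' : ι → (ZMod p)ˣ} {c c' : ι → ZMod p} (h : M (ρ := ρ) π u c = M π' u' c') :
    π = π' ∧ u = u' ∧ c = c' := by
  have h0 : ∀ i, π i = π' i ∧ c i = c' i := fun i => by
    simpa [Prod.ext_iff] using DFunLike.congr_fun h (Sum.inl (i, (0 : ZMod p)))
  refine ⟨Equiv.ext fun i => (h0 i).1, funext fun i => Units.ext ?_, funext fun i => (h0 i).2⟩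
  have h1 := DFunLike.congr_fun h (Sum.inl (i, (1 : ZMod p)))
  simp only [M_inl, Sum.inl.injEq, Prod.mk.injEq, mul_one, (h0 i).2] at h1
  exact add_right_cancel h1.2

/-- The translations extended by a group of permutations of the fibres. -/
def base (P : Subgroup (Perm ι)) : Subgroup (Perm (ι × ZMod p ⊕ ρ)) where
  carrier := {g | ∃ π ∈ P, ∃ c : ι → ZMod p, g = M π 1 c}
  one_mem' := ⟨1, P.one_mem, 0, M_one.symm⟩
  mul_mem' := by
    rintro _ _ ⟨π, hπ, c, rfl⟩ ⟨π', hπ', c', rfl⟩
    refine ⟨π * π', P.mul_mem hπ hπ', fun i => c' i + c (π' i), ?_⟩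
    rw [M_mul]
    congr 1
    · ext i; simp
    · funext i; simp
  inv_mem' := by
    rintro _ ⟨π, hπ, c, rfl⟩
    refine ⟨π⁻¹, P.inv_mem hπ, fun i => -c (π⁻¹ i), inv_eq_of_mul_eq_one_right ?_⟩
    rw [M_mul, mul_inv_cancel, ← M_one]
    congr 1
    · ext i; simp
    · funext i; simp

theorem mem_base {P : Subgroup (Perm ι)} {g : Perm (ι × ZMod p ⊕ ρ)} :
    g ∈ base P ↔ ∃ π ∈ P, ∃ c : ι → ZMod p, g = M π 1 c := Iff.rfl

theorem M_mem_base {P : Subgroup (Perm ι)} {π : Perm ι} (hπ : π ∈ P) (c : ι → ZMod p) :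
    M (ρ := ρ) π 1 c ∈ base P := ⟨π, hπ, c, rfl⟩

variable [Fintype ι] [DecidableEq ι] [Fintype ρ] [DecidableEq ρ]

theorem card_base (P : Subgroup (Perm ι)) :
    Nat.card (base (p := p) (ρ := ρ) P) = Nat.card P * p ^ Fintype.card ι := by
  have e : (P × (ι → ZMod p)) ≃ base (p := p) (ρ := ρ) P :=
    Equiv.ofBijective (fun a => ⟨M a.1 1 a.2, M_mem_base a.1.2 _⟩) ⟨fun a b h => by
      obtain ⟨h1, -, h2⟩ := M_inj (congrArg Subtype.val h)
      exact Prod.ext (Subtype.ext h1) h2, fun ⟨g, π, hπ, c, hg⟩ => ⟨⟨⟨π, hπ⟩, c⟩, Subtype.ext hg.symm⟩⟩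
  rw [← Nat.card_congr e, Nat.card_prod, Nat.card_fun, Nat.card_zmod, Nat.card_eq_fintype_card (α := ι)]

theorem isPGroup_base {P : Subgroup (Perm ι)} (hP : IsPGroup p P) : IsPGroup p (base (p := p) (ρ := ρ) P) := by
  obtain ⟨k, hk⟩ := IsPGroup.iff_card.1 hP
  exact IsPGroup.of_card (n := k + Fintype.card ι) (by rw [card_base, hk, pow_add])

theorem base_le_alt (hp : p ≠ 2) {P : Subgroup (Perm ι)} (hP : IsPGroup p P) :
    base (p := p) (ρ := ρ) P ≤ alternatingGroup (ι × ZMod p ⊕ ρ) := fun g hg => by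
  obtain ⟨k, hk⟩ := isPGroup_base (ρ := ρ) hP ⟨g, hg⟩
  exact mem_alternatingGroup.2 (sign_eq_one_of_odd_pow (((Fact.out : p.Prime).odd_of_ne_two hp).pow)
    (congrArg Subtype.val hk))

/-- The translations extended by a Sylow subgroup of `Perm ι` form a Sylow subgroup when `card ρ < p`. -/
theorem not_dvd_index_base (hr : Fintype.card ρ < p) (P : Sylow p (Perm ι)) :
    ¬ p ∣ (base (p := p) (ρ := ρ) (P : Subgroup (Perm ι))).index := by
  intro hd
  set B := base (p := p) (ρ := ρ) (P : Subgroup (Perm ι))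
  have h1 := B.card_mul_index
  rw [card_base, Nat.card_perm, Nat.card_eq_fintype_card (α := ι × ZMod p ⊕ ρ), Fintype.card_sum, Fintype.card_prod, ZMod.card,
    P.card_eq_multiplicity, Nat.card_perm, Nat.card_eq_fintype_card (α := ι), ← pow_add,
    Nat.factorization_def _ (Fact.out : p.Prime)] at h1
  have h2 := congrArg (padicValNat p) h1
  rw [padicValNat.mul (pow_ne_zero _ (Fact.out : p.Prime).ne_zero) B.index_ne_zero_of_finite, padicValNat.prime_pow,
    mul_comm _ p, padicValNat_factorial_mul_add _ hr, padicValNat_factorial_mul] at h2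
  have h3 := one_le_padicValNat_of_dvd B.index_ne_zero_of_finite hd
  omega

/-- `M π u 0` normalises `base P` when `u` is invariant under `P` and `π` normalises `P`. -/
theorem M_mem_normalizer_base {P : Subgroup (Perm ι)} {π : Perm ι} {u : ι → (ZMod p)ˣ}
    (hu : ∀ s ∈ P, ∀ i, u (s i) = u i) (hπ : ∀ s ∈ P, π * s * π⁻¹ ∈ P) :
    M (ρ := ρ) π u 0 ∈ Subgroup.normalizer ((base (p := p) (ρ := ρ) P : Subgroup _) : Set (Perm (ι × ZMod p ⊕ ρ))) := by
  refine CfsgLib.AltSylowTwo.mem_normalizer_of_forall ?_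
  rintro _ ⟨s, hs, c, rfl⟩
  refine ⟨π * s * π⁻¹, hπ s hs, fun i => (u (s (π⁻¹ i)) : ZMod p) * c (π⁻¹ i), mul_inv_eq_iff_eq_mul.2 ?_⟩
  rw [M_mul, M_mul, inv_mul_cancel_right]
  congr 1
  · funext i; simp [hu s hs i]
  · funext i; simp

/-- An element normalising `base P` is monomial. -/
theorem exists_eq_M [Subsingleton ρ] {P : Subgroup (Perm ι)} {g : Perm (ι × ZMod p ⊕ ρ)}
    (hg : g ∈ Subgroup.normalizer ((base (p := p) (ρ := ρ) P : Subgroup _) : Set (Perm (ι × ZMod p ⊕ ρ)))) :
    ∃ π u c, g = M π u c := by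
  have hpp : p.Prime := Fact.out
  set τ : ι → Perm (ι × ZMod p ⊕ ρ) := fun i => M 1 1 (Pi.single i 1) with hτ
  have hsupp : ∀ i, (τ i).support = Finset.univ.image fun x : ZMod p => (Sum.inl (i, x) : ι × ZMod p ⊕ ρ) := by
    intro i
    ext (⟨j, x⟩ | z)
    · rcases eq_or_ne j i with rfl | h <;> simp [hτ, *, Ne.symm]
    · simp [hτ]
  have hcard : ∀ i, (τ i).support.card = p := fun i => by
    rw [hsupp, Finset.card_image_of_injective _ (fun x y h => by simpa using h), Finset.card_univ, ZMod.card]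
  have htwo : ∀ (q : Perm (ι × ZMod p ⊕ ρ)) (j j' : ι), j ≠ j' → q.support.card = p → (∀ x, q (Sum.inl (j, x)) ≠ Sum.inl (j, x)) →
      (∀ x, q (Sum.inl (j', x)) ≠ Sum.inl (j', x)) → False := by
    intro q j j' hjj hq h h'
    have hle : ((({j, j'} : Finset ι) ×ˢ (Finset.univ : Finset (ZMod p))).image
        (fun a => (Sum.inl a : ι × ZMod p ⊕ ρ))) ⊆ q.support := by
      intro z hz
      simp only [Finset.mem_image, Finset.mem_product, Finset.mem_insert, Finset.mem_singleton, Finset.mem_univ,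
        and_true, Prod.exists] at hz
      obtain ⟨k, x, hk, rfl⟩ := hz
      rcases hk with rfl | rfl
      exacts [mem_support.2 (h x), mem_support.2 (h' x)]
    have h2 := Finset.card_le_card hle
    rw [Finset.card_image_of_injective _ Sum.inl_injective, Finset.card_product, Finset.card_pair hjj, Finset.card_univ,
      ZMod.card, hq] at h2
    have := hpp.pos
    omega
  have hconj : ∀ i, ∃ j, ∃ w : ZMod p, w ≠ 0 ∧ g * τ i * g⁻¹ = M 1 1 (Pi.single j w) := by
    intro i
    obtain ⟨s, -, c, hc⟩ := (Subgroup.mem_normalizer_iff.1 hg (τ i)).1 (M_mem_base P.one_mem _)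
    have hq : (M (ρ := ρ) s 1 c).support.card = p := by rw [← hc, card_support_conj, hcard]
    have hs : s = 1 := Perm.ext fun k => by
      by_contra hk
      exact htwo _ k (s k) (Ne.symm hk) hq (fun x h => hk (by simpa using congrArg (Sum.map Prod.fst id) h))
        (fun x h => hk (s.injective (by simpa using congrArg (Sum.map Prod.fst id) h)))
    subst hs
    obtain ⟨j, hj⟩ : ∃ j, c j ≠ 0 := by
      by_contra hcon
      push Not at hcon
      rw [show c = 0 from funext hcon, M_one, support_one, Finset.card_empty] at hq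
      exact hpp.ne_zero hq.symm
    refine ⟨j, c j, hj, hc.trans ?_⟩
    congr 1
    funext k
    rcases eq_or_ne k j with rfl | hk
    · simp
    rw [Pi.single_eq_of_ne hk]
    by_contra hck
    exact htwo _ k j hk hq (fun x h => hck (by simpa using h)) (fun x h => hj (by simpa using h))
  choose π₀ w hw hconj using hconj
  have hstep : ∀ i (z : ι × ZMod p ⊕ ρ), g (τ i z) = M 1 1 (Pi.single (π₀ i) (w i)) (g z) := fun i z => by
    rw [← hconj]; simp
  have hbase : ∀ i, ∃ c0 : ZMod p, ∀ x : ZMod p, g (Sum.inl (i, x)) = Sum.inl (π₀ i, w i * x + c0) := by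
    intro i
    rcases hg0 : g (Sum.inl (i, 0)) with ⟨k, c0⟩ | z
    · have hk : k = π₀ i := by
        by_contra hk
        have h := hstep i (Sum.inl (i, 0))
        rw [hg0] at h
        simp only [M_inl, Pi.single_eq_of_ne hk, Perm.one_apply, Pi.one_apply, Units.val_one, one_mul, add_zero] at h
        have := g.injective (h.trans hg0.symm)
        simp [hτ] at this
      subst hk
      refine ⟨c0, fun x => ?_⟩
      rw [← ZMod.natCast_zmod_val x]
      induction x.val with
      | zero => simp [hg0]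
      | succ n ih =>
        have h := hstep i (Sum.inl (i, (n : ZMod p)))
        rw [ih, hτ, M_inl, M_inl] at h
        simp only [Perm.one_apply, Pi.one_apply, Units.val_one, one_mul, Pi.single_eq_same] at h
        rw [Nat.cast_succ, h]
        congr 2
        ring
    · exfalso
      have h := hstep i (Sum.inl (i, 0))
      rw [hg0, M_inr] at h
      have := g.injective (h.trans hg0.symm)
      simp [hτ] at this
  choose c0 hc0 using hbase
  have hπ : Function.Injective π₀ := fun i i' h => by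
    have h1 := hc0 i ((w i)⁻¹ * (c0 i' - c0 i))
    rw [← mul_assoc, mul_inv_cancel₀ (hw i), one_mul, sub_add_cancel, h] at h1
    have h2 := hc0 i' 0
    rw [mul_zero, zero_add] at h2
    have := g.injective (h1.trans h2.symm)
    simpa using congrArg (Sum.map Prod.fst id) this
  refine ⟨Equiv.ofBijective π₀ (Finite.injective_iff_bijective.1 hπ), fun i => Units.mk0 (w i) (hw i), c0,
    Perm.ext ?_⟩
  rintro (⟨i, x⟩ | z)
  · simp [hc0]
  · rcases hgz : g (Sum.inr z) with ⟨k, y⟩ | z'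
    · exfalso
      obtain ⟨i, rfl⟩ := (Finite.injective_iff_bijective.1 hπ).2 k
      have h1 := hc0 i ((w i)⁻¹ * (y - c0 i))
      rw [← mul_assoc, mul_inv_cancel₀ (hw i), one_mul, sub_add_cancel, ← hgz] at h1
      exact Sum.inl_ne_inr (g.injective h1)
    · rw [M_inr, Subsingleton.elim z' z]

/-- The translations on the fibres contain their centraliser. -/
theorem centralizer_base_bot [Subsingleton ρ] {g : Perm (ι × ZMod p ⊕ ρ)}
    (hg : g ∈ Subgroup.centralizer ((base (p := p) (ρ := ρ) (⊥ : Subgroup (Perm ι)) : Subgroup _) : Set _)) :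
    g ∈ base (p := p) (ρ := ρ) (⊥ : Subgroup (Perm ι)) := by
  have hcom : ∀ (c : ι → ZMod p) z, g (M 1 1 c z) = M 1 1 c (g z) := fun c z =>
    (DFunLike.congr_fun (Subgroup.mem_centralizer_iff.1 hg _ (M_mem_base (Subgroup.one_mem _) c)) z).symm
  have h0 : ∀ i, ∃ c : ZMod p, g (Sum.inl (i, 0)) = Sum.inl (i, c) := by
    intro i
    rcases hg0 : g (Sum.inl (i, 0)) with ⟨k, c⟩ | z
    · rcases eq_or_ne k i with rfl | hk
      · exact ⟨c, rfl⟩
      · exfalso
        have h := hcom (Pi.single i 1) (Sum.inl (i, 0))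
        rw [hg0] at h
        simp [Pi.single_eq_of_ne hk] at h
        have := g.injective (h.trans hg0.symm)
        simp at this
    · exfalso
      have h := hcom (Pi.single i 1) (Sum.inl (i, 0))
      rw [hg0, M_inr] at h
      have := g.injective (h.trans hg0.symm)
      simp at this
  choose c hc using h0
  have hg' : ∀ i x, g (Sum.inl (i, x)) = Sum.inl (i, x + c i) := fun i x => by
    have h := hcom (Pi.single i x) (Sum.inl (i, 0))
    rw [hc] at h
    simpa [add_comm] using h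
  refine ⟨1, Subgroup.one_mem _, c, Perm.ext ?_⟩
  rintro (⟨i, x⟩ | z)
  · simp [hg']
  · rcases hgz : g (Sum.inr z) with ⟨k, y⟩ | z'
    · exfalso
      have h1 := hg' k (y - c k)
      rw [sub_add_cancel, ← hgz] at h1
      exact Sum.inl_ne_inr (g.injective h1)
    · rw [M_inr, Subsingleton.elim z' z]

theorem sign_M_top (hp : p ≠ 2) (π : Perm ι) : sign (M (p := p) (ρ := ρ) π 1 0) = sign π := by
  have e : M (p := p) (ρ := ρ) π 1 0 = Equiv.sumCongr (Equiv.prodCongrLeft fun _ : ZMod p => π) (Equiv.refl ρ) := by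
    ext (⟨i, x⟩ | z) <;> simp
  rw [e, show Equiv.sumCongr (Equiv.prodCongrLeft fun _ : ZMod p => π) (Equiv.refl ρ) =
    Equiv.Perm.sumCongr (Equiv.prodCongrLeft fun _ : ZMod p => π) 1 from rfl, sign_sumCongr, sign_prodCongrLeft,
    map_one, mul_one, Finset.prod_const, Finset.card_univ, ZMod.card,
    ← Nat.two_mul_div_two_add_one_of_odd ((Fact.out : p.Prime).odd_of_ne_two hp), pow_succ, pow_mul, Int.units_sq,
    one_pow, one_mul]

/-- The part of `N(S)` with determinant one lies in the normal closure of `S` in `N(E)`. -/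
theorem mem_closureGen_bot [Subsingleton ρ] (hp : p ≠ 2) (hι : p ≤ Fintype.card ι) {P : Subgroup (Perm ι)}
    (hP : IsPGroup p P)
    {t : Perm ι} (ht : t ∈ P) (htA : t ∈ alternatingGroup ι) (ht1 : t ≠ 1)
    (ht3 : p = 3 → IsThreeCycle t ∧ ∃ s, sign s = -1 ∧ s * t * s⁻¹ = t⁻¹)
    {π : Perm ι} {u : ι → (ZMod p)ˣ} {c : ι → ZMod p} (hA : M (ρ := ρ) π u c ∈ alternatingGroup (ι × ZMod p ⊕ ρ))
    (hu : ∏ i, u i = 1) :
    M (ρ := ρ) π u c ∈ closureGen (alternatingGroup (ι × ZMod p ⊕ ρ)) (base (p := p) P) (base (p := p) (⊥ : Subgroup (Perm ι))) := by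
  have hpp : p.Prime := Fact.out
  have h3 : 3 ≤ p := by have := hpp.two_le; omega
  set A := alternatingGroup (ι × ZMod p ⊕ ρ)
  set K := closureGen A (base (p := p) (ρ := ρ) P) (base (p := p) (ρ := ρ) (⊥ : Subgroup (Perm ι))) with hK
  have hN : ∀ (σ : Perm ι) (v : ι → (ZMod p)ˣ) (d : ι → ZMod p),
      M (ρ := ρ) σ v d ∈ Subgroup.normalizer ((base (p := p) (ρ := ρ) (⊥ : Subgroup (Perm ι)) : Subgroup _) : Set (Perm (ι × ZMod p ⊕ ρ))) := by
    intro σ v d
    refine CfsgLib.AltSylowTwo.mem_normalizer_of_forall ?_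
    rintro _ ⟨s, hs, e, rfl⟩
    rw [Subgroup.mem_bot] at hs
    subst hs
    refine ⟨1, Subgroup.one_mem _, fun i => (v (σ⁻¹ i) : ZMod p) * e (σ⁻¹ i), mul_inv_eq_iff_eq_mul.2 ?_⟩
    rw [M_mul, M_mul, mul_one, one_mul]
    congr 1
    · funext i; simp
    · funext i; simp; ring
  have hconjK : ∀ m ∈ A ⊓ Subgroup.normalizer ((base (p := p) (ρ := ρ) (⊥ : Subgroup (Perm ι)) : Subgroup _) : Set _), ∀ k ∈ K,
      m * k * m⁻¹ ∈ K := by
    intro m hm k hk
    induction hk using Subgroup.closure_induction with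
    | mem y hy =>
      obtain ⟨m', hm', x, hx, rfl⟩ := hy
      exact Subgroup.subset_closure ⟨m * m', Subgroup.mul_mem _ hm hm', x, hx, by group⟩
    | one => simp
    | mul y z _ _ hy hz =>
      have e : m * (y * z) * m⁻¹ = m * y * m⁻¹ * (m * z * m⁻¹) := by group
      rw [e]; exact K.mul_mem hy hz
    | inv y _ hy =>
      have e : m * y⁻¹ * m⁻¹ = (m * y * m⁻¹)⁻¹ := by group
      rw [e]; exact K.inv_mem hy
  have hSK : ∀ (σ : Perm ι), σ ∈ P → ∀ d, M (ρ := ρ) σ 1 d ∈ K := fun σ hσ d =>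
    Subgroup.subset_closure ⟨1, one_mem _, _, ⟨M_mem_base hσ d, hN σ 1 d⟩, by simp⟩
  have htop_mul : ∀ σ σ' : Perm ι, M (p := p) (ρ := ρ) σ 1 0 * M σ' 1 0 = M (σ * σ') 1 0 := fun σ σ' => by
    rw [M_mul]
    congr 1
    · funext i; simp
    · funext i; simp
  have htop_inv : ∀ σ : Perm ι, (M (p := p) (ρ := ρ) σ 1 0)⁻¹ = M σ⁻¹ 1 0 := fun σ =>
    inv_eq_of_mul_eq_one_right (by rw [htop_mul, mul_inv_cancel, M_one])
  have htopA : ∀ σ : Perm ι, σ ∈ alternatingGroup ι → M (p := p) (ρ := ρ) σ 1 0 ∈ A := fun σ hσ =>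
    mem_alternatingGroup.2 ((sign_M_top hp σ).trans (mem_alternatingGroup.1 hσ))
  -- the even permutations of the fibres lie in `K`
  let Top : Subgroup (Perm ι) :=
    { carrier := {σ | σ ∈ alternatingGroup ι ∧ M (p := p) (ρ := ρ) σ 1 0 ∈ K}
      one_mem' := ⟨one_mem _, by rw [M_one]; exact one_mem _⟩
      mul_mem' := fun ha hb => ⟨mul_mem ha.1 hb.1, by rw [← htop_mul]; exact mul_mem ha.2 hb.2⟩
      inv_mem' := fun ha => ⟨inv_mem ha.1, by rw [← htop_inv]; exact inv_mem ha.2⟩ }
  have htTop : t ∈ Top := ⟨htA, hSK t ht 0⟩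
  have hTopn : ∀ σ ∈ alternatingGroup ι, ∀ s ∈ Top, σ * s * σ⁻¹ ∈ Top := fun σ hσ s hs =>
    ⟨mul_mem (mul_mem hσ hs.1) (inv_mem hσ), by
      rw [← htop_mul, ← htop_mul, ← htop_inv]
      exact hconjK _ ⟨htopA σ hσ, hN σ 1 0⟩ _ hs.2⟩
  have hTop : alternatingGroup ι ≤ Top := by
    rcases eq_or_ne p 3 with h33 | h33
    · obtain ⟨htc, s, hs, hst⟩ := ht3 h33
      rw [← closure_three_cycles_eq_alternating, Subgroup.closure_le]
      intro f hf
      obtain ⟨σ, hσ⟩ := isConj_iff.1 (isConj_iff_cycleType_eq.2 (htc.cycleType.trans hf.cycleType.symm))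
      rcases Int.units_eq_one_or (sign σ) with h | h
      · exact hσ ▸ hTopn σ (mem_alternatingGroup.2 h) t htTop
      · have e : f = σ * s⁻¹ * t⁻¹ * (σ * s⁻¹)⁻¹ := by
          rw [← hst, ← hσ]; group
        rw [e]
        refine hTopn _ (mem_alternatingGroup.2 ?_) _ (inv_mem htTop)
        rw [map_mul, map_inv, h, hs]; rfl
    · have h5 : 5 ≤ p := by
        rcases Nat.lt_or_ge p 5 with h | h
        · interval_cases p
          · exact absurd rfl h33
          · exact absurd hpp (by decide)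
        · exact h
      haveI := alternatingGroup.isSimpleGroup (α := ι) (by rw [Nat.card_eq_fintype_card]; omega)
      have hn : (Top.subgroupOf (alternatingGroup ι)).Normal :=
        ⟨fun s hs σ => Subgroup.mem_subgroupOf.2 (by simpa using hTopn σ σ.2 s (Subgroup.mem_subgroupOf.1 hs))⟩
      rcases hn.eq_bot_or_eq_top with h | h
      · exfalso
        have : (⟨t, htA⟩ : alternatingGroup ι) ∈ Top.subgroupOf (alternatingGroup ι) := Subgroup.mem_subgroupOf.2 htTop
        rw [h, Subgroup.mem_bot] at this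
        exact ht1 (congrArg Subtype.val this)
      · exact Subgroup.subgroupOf_eq_top.1 h
  -- the diagonal elements of determinant one lie in `K`
  let D : (ι → (ZMod p)ˣ) →* Perm (ι × ZMod p ⊕ ρ) :=
    { toFun := fun v => M 1 v 0
      map_one' := M_one
      map_mul' := fun v v' => by
        rw [M_mul, one_mul]
        congr 1
        funext i; simp }
  have hDapp : ∀ v, D v = M 1 v 0 := fun _ => rfl
  have hmove : ∀ (σ : Perm ι) (v : ι → (ZMod p)ˣ),
      M (p := p) (ρ := ρ) σ 1 0 * D v * (M (p := p) (ρ := ρ) σ 1 0)⁻¹ = D (fun i => v (σ⁻¹ i)) := fun σ v => by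
    rw [hDapp, hDapp, mul_inv_eq_iff_eq_mul, M_mul, M_mul, mul_one, one_mul]
    congr 1
    · funext i; simp
    · funext i; simp
  have hpair : ∀ i k : ι, i ≠ k → ∀ μ : (ZMod p)ˣ, D (Pi.mulSingle i μ * Pi.mulSingle k μ⁻¹) ∈ K := by
    intro i k hik μ
    obtain ⟨l, hli, hlk⟩ : ∃ l, l ≠ i ∧ l ≠ k := by
      by_contra hcon
      push Not at hcon
      have : (Finset.univ : Finset ι) ⊆ {i, k} := fun l _ => by
        rcases eq_or_ne l i with h | h
        · simp [h]
        · simp [hcon l h]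
      have h2 := Finset.card_le_card this
      rw [Finset.card_univ, Finset.card_pair hik] at h2
      omega
    set lam : ι → (ZMod p)ˣ := Pi.mulSingle i μ * Pi.mulSingle l μ with hlam
    have hlamA : D lam ∈ A := by
      rw [mem_alternatingGroup]
      have h2 : D (Pi.mulSingle l μ) = M (p := p) (ρ := ρ) (swap i l) 1 0 * D (Pi.mulSingle i μ) *
          (M (p := p) (ρ := ρ) (swap i l) 1 0)⁻¹ := by
        rw [hmove]
        congr 1
        funext j
        rw [swap_inv]
        rcases eq_or_ne j l with rfl | h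
        · simp
        · rw [Pi.mulSingle_eq_of_ne h, Pi.mulSingle_eq_of_ne]
          intro h'
          exact h (by simpa using congrArg (swap i l) h')
      rw [hlam, map_mul, map_mul, h2, map_mul, map_mul, map_inv, mul_comm (sign (M (p := p) (ρ := ρ) (swap i l) 1 0)),
        mul_inv_cancel_right, Int.units_mul_self]
    set σ := swap i l * swap l k with hσ
    have hσA : σ ∈ alternatingGroup ι := by
      rw [mem_alternatingGroup, hσ, map_mul, sign_swap hli.symm, sign_swap hlk]; rfl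
    have hmem : D lam * M (p := p) (ρ := ρ) σ 1 0 * (D lam)⁻¹ * (M (p := p) (ρ := ρ) σ 1 0)⁻¹ ∈ K :=
      K.mul_mem (hconjK _ ⟨hlamA, hN _ _ _⟩ _ (hTop hσA).2) (K.inv_mem (hTop hσA).2)
    have e : D (Pi.mulSingle i μ * Pi.mulSingle k μ⁻¹) =
        D lam * M (p := p) (ρ := ρ) σ 1 0 * (D lam)⁻¹ * (M (p := p) (ρ := ρ) σ 1 0)⁻¹ := by
      rw [mul_assoc (D lam), mul_assoc (D lam), ← map_inv, hmove, ← map_mul]
      congr 1
      funext j
      have hσinv : σ⁻¹ j = if j = i then k else if j = l then i else if j = k then l else j := by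
        rw [hσ, mul_inv_rev, swap_inv, swap_inv, Perm.mul_apply]
        split_ifs with h1 h2 h3
        · subst h1; rw [swap_apply_left, swap_apply_left]
        · subst h2; rw [swap_apply_right, swap_apply_of_ne_of_ne hli.symm hik]
        · subst h3; rw [swap_apply_of_ne_of_ne hik.symm hlk.symm, swap_apply_right]
        · rw [swap_apply_of_ne_of_ne h1 h2, swap_apply_of_ne_of_ne h2 h3]
      simp only [hlam, Pi.mul_apply, Pi.inv_apply, hσinv]
      split_ifs with h1 h2 h3
      · subst h1; simp [hik, hik.symm, hli, hli.symm, hlk, hlk.symm]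
      · subst h2; simp [hik, hik.symm, hli, hli.symm, hlk, hlk.symm]
      · subst h3; simp [hik, hik.symm, hli, hli.symm, hlk, hlk.symm]
      · simp [h1, h2, h3]
    rw [e]; exact hmem
  obtain ⟨i₀⟩ : Nonempty ι := Fintype.card_pos_iff.1 (by omega)
  have hdiag : D u ∈ K := by
    have e : u = ∏ i, (Pi.mulSingle i (u i) * Pi.mulSingle i₀ (u i)⁻¹) := by
      rw [Finset.prod_mul_distrib, Finset.univ_prod_mulSingle]
      funext j
      rcases eq_or_ne j i₀ with rfl | h
      · simp [Pi.mulSingle_eq_same, Finset.prod_inv_distrib, hu]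
      · simp [Pi.mulSingle_eq_of_ne h]
    have hall : ∏ i, (Pi.mulSingle i (u i) * Pi.mulSingle i₀ (u i)⁻¹ : ι → (ZMod p)ˣ) ∈ K.comap D := by
      refine Subgroup.prod_mem _ fun i _ => Subgroup.mem_comap.2 ?_
      rcases eq_or_ne i i₀ with rfl | h
      · rw [← Pi.mulSingle_mul, mul_inv_cancel, Pi.mulSingle_one, map_one]; exact K.one_mem
      · exact hpair i i₀ h _
    rw [← e] at hall
    exact hall
  have htr : M (p := p) (ρ := ρ) 1 1 (fun i => (((u i)⁻¹ : (ZMod p)ˣ) : ZMod p) * c i) ∈ K := hSK 1 P.one_mem _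
  have hsplit : M (ρ := ρ) π u c =
      M π 1 0 * D u * M 1 1 (fun i => (((u i)⁻¹ : (ZMod p)ˣ) : ZMod p) * c i) := by
    rw [hDapp, M_mul, M_mul, mul_one, mul_one]
    congr 1
    · funext i; simp
    · funext i; simp [Units.mul_inv_cancel_left, -Units.val_inv_eq_inv_val]
  have hπA : π ∈ alternatingGroup ι := by
    rw [mem_alternatingGroup, ← sign_M_top (p := p) (ρ := ρ) hp π]
    have h1 : ∀ k ∈ K, k ∈ A := by
      intro k hk
      induction hk using Subgroup.closure_induction with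
      | mem y hy =>
        obtain ⟨m, hm, x, hx, rfl⟩ := hy
        exact mul_mem (mul_mem hm.1 (base_le_alt hp hP hx.1)) (inv_mem hm.1)
      | one => exact one_mem _
      | mul y z _ _ hy hz => exact mul_mem hy hz
      | inv y _ hy => exact inv_mem hy
    have h := mem_alternatingGroup.1 hA
    rw [hsplit, map_mul, map_mul, mem_alternatingGroup.1 (h1 _ hdiag), mem_alternatingGroup.1 (h1 _ htr), mul_one,
      mul_one] at h
    exact h
  rw [hsplit]
  exact K.mul_mem (K.mul_mem (hTop hπA).2 hdiag) htr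

end CfsgLib.AltFusion
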