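import Cfsg.Agent.Fusion.AltGeneration

/-!
The fusion systems of the alternating groups `Alt(n)`, `p² ≤ n ≡ 0, 1 (mod p)`, are simple.
-/

set_option autoImplicit false

namespace CfsgLib.AltFusion

open Equiv Equiv.Perm CfsgLib.Fusion

/-- No proper non-trivial strongly closed subgroup. -/
theorem stronglyClosed_alt {α : Type*} [Fintype α] [DecidableEq α] {p : ℕ} [Fact p.Prime]
    (hn : p ^ 2 ≤ Fintype.card α) (S : Sylow p (alternatingGroup α)) (T : Subgroup (alternatingGroup α))
    (hT : (Cfsg.groupFusionSystem (S : Subgroup (alternatingGroup α))).StronglyClosed T) :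
    T = ⊥ ∨ T = (S : Subgroup (alternatingGroup α)) := by
  rcases eq_or_ne T ⊥ with h | h
  · exact Or.inl h
  refine Or.inr (Subgroup.map_injective (alternatingGroup α).subtype_injective ?_)
  have hs : AltSetting p ((S : Subgroup (alternatingGroup α)).map (alternatingGroup α).subtype)
      (T.map (alternatingGroup α).subtype) := by
    refine ⟨Subgroup.map_subtype_le _, Subgroup.map_mono hT.1, ?_, ?_⟩
    · rintro _ ⟨t, ht, rfl⟩ a ha ⟨s, hs, hse⟩
      have e : (⟨a, ha⟩ : alternatingGroup α) * t * (⟨a, ha⟩ : alternatingGroup α)⁻¹ = s := Subtype.ext hse.symm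
      refine ⟨(⟨a, ha⟩ : alternatingGroup α) * t * (⟨a, ha⟩ : alternatingGroup α)⁻¹, ?_, rfl⟩
      have hle : (Subgroup.zpowers t).map (MulAut.conj (⟨a, ha⟩ : alternatingGroup α)).toMonoidHom ≤
          (S : Subgroup (alternatingGroup α)) := by
        rw [MonoidHom.map_zpowers, Subgroup.zpowers_le]
        exact Set.mem_of_eq_of_mem (s := (↑(S : Subgroup (alternatingGroup α)) : Set _)) e hs
      exact hT.2 _ (Subgroup.zpowers_le.2 ht) _ (conjHom_mem_group ((Subgroup.zpowers_le.2 ht).trans hT.1) hle)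
        ⟨t, Subgroup.mem_zpowers t⟩
    · intro P hP hPA
      obtain ⟨g, hg⟩ := exists_conj_le S (X := P.subgroupOf (alternatingGroup α))
        (hP.comap_of_injective _ (alternatingGroup α).subtype_injective)
      exact ⟨g, g.2, fun x hx => ⟨_, hg ⟨⟨x, hPA hx⟩, Subgroup.mem_subgroupOf.2 hx, rfl⟩, rfl⟩⟩
  exact eq_of_closed hs (S.isPGroup'.map _) hn fun hb =>
    h ((Subgroup.map_eq_bot_iff_of_injective _ (alternatingGroup α).subtype_injective).1 hb)

/-- Generation of the normaliser of a Sylow subgroup, `p` odd. -/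
theorem hasClosureGen_alt {n p : ℕ} [Fact p.Prime] (hp : p ≠ 2) (hnp : p ^ 2 ≤ n) (hb : n % p ≤ 1)
    (S : Sylow p (alternatingGroup (Fin n))) :
    HasClosureGen ⊤ (S : Subgroup (alternatingGroup (Fin n))) := by
  classical
  have hpp : p.Prime := Fact.out
  set q := n / p with hq
  set r := n % p with hr
  set b := q / p with hbq
  set a := q % p with ha
  have hcard : Fintype.card (Fin n) = Fintype.card ((Fin b × ZMod p ⊕ Fin a) × ZMod p ⊕ Fin r) := by
    simp only [Fintype.card_sum, Fintype.card_prod, ZMod.card, Fintype.card_fin]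
    rw [hbq, ha, Nat.div_add_mod' q p, hq, hr, Nat.div_add_mod' n p]
  have hqp : p ≤ q := by
    rw [hq, Nat.le_div_iff_mul_le hpp.pos]
    simpa [pow_two] using hnp
  haveI : Nonempty (Fin b) := ⟨⟨0, by rw [hbq]; exact Nat.div_pos hqp hpp.pos⟩⟩
  haveI : Subsingleton (Fin r) := Fin.subsingleton_iff_le_one.2 hb
  have hap : Fintype.card (Fin a) < p := by rw [Fintype.card_fin, ha]; exact Nat.mod_lt _ hpp.pos
  have hrp : Fintype.card (Fin r) < p := by rw [Fintype.card_fin, hr]; exact Nat.mod_lt _ hpp.pos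
  let P : Sylow p (Perm (Fin b)) := default
  set Q := (isPGroup_base (p := p) (ρ := Fin a) P.isPGroup').toSylow (not_dvd_index_base hap P)
  set S₀ : Sylow p (Perm ((Fin b × ZMod p ⊕ Fin a) × ZMod p ⊕ Fin r)) :=
    (isPGroup_base (p := p) (ρ := Fin r) Q.isPGroup').toSylow (not_dvd_index_base hrp Q)
  have hS₀ : (S₀ : Subgroup (Perm ((Fin b × ZMod p ⊕ Fin a) × ZMod p ⊕ Fin r))) = base (base (P : Subgroup (Perm (Fin b)))) := rfl
  set e : Fin n ≃ ((Fin b × ZMod p ⊕ Fin a) × ZMod p ⊕ Fin r) := Fintype.equivOfCardEq hcard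
  set φ₀ : alternatingGroup (Fin n) →* Perm ((Fin b × ZMod p ⊕ Fin a) × ZMod p ⊕ Fin r) :=
    e.permCongrHom.toMonoidHom.comp (alternatingGroup (Fin n)).subtype
  obtain ⟨g, hg⟩ := exists_conj_le S₀ (S.isPGroup'.map φ₀)
  set φ : alternatingGroup (Fin n) →* Perm ((Fin b × ZMod p ⊕ Fin a) × ZMod p ⊕ Fin r) := (MulAut.conj g).toMonoidHom.comp φ₀
  have hφ : Function.Injective φ := (MulAut.conj g).injective.comp
    (e.permCongrHom.injective.comp Subtype.val_injective)
  have hrange : (⊤ : Subgroup (alternatingGroup (Fin n))).map φ = alternatingGroup ((Fin b × ZMod p ⊕ Fin a) × ZMod p ⊕ Fin r) := by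
    ext x
    constructor
    · rintro ⟨y, -, rfl⟩
      have hy := mem_alternatingGroup.1 y.2
      rw [mem_alternatingGroup]
      show sign (g * e.permCongr (y : Perm (Fin n)) * g⁻¹) = 1
      rw [map_mul, map_mul, sign_permCongr, hy, mul_one, ← map_mul, mul_inv_cancel, map_one]
    · intro hx
      refine ⟨⟨e.symm.permCongr (g⁻¹ * x * g), ?_⟩, trivial, ?_⟩
      · rw [mem_alternatingGroup, sign_permCongr, map_mul, map_mul, mem_alternatingGroup.1 hx, mul_one, ← map_mul,
          inv_mul_cancel, map_one]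
      · show g * e.permCongr (e.symm.permCongr (g⁻¹ * x * g)) * g⁻¹ = x
        have e1 : e.permCongr (e.symm.permCongr (g⁻¹ * x * g)) = g⁻¹ * x * g := by
          ext z; simp [Equiv.permCongr_apply]
        rw [e1]; group
  have hSA : (S₀ : Subgroup (Perm ((Fin b × ZMod p ⊕ Fin a) × ZMod p ⊕ Fin r))) ≤ alternatingGroup ((Fin b × ZMod p ⊕ Fin a) × ZMod p ⊕ Fin r) := hS₀ ▸ base_le_alt hp (isPGroup_base P.isPGroup')
  have hmap : (S : Subgroup (alternatingGroup (Fin n))).map φ = (S₀ : Subgroup (Perm ((Fin b × ZMod p ⊕ Fin a) × ZMod p ⊕ Fin r))) := by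
    have hle : (S : Subgroup (alternatingGroup (Fin n))).map φ ≤ (S₀ : Subgroup (Perm ((Fin b × ZMod p ⊕ Fin a) × ZMod p ⊕ Fin r))) := by
      rintro _ ⟨y, hy, rfl⟩
      exact hg ⟨φ₀ y, ⟨y, hy, rfl⟩, rfl⟩
    have heq : (S₀ : Subgroup (Perm ((Fin b × ZMod p ⊕ Fin a) × ZMod p ⊕ Fin r))).comap φ = (S : Subgroup (alternatingGroup (Fin n))) :=
      S.is_maximal' (S₀.isPGroup'.comap_of_injective φ hφ) (Subgroup.map_le_iff_le_comap.1 hle)
    rw [← heq, Subgroup.map_comap_eq_self]
    exact hSA.trans (hrange ▸ Subgroup.map_le_range _ _)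
  refine HasClosureGen.comap hφ ?_
  rw [hrange, hmap, hS₀]
  exact hasClosureGen_model hp hap P

/-- The fusion system of `Alt(n)` is simple. -/
theorem isSimple_alt (n p : ℕ) (hn : 6 ≤ n) [Fact p.Prime] (hnp : p ^ 2 ≤ n) (hb : n % p ≤ 1)
    (S : Sylow p (alternatingGroup (Fin n))) :
    (Cfsg.groupFusionSystem (S : Subgroup (alternatingGroup (Fin n)))).IsSimple p := by
  have hpp : p.Prime := Fact.out
  refine isSimple_of_closure p S (Sylow.ne_bot_of_dvd_card S ?_) (fun T hT => stronglyClosed_alt (by simpa using hnp) S T hT) ?_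
  · haveI : Nontrivial (Fin n) := Fin.nontrivial_iff_two_le.2 (by omega)
    rw [nat_card_alternatingGroup, Nat.card_eq_fintype_card, Fintype.card_fin]
    have h2 : p ^ 2 ∣ n.factorial := by
      obtain ⟨k, hk⟩ := Nat.dvd_factorial hpp.pos (show p ≤ 2 * p - 1 by have := hpp.two_le; omega)
      refine dvd_trans ?_ (Nat.factorial_dvd_factorial (show 2 * p ≤ n by nlinarith [hpp.two_le]))
      rw [← Nat.mul_factorial_pred (show 2 * p ≠ 0 by have := hpp.pos; omega), hk]
      exact ⟨2 * k, by ring⟩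
    rcases eq_or_ne p 2 with h | h
    · subst h
      have h4 : 2 * 2 ∣ n.factorial := by simpa [pow_two] using h2
      exact (Nat.dvd_div_iff_mul_dvd (dvd_trans (dvd_mul_left 2 2) h4)).2 h4
    · refine (Nat.Coprime.dvd_of_dvd_mul_right ((Nat.coprime_primes hpp Nat.prime_two).2 h)
        (?_ : p ∣ n.factorial / 2 * 2))
      rw [Nat.div_mul_cancel (Nat.dvd_factorial (by norm_num) (by omega))]
      exact (dvd_pow_self p two_ne_zero).trans h2
  · rcases eq_or_ne p 2 with h | h
    · subst h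
      have hN := CfsgLib.AltSylowTwo.normalizer_sylow_alt hn S
      exact hasClosureGen_of_normalizer_eq le_top
        (inf_le_right.trans ((Subgroup.centralizer_le_normalizer _).trans hN.le)) (inf_le_right.trans hN.le)
    · exact hasClosureGen_alt h hnp hb S

end CfsgLib.AltFusion
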