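import Cfsg.Agent.Fusion.ConstrainedSub
import Cfsg.Agent.Fusion.Realized
import Cfsg.Agent.Fusion.RealizedNormal
import Cfsg.Agent.PReduced.Basic

/-!
Constrained fusion systems of groups: subnormal subgroups and central quotients.
-/

set_option autoImplicit false
set_option linter.style.haveILetI false

open Cfsg

namespace CfsgLib.Fusion

open Cfsg.FusionSystem
open scoped commutatorElement Pointwise

variable {Ω : Type*} [Group Ω] {S : Subgroup Ω} {F : Cfsg.FusionSystem S}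
variable {G : Type*} [Group G] [Finite G] {M : Type*} [Group M] {p : ℕ} [Fact p.Prime]

/-- A `p`-element lying over the image of a Sylow subgroup under a map with central kernel lies in it. -/
lemma mem_sylow_of_map_mem (T : Sylow p G) {π : G →* M} (hker : π.ker ≤ Subgroup.center G) {y : G} {k : ℕ}
    (hy : y ^ p ^ k = 1) (h : π y ∈ (T : Subgroup G).map π) : y ∈ (T : Subgroup G) := by
  obtain ⟨t, ht, he⟩ := h
  set z := t⁻¹ * y
  have hz : z ∈ Subgroup.center G := hker (by rw [MonoidHom.mem_ker, map_mul, map_inv, he, inv_mul_cancel])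
  have hyz : y = t * z := (mul_inv_cancel_left t y).symm
  obtain ⟨j, hj⟩ := T.2 ⟨t, ht⟩
  have hj' : t ^ p ^ j = 1 := congrArg Subtype.val hj
  have hzp : z ^ p ^ (j + k) = 1 := by
    have hc : Commute t z := (Subgroup.mem_center_iff.1 hz t)
    have h1 : y ^ p ^ (j + k) = 1 := by rw [pow_add, mul_comm, pow_mul, hy, one_pow]
    have htp : t ^ p ^ (j + k) = 1 := by rw [pow_add, pow_mul, hj', one_pow]
    rw [hyz, hc.mul_pow, htp, one_mul] at h1
    exact h1
  have hpg : IsPGroup p (Subgroup.zpowers z) := IsPGroup.of_card (n := Nat.find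
    (((Nat.dvd_prime_pow Fact.out).1 (orderOf_dvd_of_pow_eq_one hzp)).imp fun _ h => h.2)) (by
      rw [Nat.card_zpowers]
      exact Nat.find_spec (((Nat.dvd_prime_pow Fact.out).1 (orderOf_dvd_of_pow_eq_one hzp)).imp fun _ h => h.2))
  haveI : (Subgroup.zpowers z).Normal := ⟨fun w hw g => by
    have hwc : w ∈ Subgroup.center G := Subgroup.zpowers_le.2 hz hw
    rw [Subgroup.mem_center_iff.1 hwc g, mul_inv_cancel_right]
    exact hw⟩
  rw [hyz]
  exact (T : Subgroup G).mul_mem ht ((hpg.le_sylow_of_normal T) (Subgroup.mem_zpowers z))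

/-- Constrained systems stay constrained through a surjective homomorphism with central kernel. -/
theorem isConstrained_map [Finite S] (hS : IsPGroup p S) (hF : F.IsConstrained p) {ι : S →* G}
    (hR : F.IsRealizedBy ι) (T : Sylow p G) (hT : (T : Subgroup G) = ι.range) {π : G →* M}
    (hπ : Function.Surjective π) (hker : π.ker ≤ Subgroup.center G) (X : Subgroup M)
    (hX : X = (T : Subgroup G).map π) : (Cfsg.groupFusionSystem X).IsConstrained p := by
  subst hX
  haveI : Finite M := Finite.of_surjective π hπ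
  have hι := hR.1
  obtain ⟨hFs, Q₀, hQ₀, hQ₀c⟩ := hF
  set Q := F.core
  have hQ : F.IsNormal Q := Cfsg.Agent.S5145.result F
  have hQc : F.IsCentric Q := centric_of_le hQ₀c (le_sSup hQ₀) hQ.1
  set Q' := (imageAlong ι Q).map π with hQ'
  set T' := (T : Subgroup G).map π with hT'
  have hQ'T : Q' ≤ T' := Subgroup.map_mono (hT ▸ imageAlong_le Q)
  have hsat : (Cfsg.groupFusionSystem T').IsSaturated p := isSaturated_group (T.mapSurjective hπ)
  have hTS : ∀ y ∈ (T : Subgroup G), ∃ x : S, ι x = y := fun y hy => hT.le hy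
  haveI : Finite T' := inferInstance
  have hnorm : (Cfsg.groupFusionSystem T').IsNormal Q' := by
    refine ⟨hQ'T, ?_⟩
    rintro P' φ' ⟨hP', hφ', m, hm⟩
    obtain ⟨g, rfl⟩ := hπ m
    set P := preimageAlong ι (P'.comap π) with hPdef
    have hP : P ≤ S := preimageAlong_le _
    have himg : ∀ x : P, g * ι ⟨x, hP x.2⟩ * g⁻¹ ∈ ι.range := by
      intro x
      obtain ⟨_, hx⟩ := mem_preimageAlong.1 x.2
      obtain ⟨k, hk⟩ := hS ⟨x, hP x.2⟩
      rw [← hT]
      refine mem_sylow_of_map_mem T hker (k := k) ?_ ?_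
      · rw [conj_pow, ← map_pow, hk, map_one, mul_one, mul_inv_cancel]
      · rw [map_mul, map_mul, map_inv, ← hm ⟨_, hx⟩]
        exact hφ' _
    obtain ⟨φ, hφ, hφι⟩ := exists_hom_of_conj hR hP g himg
    obtain ⟨ψ, hψ, hag, hψQ⟩ := hQ.2 P φ hφ
    obtain ⟨g', hg'⟩ := exists_of_hom hR hψ
    have hle : P' ⊔ Q' ≤ (imageAlong ι (P ⊔ Q)).map π := by
      refine sup_le (fun y hy => ?_) (Subgroup.map_mono (Subgroup.map_mono fun x hx => Subgroup.mem_sup_right hx))
      obtain ⟨t, ht, rfl⟩ := hP' hy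
      obtain ⟨s, rfl⟩ := hTS t ht
      exact ⟨ι s, ⟨s, Subgroup.mem_sup_left (mem_preimageAlong.2 ⟨s.2, hy⟩), rfl⟩, rfl⟩
    have hval : ∀ x : ↥(P ⊔ Q), π g' * π (ι ⟨x, le_of_hom hψ x.2⟩) * (π g')⁻¹ ∈ T' := fun x => by
      rw [← map_mul, ← map_inv, ← map_mul, ← hg']
      exact ⟨_, hT.ge ⟨_, rfl⟩, rfl⟩
    refine ⟨conjHom (P' ⊔ Q') (π g'), ⟨sup_le hP' hQ'T, fun y => ?_, π g', fun _ => rfl⟩, fun y => ?_, ?_⟩
    · obtain ⟨_, ⟨s, hs, rfl⟩, he⟩ := hle y.2
      show π g' * (y : M) * (π g')⁻¹ ∈ T'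
      rw [← he]
      exact hval ⟨s, hs⟩
    · obtain ⟨t, ht, he⟩ := hP' y.2
      obtain ⟨s, rfl⟩ := hTS t ht
      have hsP : (s : Ω) ∈ P := mem_preimageAlong.2 ⟨s.2, show π (ι s) ∈ P' from he.symm ▸ y.2⟩
      have h1 := hg' (Subgroup.inclusion le_sup_left ⟨s, hsP⟩)
      have h2 := hφι ⟨s, hsP⟩ (val_mem hφ _)
      show π g' * (y : M) * (π g')⁻¹ = φ' y
      rw [hm y, ← he, ← map_mul, ← map_inv, ← map_mul]
      refine Eq.trans (congrArg π (h1.symm.trans (Eq.trans ?_ h2))) ?_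
      · exact congrArg ι (Subtype.ext (hag ⟨s, hsP⟩))
      · rw [map_mul, map_mul, map_inv]
    · refine le_antisymm ?_ ?_
      · rintro _ ⟨y, hy, rfl⟩
        obtain ⟨_, ⟨q, hq, rfl⟩, he⟩ := (hy : (y : M) ∈ Q')
        have he' : π (ι q) = (y : M) := he
        show π g' * (y : M) * (π g')⁻¹ ∈ Q'
        rw [← he', ← map_mul, ← map_inv, ← map_mul]
        refine ⟨_, ⟨⟨_, val_mem hψ ⟨q, Subgroup.mem_sup_right hq⟩⟩,
          hψQ.le ⟨⟨q, Subgroup.mem_sup_right hq⟩, hq, rfl⟩, hg' ⟨q, Subgroup.mem_sup_right hq⟩⟩, rfl⟩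
      · rintro _ ⟨_, ⟨q, hq, rfl⟩, rfl⟩
        obtain ⟨w, hw, hwq⟩ := hψQ.ge hq
        refine ⟨⟨π (ι ⟨w, hQ.1 hw⟩), Subgroup.mem_sup_right ⟨_, ⟨_, hw, rfl⟩, rfl⟩⟩,
          ⟨_, ⟨_, hw, rfl⟩, rfl⟩, ?_⟩
        show π g' * π (ι ⟨w, hQ.1 hw⟩) * (π g')⁻¹ = π (ι q)
        rw [← map_mul, ← map_inv, ← map_mul]
        exact congrArg π ((hg' w).symm.trans (congrArg ι (Subtype.ext hwq)))
  refine ⟨hsat, Q', hnorm, hQ'T, ?_⟩
  rintro R' ⟨φ', hφ', rfl⟩
  rw [(weaklyClosed_of_stronglyClosed (stronglyClosed_of_isNormal hnorm)).2 φ' hφ']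
  rintro _ ⟨⟨t, ht, rfl⟩, hyc⟩
  obtain ⟨s, rfl⟩ := hTS t ht
  haveI := finite_of_le hQ.1
  have hQn := le_normalizer_of_isNormal hQ
  refine ⟨ι s, ⟨s, (le_sSup (isNormal_corePreimage hS hFs hQ hQc) : corePreimage F p Q ≤ Q)
    ⟨s.2, conjAut Q S ⟨s, s.2, hQn s.2⟩, ?_, fun _ => rfl⟩, rfl⟩, rfl⟩
  let L : ℕ → Subgroup Ω := fun i =>
    if i = 0 then ⊥ else if i = 1 then Q ⊓ preimageAlong ι (Subgroup.center G) else ⊤
  have hL : Monotone L := monotone_nat_of_le_succ fun i => by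
    rcases i with _ | _ | i <;> simp [L]
  refine chainStab_le_pCore (hS.to_le hQ.1) hL (m := 2) (by simp [L]) (by simp [L]) _ (fun γ hγ i y hy => ?_)
    ⟨stabilizesChain_conj (g := (s : Ω)) (fun _ => rfl) fun i hi y hyQ hy => ?_,
      autInducedBy_le_autGroup hQ.1 (range_conjAut (P := Q) S ▸ ⟨_, rfl⟩)⟩
  · rcases i with _ | _ | i
    · simp [L] at hy ⊢
      exact hy
    · obtain ⟨-, hyz⟩ := (show (y : Ω) ∈ Q ⊓ preimageAlong ι (Subgroup.center G) from hy)
      obtain ⟨hyS, hyz⟩ := mem_preimageAlong.1 hyz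
      obtain ⟨g, hg⟩ := (mem_autGroup_realized hR hQ.1).1 hγ
      refine ⟨(γ y).2, mem_preimageAlong.2 ⟨hQ.1 (γ y).2, ?_⟩⟩
      show ι (Subgroup.inclusion hQ.1 (γ y)) ∈ Subgroup.center G
      rw [hg]
      exact Subgroup.Normal.conj_mem inferInstance _ hyz g
    · simp [L]
  · rcases i with _ | _ | i
    · obtain ⟨-, hyz⟩ := (show y ∈ Q ⊓ preimageAlong ι (Subgroup.center G) from hy)
      obtain ⟨hyS, hyz⟩ := mem_preimageAlong.1 hyz
      show ⁅y⁻¹, (s : Ω)⁆ ∈ (⊥ : Subgroup Ω)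
      rw [Subgroup.mem_bot, commutatorElement_eq_one_iff_mul_comm]
      have h1 := Subgroup.mem_center_iff.1 (inv_mem hyz) (ι s)
      rw [← map_inv, ← map_mul, ← map_mul] at h1
      exact (congrArg Subtype.val (hι h1)).symm
    · have hyS : y ∈ S := hQ.1 hyQ
      show ⁅y⁻¹, (s : Ω)⁆ ∈ Q ⊓ preimageAlong ι (Subgroup.center G)
      refine ⟨?_, mem_preimageAlong.2 ⟨?_, hker ?_⟩⟩
      · rw [commutatorElement_def, inv_inv,
          show y⁻¹ * (s : Ω) * y * (s : Ω)⁻¹ = y⁻¹ * ((s : Ω) * y * (s : Ω)⁻¹) by group]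
        exact Q.mul_mem (Q.inv_mem hyQ) (conj_mem_of_normalizer (hQn s.2) hyQ)
      · exact (⁅(⟨y, hyS⟩⁻¹ : S), s⁆).2
      · show π (ι ⁅(⟨y, hyS⟩⁻¹ : S), s⁆) = 1
        rw [map_commutatorElement, map_commutatorElement, commutatorElement_eq_one_iff_mul_comm, map_inv, map_inv]
        exact Subgroup.mem_centralizer_iff.1 hyc _ (Q'.inv_mem ⟨ι ⟨y, hyS⟩, ⟨_, hyQ, rfl⟩, rfl⟩)
    · omega

lemma isRealizedBy_subtype (X : Subgroup G) : (Cfsg.groupFusionSystem X).IsRealizedBy X.subtype :=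
  ⟨X.subtype_injective, fun P hP φ hφ => ⟨fun h => h.2.2, fun h => ⟨hP, hφ, h⟩⟩⟩

/-- Subnormal subgroups of a group with constrained system have constrained systems. -/
theorem constrained_of_isSubnormal (S : Sylow p G)
    (hF : (Cfsg.groupFusionSystem (S : Subgroup G)).IsConstrained p) {H : Subgroup G} (hH : H.IsSubnormal) :
    (∃ T : Sylow p H, (T : Subgroup H) = (S : Subgroup G).subgroupOf H) ∧
      (Cfsg.groupFusionSystem ((S : Subgroup G).subgroupOf H)).IsConstrained p := by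
  induction hH with
  | top =>
    have hsurj : Function.Surjective (Subgroup.topEquiv.symm : G ≃* (⊤ : Subgroup G)).toMonoidHom :=
      (Subgroup.topEquiv.symm : G ≃* (⊤ : Subgroup G)).surjective
    have hX : (S : Subgroup G).subgroupOf ⊤ =
        (S : Subgroup G).map (Subgroup.topEquiv.symm : G ≃* (⊤ : Subgroup G)).toMonoidHom := by
      ext x
      exact ⟨fun hx => ⟨x, hx, Subtype.ext rfl⟩, by rintro ⟨y, hy, rfl⟩; exact hy⟩
    refine ⟨⟨S.mapSurjective hsurj, hX.symm⟩, ?_⟩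
    exact isConstrained_map S.isPGroup' hF (isRealizedBy_subtype _) S (Subgroup.range_subtype _).symm hsurj
      (by rw [(MonoidHom.ker_eq_bot_iff _).2 (MulEquiv.injective _)]; exact bot_le) _ hX
  | step H K hHK _ hN ih =>
    obtain ⟨⟨T, hT⟩, hK⟩ := ih
    set X := (S : Subgroup G).subgroupOf K
    set N := H.subgroupOf K
    haveI := hN
    have hRX : (Cfsg.groupFusionSystem X).IsRealizedBy X.subtype := isRealizedBy_subtype X
    have hTX : (T : Subgroup K) = X.subtype.range := hT.trans (Subgroup.range_subtype X).symm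
    have hXp : IsPGroup p X := hT ▸ T.2
    have hnorm := isNormalIn_subgroupSystem hRX T hTX N
    have hpre : preimageAlong X.subtype N ≤ X := preimageAlong_le N
    have hY := isConstrained_of_isNormalIn hXp hK hnorm
    let ι : ↥(preimageAlong X.subtype N) →* N :=
      ((X.subtype).comp (Subgroup.inclusion hpre)).codRestrict N fun x => (mem_preimageAlong.1 x.2).2
    have hι : Function.Injective ι := fun a b h =>
      Subgroup.inclusion_injective hpre (Subtype.ext (congrArg (fun z : N => (z : K)) h))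
    have hR : (subgroupSystem X.subtype N).IsRealizedBy ι := by
      refine ⟨hι, fun P hP φ hφ => ⟨?_, ?_⟩⟩
      · rintro ⟨_, _, -, g, hg, hx⟩
        exact ⟨⟨g, hg⟩, fun x => Subtype.ext (hx x)⟩
      · rintro ⟨g, hx⟩
        refine ⟨hP, hφ, fun a b hab => ?_, g, g.2, fun x => congrArg Subtype.val (hx x)⟩
        have ha := hx a
        have hb := hx b
        have e : (⟨φ a, hφ a⟩ : ↥(preimageAlong X.subtype N)) = ⟨φ b, hφ b⟩ := Subtype.ext hab
        rw [e, hb] at ha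
        exact Subgroup.inclusion_injective hP (hι (mul_left_cancel (mul_right_cancel ha)).symm)
    obtain ⟨U, hU⟩ := CfsgLib.PReduced.exists_sylow_inf T N
    have hUι : (U : Subgroup N) = ι.range := by
      rw [hU]
      ext y
      constructor
      · intro hy
        have hy' : (y : K) ∈ (T : Subgroup K) := hy.1
        rw [hT] at hy'
        exact ⟨⟨y, mem_preimageAlong.2 ⟨hy', y.2⟩⟩, Subtype.ext rfl⟩
      · rintro ⟨z, rfl⟩
        exact ⟨hT.ge (hpre z.2), (mem_preimageAlong.1 z.2).2⟩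
    set e : N ≃* H := Subgroup.subgroupOfEquivOfLe hHK
    have hX' : (S : Subgroup G).subgroupOf H = (U : Subgroup N).map e.toMonoidHom := by
      rw [hU]
      ext x
      constructor
      · intro hx
        exact ⟨⟨⟨(x : G), hHK x.2⟩, x.2⟩, ⟨hT.ge hx, x.2⟩, Subtype.ext rfl⟩
      · rintro ⟨z, hz, rfl⟩
        exact (hT.le hz.1 :)
    refine ⟨⟨U.mapSurjective (f := e.toMonoidHom) e.surjective, hX'.symm⟩, ?_⟩
    haveI : Finite ↥(preimageAlong X.subtype N) := finite_of_le hpre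
    exact isConstrained_map (hXp.to_le hpre) hY hR U hUι (π := e.toMonoidHom) e.surjective
      (by rw [(MonoidHom.ker_eq_bot_iff _).2 (MulEquiv.injective _)]; exact bot_le) _ hX'

end CfsgLib.Fusion
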