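import Cfsg.Agent.Fusion.NormalSubsystemPieces
import Cfsg.Agent.Fusion.Invariant
import Cfsg.Agent.Fusion.NormalOfGroup

/-!
Normal subsystems of the fusion system of a group of characteristic `p` come from unique normal subgroups.
-/

set_option autoImplicit false
set_option linter.style.haveILetI false

open Cfsg

namespace CfsgLib.Fusion

open Cfsg.FusionSystem

variable {G : Type*} [Group G] [Finite G] {p : ℕ} [Fact p.Prime]

/-- An element conjugating `P` into itself gives an automorphism. -/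
lemma exists_aut_of_conj {P : Subgroup G} {g : G} (h : ∀ x ∈ P, g * x * g⁻¹ ∈ P) :
    ∃ β : MulAut P, ∀ x : P, ((β x : P) : G) = g * (x : G) * g⁻¹ := by
  let f : P →* P := ((MulAut.conj g).toMonoidHom.comp P.subtype).codRestrict P fun x => h x x.2
  have hf : Function.Injective f := fun a b hab =>
    Subtype.ext ((MulAut.conj g).injective (congrArg Subtype.val hab))
  exact ⟨MulEquiv.ofBijective f (Finite.injective_iff_bijective.1 hf), fun x => rfl⟩

/-- The core meets the subgroup of a normal subsystem in a normal subgroup. -/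
lemma core_inf_normal (S : Sylow p G) {T : Subgroup G}
    (hsc : (Cfsg.groupFusionSystem (S : Subgroup G)).StronglyClosed T) :
    (Cfsg.pCore p G ⊓ T).Normal ∧ ∀ g : G, ∀ t ∈ T, g * t * g⁻¹ ∈ (S : Subgroup G) → g * t * g⁻¹ ∈ T := by
  have hcl : ∀ g : G, ∀ t ∈ T, g * t * g⁻¹ ∈ (S : Subgroup G) → g * t * g⁻¹ ∈ T := by
    intro g t ht hS
    have hz : Subgroup.zpowers t ≤ T := Subgroup.zpowers_le.2 ht
    refine hsc.2 _ hz (conjHom _ g) ⟨hz.trans hsc.1, ?_, g, fun x => rfl⟩ ⟨t, Subgroup.mem_zpowers t⟩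
    rintro ⟨_, i, rfl⟩
    show g * t ^ i * g⁻¹ ∈ (S : Subgroup G)
    rw [← conj_zpow]
    exact Subgroup.zpow_mem _ hS i
  refine ⟨⟨fun x hx g => ?_⟩, hcl⟩
  have h1 := (Cfsg.pCore_normal p G).conj_mem _ hx.1 g
  exact ⟨h1, hcl g x hx.2 (CfsgLib.PCore.pCore_le_sylow S h1)⟩

theorem existsUnique_normal_of_normal_subsystem (S : Sylow p G)
    (hG : Subgroup.centralizer ((Cfsg.pCore p G : Subgroup G) : Set G) ≤ Cfsg.pCore p G) {T : Subgroup G}
    (hTS : T ≤ (S : Subgroup G)) (E : Cfsg.FusionSystem T)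
    (hE : E.IsNormalIn (Cfsg.groupFusionSystem (S : Subgroup G)) p) :
    ∃ H : Subgroup G, (∃ hTH : T ≤ H, H.Normal ∧ (∃ R : Sylow p H, (R : Subgroup H) = T.subgroupOf H) ∧
      ∀ P : Subgroup G, E.Hom P = (Cfsg.fusionSystemOfSubgroup H T hTH).Hom P) ∧
      ∀ H' : Subgroup G, (∃ hTH' : T ≤ H', H'.Normal ∧ (∃ R : Sylow p H', (R : Subgroup H') = T.subgroupOf H') ∧
        ∀ P : Subgroup G, E.Hom P = (Cfsg.fusionSystemOfSubgroup H' T hTH').Hom P) → H' = H := by
  classical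
  obtain ⟨⟨hEs, hFs, hinv⟩, hext⟩ := hE
  have hsc := hinv.2.1
  obtain ⟨hQ₀n, hcl⟩ := core_inf_normal S hsc
  set Q := Cfsg.pCore p G with hQ
  haveI hQn : Q.Normal := Cfsg.pCore_normal p G
  have hQp : IsPGroup p Q := CfsgLib.PCore.isPGroup_pCore p G
  have hQS : Q ≤ (S : Subgroup G) := CfsgLib.PCore.pCore_le_sylow S
  set Q₀ := Q ⊓ T with hQ₀
  haveI := hQ₀n
  have hQ₀T : Q₀ ≤ T := inf_le_right
  have hQ₀S : Q₀ ≤ (S : Subgroup G) := hQ₀T.trans hTS
  have hTp : IsPGroup p T := S.isPGroup'.to_le hTS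
  have hTn : ∀ s ∈ (S : Subgroup G), ∀ t ∈ T, s * t * s⁻¹ ∈ T := fun s hs t ht =>
    hcl s t ht ((S : Subgroup G).mul_mem ((S : Subgroup G).mul_mem hs (hTS ht)) ((S : Subgroup G).inv_mem hs))
  have hEconj : ∀ (P : Subgroup G) (φ : P →* G), φ ∈ E.Hom P → ∃ g : G, ∀ x : P, φ x = g * (x : G) * g⁻¹ :=
    fun P φ hφ => (hinv.1 P hφ).2.2
  -- the action on `Q₀`
  let ρ : G →* MulAut Q₀ := MulAut.conjNormal
  have hρ : ∀ (g : G) (x : Q₀), ((ρ g x : Q₀) : G) = g * (x : G) * g⁻¹ := fun g x => rfl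
  have hρ1 : ∀ g : G, ρ g = 1 ↔ g ∈ Subgroup.centralizer (Q₀ : Set G) := by
    intro g
    constructor
    · intro h
      refine Subgroup.mem_centralizer_iff.2 fun x hx => ?_
      have h1 := hρ g ⟨x, hx⟩
      rw [h] at h1
      calc x * g = g * x * g⁻¹ * g := by rw [← h1]; rfl
        _ = g * x := by group
    · intro h
      refine MulEquiv.ext fun x => Subtype.ext ?_
      rw [hρ, ← Subgroup.mem_centralizer_iff.1 h x x.2, mul_inv_cancel_right]
      rfl
  set A := E.autGroup Q₀ with hA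
  have hρE : ∀ g : G, ρ g ∈ (Cfsg.groupFusionSystem (S : Subgroup G)).autGroup Q₀ := fun g =>
    (mem_autGroup hQ₀S).2 ⟨hQ₀S, fun x => hQ₀S (ρ g x).2, g, fun x => rfl⟩
  have hAn : ∀ g : G, ∀ a ∈ A, ρ g * a * (ρ g)⁻¹ ∈ A := fun g a ha =>
    conj_mem_autGroup_invariant hinv hQ₀T ha (hρE g)
  have hAρ : ∀ a ∈ A, ∃ g : G, ρ g = a := fun a ha => by
    obtain ⟨g, hg⟩ := hEconj _ _ ((mem_autGroup hQ₀T).1 ha)
    exact ⟨g, MulEquiv.ext fun x => Subtype.ext (hg x).symm⟩
  have hTA : ∀ t ∈ T, ρ t ∈ A := fun t ht => mem_autGroup_of_eq (E.conj_mem hQ₀T ht) fun x => rfl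
  let π := QuotientGroup.mk' Q₀
  set M0 := (Subgroup.centralizer ((Q.map π : Subgroup (G ⧸ Q₀)) : Set (G ⧸ Q₀))).comap π
  haveI : (Q.map π).Normal := hQn.map _ (QuotientGroup.mk'_surjective Q₀)
  haveI hM0n : M0.Normal := Subgroup.Normal.comap (Subgroup.normal_centralizer) π
  have hM0 : ∀ g : G, g ∈ M0 ↔ ∀ q ∈ Q, g * q * g⁻¹ * q⁻¹ ∈ Q₀ := by
    intro g
    constructor
    · intro hg q hq
      have h1 := Subgroup.mem_centralizer_iff.1 hg _ ⟨q, hq, rfl⟩
      rw [← QuotientGroup.eq_one_iff (N := Q₀)]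
      show π (g * q * g⁻¹ * q⁻¹) = 1
      simp only [map_mul, map_inv, ← h1, mul_inv_cancel_right, mul_inv_cancel]
    · rintro hg
      refine Subgroup.mem_centralizer_iff.2 ?_
      rintro _ ⟨q, hq, rfl⟩
      have h1 : π (g * q * g⁻¹ * q⁻¹) = 1 := (QuotientGroup.eq_one_iff _).2 (hg q hq)
      simp only [map_mul, map_inv, mul_inv_eq_iff_eq_mul, one_mul] at h1
      exact h1.symm
  set M := M0 ⊓ A.comap ρ with hM
  haveI hMn : M.Normal := ⟨fun m hm g => ⟨hM0n.conj_mem _ hm.1 g, by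
    show ρ (g * m * g⁻¹) ∈ A
    rw [map_mul, map_mul, map_inv]
    exact hAn g _ hm.2⟩⟩
  have hTM : T ≤ M := fun t ht => ⟨(hM0 t).2 fun q hq => ⟨Q.mul_mem (hQn.conj_mem q hq t) (Q.inv_mem hq), by
    rw [show t * q * t⁻¹ * q⁻¹ = t * (q * t⁻¹ * q⁻¹) by group]
    exact T.mul_mem ht (hTn q (hQS hq) _ (T.inv_mem ht))⟩, hTA t ht⟩
  have hstab : ∀ g ∈ M0, g ∈ Subgroup.centralizer (Q₀ : Set G) → g ∈ Q := fun g hg hgc =>
    stab_le_pCore hG hQp Q₀ inf_le_left ⟨hgc, hg⟩
  have hCT : ∀ x ∈ T, (∀ k ∈ Q₀, k * x = x * k) → x ∈ Q₀ := fun x hx h =>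
    ⟨hstab x (hTM hx).1 (Subgroup.mem_centralizer_iff.2 h), hx⟩
  have hnorm : ∀ g : G, g ∈ Subgroup.normalizer (Q₀ : Set G) := fun g => by
    rw [Subgroup.normalizer_eq_top]; trivial
  haveI := finite_of_le (S := (S : Subgroup G)) hTS
  have hfn : E.IsFullyNormalized Q₀ := by
    refine ⟨hQ₀T, fun R _ => Subgroup.card_le_of_le ?_⟩
    exact le_inf inf_le_left fun g _ => hnorm g
  obtain ⟨-, PA, hPA⟩ := fullyAutomized_of_fullyNormalized hTp hEs hfn
  -- every element of `A` comes from `M`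
  have hlift : ∀ a ∈ A, ∃ m ∈ M, ρ m = a := by
    set N := (M.map ρ).subgroupOf A
    haveI hNn : N.Normal := by
      constructor
      rintro ⟨x, hxA⟩ ⟨m, hm, hmx⟩ ⟨a, ha⟩
      obtain ⟨g, hg⟩ := hAρ a ha
      refine ⟨g * m * g⁻¹, hMn.conj_mem _ hm g, ?_⟩
      rw [map_mul, map_mul, map_inv, hmx, hg]
      rfl
    have hPN : (PA : Subgroup A) ≤ N := by
      intro x hx
      obtain ⟨t, ht, htx⟩ := mem_autInducedBy.1 (Subgroup.mem_subgroupOf.1 (hPA.le hx))
      exact ⟨t, hTM ht, MulEquiv.ext fun y => Subtype.ext (htx y).symm⟩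
    -- automorphisms of `T` in `E`
    have hBT : ∀ β ∈ E.autGroup T, ∃ m ∈ M, ∀ x : T, (x : G) ∈ Q₀ → ((β x : T) : G) = m * (x : G) * m⁻¹ := by
      set B := E.autGroup T
      haveI := finite_mulAut (S := T) (le_refl T)
      let K : Subgroup B :=
        { carrier := {β | ∃ m ∈ M, ∀ x : T, (x : G) ∈ Q₀ → (((β : MulAut T) x : T) : G) = m * (x : G) * m⁻¹}
          one_mem' := ⟨1, M.one_mem, fun x _ => by simp⟩
          mul_mem' := fun {a b} ⟨m, hm, hma⟩ ⟨k, hk, hkb⟩ => ⟨m * k, M.mul_mem hm hk, fun x hx => by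
            have h2 : (((b : MulAut T) x : T) : G) ∈ Q₀ := by
              rw [hkb x hx]; exact hQ₀n.conj_mem _ hx k
            show (((a : MulAut T) ((b : MulAut T) x) : T) : G) = _
            rw [hma _ h2, hkb x hx]
            group⟩
          inv_mem' := fun {a} ⟨m, hm, hma⟩ => ⟨m⁻¹, M.inv_mem hm, fun x hx => by
            set y : T := ⟨m⁻¹ * x * m⁻¹⁻¹, hQ₀T (hQ₀n.conj_mem _ hx m⁻¹)⟩
            have h1 : (a : MulAut T) y = x := Subtype.ext (by
              rw [hma y (hQ₀n.conj_mem _ hx m⁻¹)]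
              show m * (m⁻¹ * (x : G) * m⁻¹⁻¹) * m⁻¹ = x
              group)
            show (((a : MulAut T)⁻¹ x : T) : G) = _
            rw [← h1, MulAut.inv_apply_self, h1]⟩ }
      obtain ⟨-, PT, hPT⟩ := fullyAutomized_of_fullyNormalized hTp hEs (isFullyNormalized_self E)
      rw [autInducedBy_self] at hPT
      haveI hInn : ((Cfsg.Inn T).subgroupOf B).Normal := inn_subgroupOf_normal _
      have hInnK : (Cfsg.Inn T).subgroupOf B ≤ K := by
        rintro x ⟨t, ht⟩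
        refine ⟨t, hTM t.2, fun y _ => ?_⟩
        rw [show ((x : B) : MulAut T) = MulAut.conj t from ht.symm]
        rfl
      obtain ⟨l, hl⟩ := IsPGroup.iff_card.1 hQp
      have hpow : ∀ β : B, β ^ Nat.card Q ∈ K := by
        intro β
        set U := T ⊔ centralizerIn (S : Subgroup G) T with hU
        obtain ⟨βt, hβt, hag, hz⟩ := hext β β.2
        have hUS : U ≤ (S : Subgroup G) := sup_le hTS inf_le_left
        obtain ⟨-, -, g, hg⟩ := (mem_autGroup hUS).1 hβt
        have hgT : ∀ x : T, (((β : MulAut T) x : T) : G) = g * (x : G) * g⁻¹ := fun x =>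
          (hag x).symm.trans (hg _)
        have hgU : ∀ u ∈ U, g * u * g⁻¹ * u⁻¹ ∈ T := by
          intro u hu
          have hu' : u ∈ Subgroup.closure ((T : Set G) ∪ (centralizerIn (S : Subgroup G) T : Set G)) := by
            rwa [Subgroup.closure_union, Subgroup.closure_eq, Subgroup.closure_eq]
          suffices u ∈ U ∧ g * u * g⁻¹ * u⁻¹ ∈ T from this.2
          clear hu
          induction hu' using Subgroup.closure_induction with
          | mem x hx =>
            rcases hx with hx | hx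
            · refine ⟨Subgroup.mem_sup_left hx, T.mul_mem ?_ (T.inv_mem hx)⟩
              rw [← hgT ⟨x, hx⟩]
              exact SetLike.coe_mem _
            · refine ⟨Subgroup.mem_sup_right hx, ?_⟩
              have h1 := hz ⟨x, Subgroup.mem_sup_right hx⟩ hx
              have h2 : ((βt ⟨x, Subgroup.mem_sup_right hx⟩ : U) : G) = g * x * g⁻¹ := hg _
              rw [h2] at h1
              have h3 := hTn x hx.1 _ h1.1
              rwa [show x * (x⁻¹ * (g * x * g⁻¹)) * x⁻¹ = g * x * g⁻¹ * x⁻¹ by group] at h3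
          | one => exact ⟨U.one_mem, by simp⟩
          | mul x y _ _ hx hy =>
            refine ⟨U.mul_mem hx.1 hy.1, ?_⟩
            rw [show g * (x * y) * g⁻¹ * (x * y)⁻¹ = g * x * g⁻¹ * x⁻¹ * (x * (g * y * g⁻¹ * y⁻¹) * x⁻¹) by group]
            exact T.mul_mem hx.2 (hTn x (hUS hx.1) _ hy.2)
          | inv x _ hx =>
            refine ⟨U.inv_mem hx.1, ?_⟩
            rw [show g * x⁻¹ * g⁻¹ * x⁻¹⁻¹ = x⁻¹ * (g * x * g⁻¹ * x⁻¹)⁻¹ * x⁻¹⁻¹ by group]
            exact hTn _ ((S : Subgroup G).inv_mem (hUS hx.1)) _ (T.inv_mem hx.2)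
        -- `g` moves `Q` inside `U`, and `Q ⊓ U` inside `Q₀`
        have hgQ : ∀ q ∈ Q, g * q * g⁻¹ * q⁻¹ ∈ U := by
          intro q hq
          set d := g * q * g⁻¹ * q⁻¹ with hd
          have hdQ : d ∈ Q := Q.mul_mem (hQn.conj_mem q hq g) (Q.inv_mem hq)
          have hqn : q ∈ Subgroup.normalizer (T : Set G) := Subgroup.mem_normalizer_iff.2 fun x =>
            ⟨fun hx => hTn q (hQS hq) x hx, fun hx => by
              simpa [mul_assoc] using hTn _ ((S : Subgroup G).inv_mem (hQS hq)) _ hx⟩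
          have hdn : d ∈ Subgroup.normalizer (T : Set G) := Subgroup.mem_normalizer_iff.2 fun x =>
            ⟨fun hx => hTn d (hQS hdQ) x hx, fun hx => by
              simpa [mul_assoc] using hTn _ ((S : Subgroup G).inv_mem (hQS hdQ)) _ hx⟩
          set cq := conjAut T (S : Subgroup G) ⟨q, hQS hq, hqn⟩
          set cd := conjAut T (S : Subgroup G) ⟨d, hQS hdQ, hdn⟩
          have hcq : cq ∈ (Cfsg.groupFusionSystem (S : Subgroup G)).autGroup T :=
            autInducedBy_le_autGroup hTS ((range_conjAut (P := T) (S : Subgroup G)).le ⟨_, rfl⟩)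
          have hcd : cd = (β : MulAut T) * (cq * (β : MulAut T)⁻¹ * cq⁻¹) := by
            refine MulEquiv.ext fun x => Subtype.ext ?_
            obtain ⟨y, rfl⟩ : ∃ y, cq ((β : MulAut T) y) = x :=
              ⟨(β : MulAut T)⁻¹ (cq⁻¹ x), by rw [MulAut.apply_inv_self, MulAut.apply_inv_self]⟩
            simp only [MulAut.mul_apply, MulAut.inv_apply_self]
            simp only [cd, cq, conjAut_apply, hgT, hd]
            group
          have hcdE : cd ∈ B := hcd ▸ B.mul_mem β.2 (conj_mem_autGroup_invariant hinv le_rfl (B.inv_mem β.2) hcq)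
          obtain ⟨k, hk⟩ := isPGroup_autInducedBy p S.isPGroup' T
            ⟨cd, (range_conjAut (P := T) (S : Subgroup G)).le ⟨_, rfl⟩⟩
          obtain ⟨j, -, hj⟩ := (Nat.dvd_prime_pow (Fact.out : p.Prime)).1
            (orderOf_dvd_of_pow_eq_one (congrArg Subtype.val hk : cd ^ p ^ k = 1))
          have hcdI : (⟨cd, hcdE⟩ : B) ∈ (Cfsg.Inn T).subgroupOf B :=
            mem_of_sylow_le _ PT hPT.le (k := j) (by rw [← Subgroup.orderOf_coe]; exact hj)
          obtain ⟨t, ht⟩ := Subgroup.mem_subgroupOf.1 hcdI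
          have hc : (t : G)⁻¹ * d ∈ centralizerIn (S : Subgroup G) T := by
            refine ⟨(S : Subgroup G).mul_mem ((S : Subgroup G).inv_mem (hTS t.2)) (hQS hdQ),
              Subgroup.mem_centralizer_iff.2 fun x hx => ?_⟩
            have h3 : (t : G) * x * (t : G)⁻¹ = d * x * d⁻¹ :=
              congrArg (fun γ : MulAut T => ((γ ⟨x, hx⟩ : T) : G)) ht
            calc x * ((t : G)⁻¹ * d) = (t : G)⁻¹ * ((t : G) * x * (t : G)⁻¹) * d := by group
              _ = (t : G)⁻¹ * (d * x * d⁻¹) * d := by rw [h3]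
              _ = (t : G)⁻¹ * d * x := by group
          have := U.mul_mem (Subgroup.mem_sup_left t.2) (Subgroup.mem_sup_right hc)
          rwa [mul_inv_cancel_left] at this
        have hgM0 : g ^ Nat.card Q ∈ M0 := by
          refine (hM0 _).2 fun q hq => ?_
          set d := g * q * g⁻¹ * q⁻¹
          have hdQ : d ∈ Q := Q.mul_mem (hQn.conj_mem q hq g) (Q.inv_mem hq)
          have hcomm : π g * π d = π d * π g := by
            have h1 : π (g * d * g⁻¹ * d⁻¹) = 1 := (QuotientGroup.eq_one_iff _).2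
              ⟨Q.mul_mem (hQn.conj_mem d hdQ g) (Q.inv_mem hdQ), hgU d (hgQ q hq)⟩
            simp only [map_mul, map_inv, mul_inv_eq_iff_eq_mul, one_mul] at h1
            exact h1
          have hit : ∀ i : ℕ, π g ^ i * π q * (π g ^ i)⁻¹ = π d ^ i * π q := by
            intro i
            induction i with
            | zero => simp
            | succ i ih =>
              calc π g ^ (i + 1) * π q * (π g ^ (i + 1))⁻¹
                  = π g * (π g ^ i * π q * (π g ^ i)⁻¹) * (π g)⁻¹ := by rw [pow_succ']; group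
                _ = π g * π d ^ i * π q * (π g)⁻¹ := by rw [ih]; group
                _ = π d ^ i * (π g * π q * (π g)⁻¹ * (π q)⁻¹) * π q := by
                  rw [(Commute.pow_right hcomm i).eq]; group
                _ = π d ^ (i + 1) * π q := by
                  rw [pow_succ]; simp only [d, map_mul, map_inv]
          rw [← QuotientGroup.eq_one_iff (N := Q₀)]
          show π (g ^ Nat.card Q * q * (g ^ Nat.card Q)⁻¹ * q⁻¹) = 1
          rw [map_mul, map_mul, map_mul, map_inv, map_inv, map_pow, hit, ← map_pow,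
            show d ^ Nat.card Q = 1 from congrArg Subtype.val (pow_card_eq_one' (x := (⟨d, hdQ⟩ : Q))),
            map_one, one_mul, mul_inv_cancel]
        have hpw : ∀ (i : ℕ) (x : T), ((((β : MulAut T) ^ i) x : T) : G) = g ^ i * (x : G) * (g ^ i)⁻¹ := by
          intro i
          induction i with
          | zero => simp
          | succ i ih =>
            intro x
            rw [pow_succ', MulAut.mul_apply, hgT, ih, pow_succ']
            group
        refine ⟨g ^ Nat.card Q, ⟨hgM0, ?_⟩, fun x _ => hpw _ x⟩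
        refine mem_autGroup_of_eq (restrict ((mem_autGroup le_rfl).1 (B.pow_mem β.2 (Nat.card Q))) hQ₀T)
          fun x => ?_
        exact (hρ _ x).trans (hpw _ ⟨x, hQ₀T x.2⟩).symm
      intro β hβ
      suffices h : (⟨β, hβ⟩ : B) ∈ K from h
      set b : B := ⟨β, hβ⟩
      set r := ((Cfsg.Inn T).subgroupOf B).index
      have hcop : (Nat.card Q).Coprime r := by
        rw [hl]
        refine Nat.Coprime.pow_left l ((Fact.out : p.Prime).coprime_iff_not_dvd.2 ?_)
        show ¬ p ∣ ((Cfsg.Inn T).subgroupOf B).index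
        rw [← hPT]
        exact PT.not_dvd_index
      have hbe : b = (b ^ Nat.card Q) ^ Nat.gcdA (Nat.card Q) r * (b ^ r) ^ Nat.gcdB (Nat.card Q) r := by
        rw [← zpow_natCast, ← zpow_natCast, ← zpow_mul, ← zpow_mul, ← zpow_add, ← Nat.gcd_eq_gcd_ab, hcop,
          Nat.cast_one, zpow_one]
      rw [hbe]
      exact K.mul_mem (K.zpow_mem (hpow b) _) (K.zpow_mem (hInnK (Subgroup.pow_index_mem _ b)) _)
    have hNPA : Subgroup.normalizer ((PA : Subgroup A) : Set A) ≤ N := by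
      rintro ⟨a, ha⟩ han
      obtain ⟨ψ, hψ, hag⟩ := (receptive_of_fullyNormalized hTp hEs hfn).2 Q₀ _ ((mem_autGroup hQ₀T).1 ha) (range_aut a)
      have hle : T ≤ extender T Q₀ (Q₀.subtype.comp a.toMonoidHom) := by
        intro t ht
        have hmem : conjAut Q₀ T ⟨t, ht, hnorm t⟩ ∈ autInducedBy T Q₀ := (range_conjAut (P := Q₀) T).le ⟨_, rfl⟩
        have h1 := (Subgroup.mem_normalizer_iff.1 han ⟨_, autInducedBy_le_autGroup hQ₀T hmem⟩).1
          (hPA.ge (Subgroup.mem_subgroupOf.2 hmem))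
        obtain ⟨t', ht', htx⟩ := mem_autInducedBy.1 (Subgroup.mem_subgroupOf.1 (hPA.le h1))
        refine mem_extender.2 ⟨ht, hnorm t, t', ht', fun x hx => ?_⟩
        have h2 := htx (a x)
        simp only [Subgroup.coe_mul, Subgroup.coe_inv, MulAut.mul_apply, MulAut.inv_apply_self] at h2
        exact h2
      have hψT : ∀ x : T, ψ ⟨x, hle x.2⟩ ∈ T := fun x => val_mem hψ _
      let f : T →* T := (ψ.comp (Subgroup.inclusion hle)).codRestrict T hψT
      have hf : Function.Injective f := fun x y h =>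
        Subtype.ext (congrArg Subtype.val (E.injective_of_mem hψ (congrArg Subtype.val h)) :)
      let β : MulAut T := MulEquiv.ofBijective f (Finite.injective_iff_bijective.1 hf)
      obtain ⟨m, hm, hmx⟩ := hBT β (mem_autGroup_of_eq (restrict hψ hle) fun x => rfl)
      refine ⟨m, hm, MulEquiv.ext fun x => Subtype.ext ?_⟩
      show ((ρ m x : Q₀) : G) = ((a x : Q₀) : G)
      rw [hρ, ← hmx ⟨x, hQ₀T x.2⟩ x.2]
      exact hag x x.2 _
    have htop : N = ⊤ := by
      rw [eq_top_iff, ← Sylow.normalizer_sup_eq_top' PA hPN]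
      exact sup_le hNPA le_rfl
    intro a ha
    obtain ⟨m, hm, hma⟩ := (htop.ge (Subgroup.mem_top (⟨a, ha⟩ : A)) : (⟨a, ha⟩ : A) ∈ N)
    exact ⟨m, hm, hma⟩
  -- the normal subgroup
  set H := Subgroup.normalClosure ((T : Set G) ∪ {g : G | g ∈ M ∧ (orderOf g).Coprime p}) with hH
  haveI hHn : H.Normal := Subgroup.normalClosure_normal
  have hHM : H ≤ M := Subgroup.normalClosure_le_normal (Set.union_subset hTM fun g hg => hg.1)
  have hTH : T ≤ H := fun t ht => Subgroup.subset_normalClosure (Or.inl ht)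
  set D := M ⊓ Subgroup.centralizer (Q₀ : Set G)
  have hDQ : D ≤ Q := fun d hd => hstab d hd.1.1 hd.2
  have hdec : ∀ s ∈ (S : Subgroup G), s ∈ M → ∃ t ∈ T, ∃ d ∈ D, d ∈ (S : Subgroup G) ∧ s = t * d := by
    intro s hs hsM
    set X := (autInducedBy (S : Subgroup G) Q₀).subgroupOf A
    have hXp : IsPGroup p X := (isPGroup_autInducedBy p S.isPGroup' Q₀).comap_subtype
    have hle : (PA : Subgroup A) ≤ X := fun x hx => by
      obtain ⟨t, ht, htx⟩ := mem_autInducedBy.1 (Subgroup.mem_subgroupOf.1 (hPA.le hx))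
      exact Subgroup.mem_subgroupOf.2 (mem_autInducedBy.2 ⟨t, hTS ht, htx⟩)
    have hsX : (⟨ρ s, hsM.2⟩ : A) ∈ X := Subgroup.mem_subgroupOf.2 (mem_autInducedBy.2 ⟨s, hs, hρ s⟩)
    rw [PA.is_maximal' hXp hle] at hsX
    obtain ⟨t, ht, htx⟩ := mem_autInducedBy.1 (Subgroup.mem_subgroupOf.1 (hPA.le hsX))
    refine ⟨t, ht, t⁻¹ * s, ⟨M.mul_mem (M.inv_mem (hTM ht)) hsM, (hρ1 _).1 ?_⟩,
      (S : Subgroup G).mul_mem ((S : Subgroup G).inv_mem (hTS ht)) hs, (mul_inv_cancel_left t s).symm⟩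
    have h1 : ρ s = ρ t := MulEquiv.ext fun x => Subtype.ext (htx x)
    rw [map_mul, map_inv, h1, inv_mul_cancel]
  have hHS : (S : Subgroup G) ⊓ H = T := by
    refine le_antisymm ?_ (le_inf hTS hTH)
    rw [inf_comm]
    exact normalClosure_inf_le S hTM hTS inf_le_left hQ₀T hcl
      (fun m hm d hd => (hM0 m).1 hm.1 d (hDQ hd)) hdec
  have hHC : ∀ x ∈ H, x ∈ Subgroup.centralizer (Q₀ : Set G) → x ∈ Q₀ := fun x hx hxc => by
    have h1 := hstab x (hHM hx).1 hxc
    exact ⟨h1, hHS.le ⟨hQS h1, hx⟩⟩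
  have hHA : ∀ a ∈ A, ∃ h ∈ H, ρ h = a := by
    set N := (H.map ρ).subgroupOf A
    haveI : N.Normal := by
      constructor
      rintro ⟨x, hxA⟩ ⟨m, hm, hmx⟩ ⟨a, ha⟩
      obtain ⟨g, hg⟩ := hAρ a ha
      refine ⟨g * m * g⁻¹, hHn.conj_mem _ hm g, ?_⟩
      rw [map_mul, map_mul, map_inv, hmx, hg]
      rfl
    have htop : N = ⊤ := by
      refine eq_top_of_sylow_of_coprime N PA (fun x hx => ?_) fun x hx => ?_
      · obtain ⟨t, ht, htx⟩ := mem_autInducedBy.1 (Subgroup.mem_subgroupOf.1 (hPA.le hx))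
        exact ⟨t, hTH ht, MulEquiv.ext fun y => Subtype.ext (htx y).symm⟩
      · obtain ⟨m, hm, hmx⟩ := hlift x x.2
        rw [← Subgroup.orderOf_coe, ← hmx] at hx
        obtain ⟨j, hj1, hj2⟩ := exists_pow_coprime_map ρ m hx
        exact ⟨m ^ j, Subgroup.subset_normalClosure (Or.inr ⟨M.pow_mem hm j, hj2⟩), hj1.trans hmx⟩
    intro a ha
    obtain ⟨m, hm, hma⟩ := (htop.ge (Subgroup.mem_top (⟨a, ha⟩ : A)) : (⟨a, ha⟩ : A) ∈ N)
    exact ⟨m, hm, hma⟩
  obtain ⟨R, hR⟩ : ∃ R : Sylow p H, (R : Subgroup H) = T.subgroupOf H := by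
    rw [← hHS]; exact CfsgLib.PReduced.exists_sylow_inf S H
  set X := Cfsg.fusionSystemOfSubgroup H T hTH
  have hXs : X.IsSaturated p := by
    have key : ∀ (T' : Subgroup G) (h : T' ≤ H), (S : Subgroup G) ⊓ H = T' →
        (Cfsg.fusionSystemOfSubgroup H T' h).IsSaturated p := by
      rintro _ _ rfl
      exact isSaturated_fusionSystemOfSubgroup_inf S H
    exact key T hTH hHS
  have hXconj : ∀ (P : Subgroup G) (φ : P →* G), φ ∈ X.Hom P → ∃ g : G, ∀ x : P, φ x = g * (x : G) * g⁻¹ :=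
    fun P φ hφ => let ⟨g, _, hg⟩ := hφ.2.2; ⟨g, hg⟩
  -- comparison of automizers
  have hcompare : ∀ (X Y : Cfsg.FusionSystem T), X.IsSaturated p →
      (∀ (P : Subgroup G) (φ : P →* G), φ ∈ X.Hom P → ∃ g : G, ∀ x : P, φ x = g * (x : G) * g⁻¹) →
      (∀ P : Subgroup G, P ≤ T → Y.autGroup P ≤ autInducedBy ⊤ P ∧
        ∀ b ∈ autInducedBy (⊤ : Subgroup G) P, ∀ k ∈ Y.autGroup P, b * k * b⁻¹ ∈ Y.autGroup P) →
      (∀ P : Subgroup G, Q₀ ≤ P → P ≤ T → ∀ α ∈ X.autGroup P, ∃ β ∈ Y.autGroup P,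
        ∀ x : P, (x : G) ∈ Q₀ → β x = α x) → X ≤ Y := by
    intro X Y hXs hXc hY hres
    refine le_of_centricRadical hTp hXs Y fun P hn hc hr => ?_
    have hQP : Q₀ ≤ P := le_of_centric_radical_group hTp hQ₀T hXc hc hr
    have hXtop : ∀ α ∈ X.autGroup P, α ∈ autInducedBy (⊤ : Subgroup G) P := fun α hα => by
      obtain ⟨g, hg⟩ := hXc _ _ ((mem_autGroup hn.1).1 hα)
      exact mem_autInducedBy.2 ⟨g, trivial, hg⟩
    obtain ⟨-, PX, hPX⟩ := fullyAutomized_of_fullyNormalized hTp hXs hn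
    haveI := finite_mulAut (S := T) hn.1
    haveI : ((Y.autGroup P).subgroupOf (X.autGroup P)).Normal :=
      ⟨fun k hk b => (hY P hn.1).2 _ (hXtop _ b.2) _ hk⟩
    have htop := eq_top_of_sylow_of_coprime ((Y.autGroup P).subgroupOf (X.autGroup P)) PX
      (fun x hx => autInducedBy_le_autGroup hn.1 (Subgroup.mem_subgroupOf.1 (hPX.le hx))) fun x hx => by
        obtain ⟨β, hβ, hag⟩ := hres P hQP hn.1 x x.2
        rw [← Subgroup.orderOf_coe] at hx
        exact Subgroup.mem_subgroupOf.2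
          (mem_of_restrict_coprime hTp hQP hn.1 hCT (hY P hn.1).1 (hY P hn.1).2 (hXtop _ x.2) hx hβ hag)
    exact fun α hα => (htop.ge (Subgroup.mem_top ⟨α, hα⟩) : _)
  have hEX : E ≤ X := by
    refine hcompare E X hEs hEconj (fun P hP => ⟨fun α hα => ?_, fun b hb k hk => ?_⟩) fun P hQP hP α hα => ?_
    · obtain ⟨g, hg⟩ := hXconj _ _ ((mem_autGroup hP).1 hα)
      exact mem_autInducedBy.2 ⟨g, trivial, hg⟩
    · obtain ⟨g, -, hg⟩ := mem_autInducedBy.1 hb
      obtain ⟨-, -, h, hh, hhk⟩ := (mem_autGroup hP).1 hk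
      refine (mem_autGroup hP).2 ⟨hP, fun x => hP ((b * k * b⁻¹) x).2, g * h * g⁻¹, hHn.conj_mem h hh g, fun x => ?_⟩
      obtain ⟨y, rfl⟩ := b.surjective x
      show ((b (k (b⁻¹ (b y))) : P) : G) = _
      rw [MulAut.inv_apply_self, hg, hg, show ((k y : P) : G) = h * (y : G) * h⁻¹ from hhk y]
      group
    · obtain ⟨g, hg⟩ := hEconj _ _ ((mem_autGroup hP).1 hα)
      have hg' : ∀ x : P, ((α x : P) : G) = g * (x : G) * g⁻¹ := hg
      obtain ⟨h, hh, hρh⟩ := hHA (ρ g) (mem_autGroup_of_eq (restrict ((mem_autGroup hP).1 hα) hQP) fun x =>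
        (hρ g x).trans (hg ⟨x, hQP x.2⟩).symm)
      have hhP : ∀ x ∈ P, h * x * h⁻¹ ∈ P := fun x hx => by
        have hy : g * x * g⁻¹ ∈ P := by rw [← hg' ⟨x, hx⟩]; exact SetLike.coe_mem _
        have h1 : h * x * h⁻¹ * (g * x * g⁻¹)⁻¹ ∈ Q₀ := hHC _ (H.mul_mem (hHn.conj_mem _ (hTH (hP hx)) h)
          (H.inv_mem (hTH (hP hy)))) ((hρ1 _).1 (by simp only [map_mul, map_inv, hρh, mul_inv_cancel]))
        have := P.mul_mem (hQP h1) hy
        rwa [inv_mul_cancel_right] at this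
      obtain ⟨β, hβ⟩ := exists_aut_of_conj hhP
      refine ⟨β, (mem_autGroup hP).2 ⟨hP, fun x => hP (β x).2, h, hh, hβ⟩, fun x hx => Subtype.ext ?_⟩
      rw [hβ, hg']
      exact congrArg (fun γ : MulAut Q₀ => ((γ ⟨x, hx⟩ : Q₀) : G)) hρh
  have hXE : X ≤ E := by
    refine hcompare X E hXs hXconj (fun P hP => ⟨fun α hα => ?_, fun b hb k hk => ?_⟩) fun P hQP hP α hα => ?_
    · obtain ⟨g, hg⟩ := hEconj _ _ ((mem_autGroup hP).1 hα)
      exact mem_autInducedBy.2 ⟨g, trivial, hg⟩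
    · refine conj_mem_autGroup_invariant hinv hP hk ?_
      rwa [autGroup_group (hP.trans hTS)]
    · obtain ⟨-, -, h, hh, hhx⟩ := (mem_autGroup hP).1 hα
      have hhx' : ∀ x : P, ((α x : P) : G) = h * (x : G) * h⁻¹ := hhx
      obtain ⟨ψ, hψ, hag⟩ := (receptive_of_fullyNormalized hTp hEs hfn).2 Q₀ _
        ((mem_autGroup hQ₀T).1 (hHM hh).2) (range_aut (ρ h))
      have hle : P ≤ extender T Q₀ (Q₀.subtype.comp (ρ h).toMonoidHom) := fun x hx =>
        mem_extender.2 ⟨hP hx, hnorm x, h * x * h⁻¹, hP (by rw [← hhx' ⟨x, hx⟩]; exact SetLike.coe_mem _),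
          fun y hy => by
            show h * (x * (y : G) * x⁻¹) * h⁻¹ = h * x * h⁻¹ * (h * (y : G) * h⁻¹) * (h * x * h⁻¹)⁻¹
            group⟩
      have hφ := restrict hψ hle
      obtain ⟨g, hg⟩ := hEconj _ _ hφ
      have hgρ : ρ g = ρ h := MulEquiv.ext fun x => Subtype.ext ((hg ⟨x, hQP x.2⟩).symm.trans (hag x x.2 _))
      have hgP : ∀ x ∈ P, g * x * g⁻¹ ∈ P := fun x hx => by
        have hy : h * x * h⁻¹ ∈ P := by rw [← hhx' ⟨x, hx⟩]; exact SetLike.coe_mem _
        have hgT : g * x * g⁻¹ ∈ T := by rw [← hg ⟨x, hx⟩]; exact val_mem hφ _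
        have h1 : g * x * g⁻¹ * (h * x * h⁻¹)⁻¹ ∈ Q₀ := hHC _ (hTH (T.mul_mem hgT (T.inv_mem (hP hy))))
          ((hρ1 _).1 (by simp only [map_mul, map_inv, hgρ, mul_inv_cancel]))
        have := P.mul_mem (hQP h1) hy
        rwa [inv_mul_cancel_right] at this
      obtain ⟨β, hβ⟩ := exists_aut_of_conj hgP
      refine ⟨β, mem_autGroup_of_eq hφ fun x => (hβ x).trans (hg x).symm, fun x hx => Subtype.ext ?_⟩
      rw [hβ, hhx']
      exact congrArg (fun γ : MulAut Q₀ => ((γ ⟨x, hx⟩ : Q₀) : G)) hgρ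
  refine ⟨H, ⟨hTH, hHn, ⟨R, hR⟩, fun P => Set.Subset.antisymm (hEX P) (hXE P)⟩, ?_⟩
  rintro H' ⟨hTH', hH'n, ⟨R', hR'⟩, hH'E⟩
  haveI := hH'n
  have hH'S : ∀ x ∈ (S : Subgroup G), x ∈ H' → x ∈ T := by
    intro x hxS hxH
    have hp : IsPGroup p ((S : Subgroup G).subgroupOf H') := S.isPGroup'.comap_subtype
    have hle : (R' : Subgroup H') ≤ (S : Subgroup G).subgroupOf H' := by
      rw [hR']; exact Subgroup.comap_mono hTS
    have hmem : (⟨x, hxH⟩ : H') ∈ (S : Subgroup G).subgroupOf H' := hxS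
    rw [R'.is_maximal' hp hle, hR'] at hmem
    exact hmem
  have hH'M : H' ≤ M := fun x hx => by
    refine ⟨(hM0 x).2 fun q hq => ?_, ?_⟩
    · have h1 : x * q * x⁻¹ * q⁻¹ ∈ Q := Q.mul_mem (hQn.conj_mem q hq x) (Q.inv_mem hq)
      have h2 : x * q * x⁻¹ * q⁻¹ ∈ H' := by
        rw [show x * q * x⁻¹ * q⁻¹ = x * (q * x⁻¹ * q⁻¹) by group]
        exact H'.mul_mem hx (hH'n.conj_mem _ (H'.inv_mem hx) q)
      exact ⟨h1, hH'S _ (hQS h1) h2⟩
    · refine (mem_autGroup hQ₀T).2 ?_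
      rw [hH'E]
      exact ⟨hQ₀T, fun y => hQ₀T (ρ x y).2, x, hx, fun y => rfl⟩
  refine le_antisymm ?_ fun x hx => ?_
  · have htop : H.subgroupOf H' = ⊤ := by
      refine eq_top_of_sylow_of_coprime _ R' (hR' ▸ Subgroup.comap_mono hTH) fun x hx => ?_
      exact Subgroup.subset_normalClosure (Or.inr ⟨hH'M x.2, (Subgroup.orderOf_coe x).symm ▸ hx⟩)
    exact Subgroup.subgroupOf_eq_top.1 htop
  · have h1 : ρ x ∈ A := (hHM hx).2
    have h2 := (mem_autGroup hQ₀T).1 h1
    rw [hH'E] at h2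
    obtain ⟨-, -, h, hh, hhy⟩ := h2
    have hH'H : H' ≤ H := by
      have htop : H.subgroupOf H' = ⊤ := by
        refine eq_top_of_sylow_of_coprime _ R' (hR' ▸ Subgroup.comap_mono hTH) fun x hx => ?_
        exact Subgroup.subset_normalClosure (Or.inr ⟨hH'M x.2, (Subgroup.orderOf_coe x).symm ▸ hx⟩)
      exact Subgroup.subgroupOf_eq_top.1 htop
    have h3 : h⁻¹ * x ∈ Q₀ := hHC _ (H.mul_mem (H.inv_mem (hH'H hh)) hx) ((hρ1 _).1 (by
      rw [map_mul, map_inv, show ρ x = ρ h from MulEquiv.ext fun y => Subtype.ext (hhy y), inv_mul_cancel]))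
    have := H'.mul_mem hh (hTH' (hQ₀T h3))
    rwa [mul_inv_cancel_left] at this

end CfsgLib.Fusion
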