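import Cfsg.Agent.Fusion.StrongInvariance
import Cfsg.Prelude.Def_TwoFusion
set_option autoImplicit false
set_option linter.style.haveILetI false

/-!
A system over a direct product of two strongly closed subgroups: the full subsystem over one factor and
the subsystem of maps fixing the other factor.
-/

namespace CfsgLib.Fusion

open Cfsg Cfsg.FusionSystem

variable {Ω : Type*} [Group Ω] {S S₁ S₂ : Subgroup Ω} {F : Cfsg.FusionSystem S}
variable {p : ℕ} [Fact p.Prime]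

section Group

variable (hprod : Cfsg.IsInternalDirectProduct S₁ S₂ S)
include hprod

omit [Fact p.Prime] in
theorem DirectFactor.le₁ : S₁ ≤ S := hprod.1

omit [Fact p.Prime] in
theorem DirectFactor.le₂ : S₂ ≤ S := hprod.2.1

omit [Fact p.Prime] in
theorem DirectFactor.exists_factor {g : Ω} (hg : g ∈ S) : ∃ a ∈ S₁, ∃ b ∈ S₂, g = a * b := by
  obtain ⟨-, -, hc, -, hsup⟩ := hprod
  rw [← hsup, Subgroup.sup_eq_closure] at hg
  induction hg using Subgroup.closure_induction with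
  | mem x hx =>
    rcases hx with hx | hx
    · exact ⟨x, hx, 1, one_mem _, by simp⟩
    · exact ⟨1, one_mem _, x, hx, by simp⟩
  | one => exact ⟨1, one_mem _, 1, one_mem _, by simp⟩
  | mul x y _ _ hx hy =>
    obtain ⟨a, ha, b, hb, rfl⟩ := hx
    obtain ⟨c, hc', d, hd, rfl⟩ := hy
    exact ⟨a * c, mul_mem ha hc', b * d, mul_mem hb hd, by
      rw [mul_assoc a b, ← mul_assoc b c d, ← hc c hc' b hb]; group⟩
  | inv x _ hx =>
    obtain ⟨a, ha, b, hb, rfl⟩ := hx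
    exact ⟨a⁻¹, Subgroup.inv_mem _ ha, b⁻¹, Subgroup.inv_mem _ hb, by
      rw [hc a ha b hb, mul_inv_rev]⟩

omit [Fact p.Prime] in
theorem DirectFactor.factor_unique {a a' b b' : Ω} (ha : a ∈ S₁) (ha' : a' ∈ S₁) (hb : b ∈ S₂) (hb' : b' ∈ S₂)
    (h : a * b = a' * b') : a = a' ∧ b = b' := by
  have h1 : a'⁻¹ * a = b' * b⁻¹ := by
    rw [eq_mul_inv_iff_mul_eq, mul_assoc, h, inv_mul_cancel_left]
  have h2 : a'⁻¹ * a ∈ S₁ ⊓ S₂ := ⟨mul_mem (Subgroup.inv_mem _ ha') ha, h1 ▸ mul_mem hb' (Subgroup.inv_mem _ hb)⟩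
  rw [hprod.2.2.2.1, Subgroup.mem_bot] at h2
  refine ⟨(inv_mul_eq_one.1 h2).symm, ?_⟩
  rw [h2] at h1
  exact (mul_inv_eq_one.1 h1.symm).symm

omit [Fact p.Prime] in
theorem DirectFactor.comm {a b : Ω} (ha : a ∈ S₁) (hb : b ∈ S₂) : a * b = b * a := hprod.2.2.1 a ha b hb

omit [Fact p.Prime] in
theorem DirectFactor.conj_eq {a b x : Ω} (hb : b ∈ S₂) (hx : x ∈ S₁) :
    a * b * x * (a * b)⁻¹ = a * x * a⁻¹ := by
  calc a * b * x * (a * b)⁻¹ = a * (b * x) * b⁻¹ * a⁻¹ := by group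
    _ = a * (x * b) * b⁻¹ * a⁻¹ := by rw [DirectFactor.comm hprod hx hb]
    _ = a * x * a⁻¹ := by group

omit [Fact p.Prime] in
theorem DirectFactor.autInducedBy_eq {Q : Subgroup Ω} (hQ : Q ≤ S₁) :
    autInducedBy S₁ Q = autInducedBy S Q := by
  refine le_antisymm (fun α hα => ?_) fun α hα => ?_
  · obtain ⟨g, hg, h⟩ := mem_autInducedBy.1 hα
    exact mem_autInducedBy.2 ⟨g, hprod.1 hg, h⟩
  · obtain ⟨g, hg, h⟩ := mem_autInducedBy.1 hα
    obtain ⟨a, ha, b, hb, rfl⟩ := DirectFactor.exists_factor hprod hg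
    exact mem_autInducedBy.2 ⟨a, ha, fun x => by rw [h, DirectFactor.conj_eq hprod hb (hQ x.2)]⟩

omit [Fact p.Prime] in
theorem DirectFactor.S₂_le_centralizerIn {Q : Subgroup Ω} (hQ : Q ≤ S₁) : S₂ ≤ centralizerIn S Q :=
  fun _ hb => ⟨hprod.2.1 hb, fun _ hx => DirectFactor.comm hprod (hQ hx) hb⟩

omit [Fact p.Prime] in
theorem DirectFactor.card_centralizerIn {Q : Subgroup Ω} (hQ : Q ≤ S₁) :
    Nat.card (centralizerIn S Q) = Nat.card (centralizerIn S₁ Q) * Nat.card S₂ ∧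
      Nat.card (centralizerIn S (Q ⊔ S₂)) = Nat.card (centralizerIn S₁ Q) * Nat.card (centralizerIn S₂ S₂) := by
  have hfac : ∀ {g : Ω}, g ∈ centralizerIn S Q → ∃ a ∈ centralizerIn S₁ Q, ∃ b ∈ S₂, g = a * b := by
    intro g hg
    obtain ⟨a, ha, b, hb, rfl⟩ := DirectFactor.exists_factor hprod hg.1
    refine ⟨a, ⟨ha, fun x hx => ?_⟩, b, hb, rfl⟩
    have h1 := hg.2 x hx
    calc x * a = x * (a * b) * b⁻¹ := by group
      _ = a * (b * x) * b⁻¹ := by rw [h1]; group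
      _ = a * (x * b) * b⁻¹ := by rw [DirectFactor.comm hprod (hQ hx) hb]
      _ = a * x := by group
  constructor
  · rw [← Nat.card_prod]
    refine (Nat.card_congr (Equiv.ofBijective (fun z : centralizerIn S₁ Q × S₂ =>
      (⟨(z.1 : Ω) * z.2, mul_mem ⟨hprod.1 z.1.2.1, z.1.2.2⟩ (DirectFactor.S₂_le_centralizerIn hprod hQ z.2.2)⟩ :
        centralizerIn S Q)) ⟨fun z z' h => ?_, fun g => ?_⟩)).symm
    · obtain ⟨e1, e2⟩ := DirectFactor.factor_unique hprod z.1.2.1 z'.1.2.1 z.2.2 z'.2.2 (congrArg Subtype.val h)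
      exact Prod.ext (Subtype.ext e1) (Subtype.ext e2)
    · obtain ⟨a, ha, b, hb, e⟩ := hfac g.2
      exact ⟨(⟨a, ha⟩, ⟨b, hb⟩), Subtype.ext e.symm⟩
  · rw [← Nat.card_prod]
    refine (Nat.card_congr (Equiv.ofBijective (fun z : centralizerIn S₁ Q × centralizerIn S₂ S₂ =>
      (⟨(z.1 : Ω) * z.2, ?_⟩ : centralizerIn S (Q ⊔ S₂))) ⟨fun z z' h => ?_, fun g => ?_⟩)).symm
    · refine ⟨mul_mem (hprod.1 z.1.2.1) (hprod.2.1 z.2.2.1), ?_⟩
      have hgen : Q ⊔ S₂ ≤ Subgroup.centralizer ({(z.1 : Ω) * z.2} : Set Ω) := by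
        refine sup_le (fun x hx => ?_) (fun x hx => ?_) <;> rw [Subgroup.mem_centralizer_singleton_iff]
        · rw [← mul_assoc, z.1.2.2 x hx, mul_assoc, DirectFactor.comm hprod (hQ hx) z.2.2.1, ← mul_assoc]
        · rw [← mul_assoc, ← DirectFactor.comm hprod z.1.2.1 hx, mul_assoc, z.2.2.2 x hx, ← mul_assoc]
      exact fun x hx => Subgroup.mem_centralizer_singleton_iff.1 (hgen hx)
    · obtain ⟨e1, e2⟩ := DirectFactor.factor_unique hprod z.1.2.1 z'.1.2.1 z.2.2.1 z'.2.2.1 (congrArg Subtype.val h)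
      exact Prod.ext (Subtype.ext e1) (Subtype.ext e2)
    · obtain ⟨a, ha, b, hb, e⟩ := hfac (g := g) ⟨g.2.1, fun x hx => g.2.2 x (Subgroup.mem_sup_left hx)⟩
      refine ⟨(⟨a, ha⟩, ⟨b, hb, fun x hx => ?_⟩), Subtype.ext e.symm⟩
      have h1 := g.2.2 x (Subgroup.mem_sup_right hx)
      rw [e] at h1
      calc x * b = a⁻¹ * (a * x) * b := by group
        _ = a⁻¹ * (x * a) * b := by rw [DirectFactor.comm hprod ha.1 hx]
        _ = a⁻¹ * (x * (a * b)) := by group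
        _ = b * x := by rw [h1]; group

end Group

variable [Finite S] (hS : IsPGroup p S) (hF : F.IsSaturated p)
  (hprod : Cfsg.IsInternalDirectProduct S₁ S₂ S) (h₁ : F.StronglyClosed S₁) (h₂ : F.StronglyClosed S₂)

omit [Fact p.Prime] in
include h₂ in
/-- A map sending elements of `S₂` into `S₂` carries it onto itself. -/
theorem DirectFactor.onto₂ {D : Subgroup Ω} (hD : S₂ ≤ D) {ψ : D →* Ω} (hψ : ψ ∈ F.Hom D) :
    ∀ y ∈ S₂, ∃ x : S₂, ψ (Subgroup.inclusion hD x) = y := by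
  haveI := finite_of_le h₂.1
  have hmem : ∀ x : S₂, ψ (Subgroup.inclusion hD x) ∈ S₂ :=
    h₂.2 S₂ le_rfl _ (restrict hψ hD)
  intro y hy
  obtain ⟨x, hx⟩ := Finite.surjective_of_injective (f := fun x : S₂ => (⟨_, hmem x⟩ : S₂))
    (fun a b h => Subgroup.inclusion_injective hD (F.injective_of_mem hψ (congrArg Subtype.val h))) ⟨y, hy⟩
  exact ⟨x, congrArg Subtype.val hx⟩

include hS hF hprod h₁ h₂ in
/-- Every map between subgroups of `S₁` extends over `S₂`, leaving it invariant. -/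
theorem DirectFactor.exists_ext {Q : Subgroup Ω} (hQ : Q ≤ S₁) {φ : Q →* Ω} (hφ : φ ∈ F.Hom Q) :
    ∃ ψ ∈ F.Hom (Q ⊔ S₂), (∀ x : Q, ψ (Subgroup.inclusion le_sup_left x) = φ x) ∧
      (∀ x : ↥(Q ⊔ S₂), ψ x ∈ φ.range ⊔ S₂) := by
  obtain ⟨R, hQR, hRn⟩ := exists_fullyNormalized (F := F) (hQ.trans hprod.1)
  have hRr := receptive_of_fullyNormalized hS hF hRn
  have key : ∀ {A : Subgroup Ω}, A ≤ S₁ → ∀ {ρ : A →* Ω}, ρ ∈ F.Hom A → ρ.range = R →
      ∃ ψ ∈ F.Hom (A ⊔ S₂), (∀ x : A, ψ (Subgroup.inclusion le_sup_left x) = ρ x) ∧ ψ.range = R ⊔ S₂ := by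
    intro A hA ρ hρ hρR
    obtain ⟨ψ, hψ, hag⟩ := hRr.2 A ρ hρ hρR
    have hle : A ⊔ S₂ ≤ extender S A ρ :=
      sup_le (le_extender hρ) ((DirectFactor.S₂_le_centralizerIn hprod hA).trans centralizerIn_le_extender)
    refine ⟨_, restrict hψ hle, fun x => hag x x.2 _, ?_⟩
    rw [MonoidHom.range_eq_map]
    set θ := ψ.comp (Subgroup.inclusion hle)
    have hθ : θ ∈ F.Hom (A ⊔ S₂) := restrict hψ hle
    refine le_antisymm ?_ (sup_le ?_ fun y hy => ?_)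
    · rw [Subgroup.map_le_iff_le_comap]
      have : (A ⊔ S₂ : Subgroup Ω) ≤ ((R ⊔ S₂).comap θ).map (A ⊔ S₂).subtype := by
        refine sup_le (fun x hx => ?_) fun x hx => ?_
        · refine ⟨⟨x, Subgroup.mem_sup_left hx⟩, Subgroup.mem_sup_left ?_, rfl⟩
          show ψ ⟨x, _⟩ ∈ R
          rw [hag x hx]
          exact mem_of_range_eq hρR _
        · refine ⟨⟨x, Subgroup.mem_sup_right hx⟩, Subgroup.mem_sup_right ?_, rfl⟩
          exact h₂.2 S₂ le_rfl _ (restrict hθ le_sup_right) ⟨x, hx⟩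
      intro x _
      obtain ⟨y, hy, e⟩ := this x.2
      rwa [← Subtype.ext e]
    · rw [← hρR]
      rintro _ ⟨x, rfl⟩
      exact ⟨⟨x, Subgroup.mem_sup_left x.2⟩, trivial, hag x x.2 _⟩
    · obtain ⟨x, hx⟩ := DirectFactor.onto₂ h₂ le_sup_right hθ y hy
      exact ⟨_, trivial, hx⟩
  obtain ⟨ρ, hρ, hρR⟩ := hQR
  obtain ⟨τ, hτ, hτr, hτ1, -⟩ := exists_inv hφ (rfl : φ.range = φ.range)
  have hφS : φ.range ≤ S₁ := by rintro _ ⟨x, rfl⟩; exact h₁.2 Q hQ φ hφ x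
  set σ : φ.range →* Ω := ρ.comp (τ.codRestrict Q (mem_of_range_eq hτr))
  have hσ : σ ∈ F.Hom φ.range := F.comp_mem hτ hρ _
  have hσR : σ.range = R := by
    rw [← hρR]
    ext y
    constructor
    · rintro ⟨x, rfl⟩; exact ⟨_, rfl⟩
    · rintro ⟨x, rfl⟩
      exact ⟨⟨φ x, x, rfl⟩, congrArg ρ (Subtype.ext (hτ1 x ⟨x, rfl⟩))⟩
  obtain ⟨ψ₁, hψ₁, hag₁, hr₁⟩ := key hQ hρ hρR
  obtain ⟨ψ₂, hψ₂, hag₂, hr₂⟩ := key hφS hσ hσR
  obtain ⟨ζ, hζ, hζr, hζ1, -⟩ := exists_inv hψ₂ hr₂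
  refine ⟨_, F.comp_mem hψ₁ hζ (mem_of_range_eq hr₁), fun x => ?_, fun x => ?_⟩
  · have e : ψ₂ (Subgroup.inclusion le_sup_left ⟨φ x, x, rfl⟩) = ρ x := by
      rw [hag₂]
      exact congrArg ρ (Subtype.ext (hτ1 x ⟨x, rfl⟩))
    refine Eq.trans ?_ (hζ1 (Subgroup.inclusion le_sup_left ⟨φ x, x, rfl⟩) (mem_of_range_eq hr₂ _))
    refine congrArg ζ (Subtype.ext ?_)
    show ψ₁ _ = ψ₂ _
    rw [hag₁, e]
  · exact mem_of_range_eq hζr _

variable {R R' : Cfsg.FusionSystem S₁} (hR : ∀ P : Subgroup Ω, P ≤ S₁ → R.Hom P = F.Hom P)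
  (hR' : ∀ P : Subgroup Ω, P ≤ S₁ → R'.Hom P = F.centralizerHom S₂ P)

omit [Fact p.Prime] [Finite S] in
include hR in
theorem DirectFactor.sub_full : R.IsSubsystemOf F := fun P φ h => (hR P (R.le_of_mem h).1) ▸ h

omit [Fact p.Prime] [Finite S] in
include hR' in
theorem DirectFactor.sub_fix : R'.IsSubsystemOf F := fun P φ h => ((hR' P (R'.le_of_mem h).1) ▸ h :).1

include hS hF hprod h₁ h₂ hR' in
theorem DirectFactor.stronglyInvariant_fix : StronglyInvariant R' F := by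
  intro P Q hPQ hQ φ hφ hφQ ψ hψ
  rw [hR' P (hPQ.trans hQ)] at hφ
  obtain ⟨hφF, -, -, φh, hφh, hφh1, hφh2⟩ := hφ
  obtain ⟨ψh, hψh, hψh1, -⟩ := DirectFactor.exists_ext hS hF hprod h₁ h₂ hQ hψ
  set A := (P.subgroupOf Q).map ψ with hA
  have hAS : A ≤ S₁ := by rintro _ ⟨x, -, rfl⟩; exact h₁.2 Q hQ ψ hψ x
  set θ := ψh.comp (Subgroup.inclusion (sup_le_sup_right hPQ S₂))
  have hθ : θ ∈ F.Hom (P ⊔ S₂) := restrict hψh _
  have hθr : θ.range = A ⊔ S₂ := by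
    rw [MonoidHom.range_eq_map]
    refine le_antisymm ?_ (sup_le ?_ fun y hy => ?_)
    · rw [Subgroup.map_le_iff_le_comap]
      have : (P ⊔ S₂ : Subgroup Ω) ≤ ((A ⊔ S₂).comap θ).map (P ⊔ S₂).subtype := by
        refine sup_le (fun x hx => ?_) fun x hx => ?_
        · refine ⟨⟨x, Subgroup.mem_sup_left hx⟩, Subgroup.mem_sup_left ?_, rfl⟩
          exact ⟨⟨x, hPQ hx⟩, hx, (hψh1 ⟨x, hPQ hx⟩).symm⟩
        · refine ⟨⟨x, Subgroup.mem_sup_right hx⟩, Subgroup.mem_sup_right ?_, rfl⟩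
          exact h₂.2 S₂ le_rfl _ (restrict hθ le_sup_right) ⟨x, hx⟩
      intro x _
      obtain ⟨y, hy, e⟩ := this x.2
      rwa [← Subtype.ext e]
    · rintro _ ⟨x, hx, rfl⟩
      exact ⟨⟨(x : Ω), Subgroup.mem_sup_left hx⟩, trivial, hψh1 x⟩
    · obtain ⟨x, hx⟩ := DirectFactor.onto₂ h₂ le_sup_right hθ y hy
      exact ⟨_, trivial, hx⟩
  obtain ⟨τ, hτ, hτr, hτ1, -⟩ := exists_inv hθ hθr
  have hφhQ : ∀ x, φh x ∈ Q ⊔ S₂ := by
    intro x
    have : (P ⊔ S₂ : Subgroup Ω) ≤ ((Q ⊔ S₂).comap φh).map (P ⊔ S₂).subtype := by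
      refine sup_le (fun z hz => ?_) fun z hz => ?_
      · refine ⟨⟨z, Subgroup.mem_sup_left hz⟩, Subgroup.mem_sup_left ?_, rfl⟩
        have := hφh1 ⟨z, hz⟩
        rw [show (⟨z, Subgroup.mem_sup_left hz⟩ : ↥(P ⊔ S₂)) = Subgroup.inclusion le_sup_left ⟨z, hz⟩ from rfl, this]
        exact hφQ _
      · refine ⟨⟨z, Subgroup.mem_sup_right hz⟩, Subgroup.mem_sup_right ?_, rfl⟩
        rw [show (⟨z, Subgroup.mem_sup_right hz⟩ : ↥(P ⊔ S₂)) = Subgroup.inclusion le_sup_right ⟨z, hz⟩ from rfl,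
          hφh2 ⟨z, hz⟩]
        exact hz
    obtain ⟨y, hy, e⟩ := this x.2
    rwa [← Subtype.ext e]
  set μ := φh.codRestrict (Q ⊔ S₂) hφhQ with hμ
  set C : ↥(A ⊔ S₂) →* Ω := (ψh.comp μ).comp (τ.codRestrict (P ⊔ S₂) (mem_of_range_eq hτr))
  have hC : C ∈ F.Hom (A ⊔ S₂) := F.comp_mem hτ (F.comp_mem hφh hψh hφhQ) _
  refine ⟨C.comp (Subgroup.inclusion le_sup_left), ?_, fun x hx => ?_⟩
  · rw [hR' A hAS]
    have hval : ∀ x : A, (C.comp (Subgroup.inclusion le_sup_left)) x ∈ S₁ :=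
      h₁.2 A hAS _ (restrict hC le_sup_left)
    refine ⟨restrict hC le_sup_left, fun a ha => ⟨hprod.1 (hAS ha), fun b hb => ?_⟩,
      fun x => ⟨hprod.1 (hval x), fun b hb => ?_⟩, C, hC, fun x => rfl, fun b => ?_⟩
    · exact (DirectFactor.comm hprod (hAS ha) hb).symm
    · exact (DirectFactor.comm hprod (hval x) hb).symm
    · obtain ⟨z, hz⟩ := DirectFactor.onto₂ h₂ le_sup_right hθ b b.2
      have hm : θ (Subgroup.inclusion le_sup_right z) ∈ A ⊔ S₂ := mem_of_range_eq hθr _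
      have e : τ (Subgroup.inclusion le_sup_right b) = (z : Ω) :=
        (congrArg τ (show Subgroup.inclusion le_sup_right b = (⟨_, hm⟩ : ↥(A ⊔ S₂)) from Subtype.ext hz.symm)).trans
          (hτ1 _ hm)
      show ψh ⟨φh ⟨τ (Subgroup.inclusion le_sup_right b), _⟩, _⟩ = (b : Ω)
      refine Eq.trans (congrArg ψh (Subtype.ext ?_)) hz
      show φh ⟨τ (Subgroup.inclusion le_sup_right b), _⟩ = _
      exact (congrArg φh (Subtype.ext e)).trans (hφh2 z)
  · show ψh ⟨φh ⟨τ ⟨ψ (Subgroup.inclusion hPQ x), _⟩, _⟩, _⟩ = _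
    have e : τ ⟨ψ (Subgroup.inclusion hPQ x), Subgroup.mem_sup_left hx⟩ = (x : Ω) :=
      Eq.trans (congrArg τ (Subtype.ext (hψh1 (Subgroup.inclusion hPQ x)).symm))
        (hτ1 (Subgroup.inclusion le_sup_left x) (hθr ▸ ⟨_, rfl⟩))
    refine Eq.trans (congrArg ψh (Subtype.ext ?_)) (hψh1 ⟨φ x, hφQ x⟩)
    show φh ⟨τ ⟨ψ (Subgroup.inclusion hPQ x), _⟩, _⟩ = _
    exact (congrArg φh (Subtype.ext e)).trans (hφh1 x)

include hS hF hprod h₁ h₂ hR' in
theorem DirectFactor.isInvariantIn_fix : R'.IsInvariantIn F :=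
  isInvariantIn_of_stronglyInvariant hS hF (DirectFactor.sub_fix hR') h₁
    (DirectFactor.stronglyInvariant_fix hS hF hprod h₁ h₂ hR')

include hS hF hprod h₁ hR in
theorem DirectFactor.isSaturated_full : R.IsSaturated p := by
  intro P hP
  obtain ⟨Q, ⟨ρ, hρ, hρQ⟩, hQn⟩ := exists_fullyNormalized (F := F) (hP.trans hprod.1)
  have hQ : Q ≤ S₁ := by rw [← hρQ]; rintro _ ⟨x, rfl⟩; exact h₁.2 P hP ρ hρ x
  refine ⟨Q, ⟨ρ, by rw [hR P hP]; exact hρ, hρQ⟩, ⟨hQ, ?_⟩, hQ, fun P' φ hφ hφQ => ?_⟩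
  · obtain ⟨-, T, hT⟩ := fullyAutomized_of_fullyNormalized hS hF hQn
    have e : R.autGroup Q = F.autGroup Q := by
      unfold FusionSystem.autGroup
      rw [hR Q hQ]
    rw [e, DirectFactor.autInducedBy_eq hprod hQ]
    exact ⟨T, hT⟩
  · have hP' : P' ≤ S₁ := (R.le_of_mem hφ).1
    rw [hR P' hP'] at hφ
    obtain ⟨ψ, hψ, hag⟩ := (receptive_of_fullyNormalized hS hF hQn).2 P' φ hφ hφQ
    have hle : extender S₁ P' φ ≤ extender S P' φ := by
      intro g hg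
      obtain ⟨hg1, hg2, h, hh, hgh⟩ := mem_extender.1 hg
      exact mem_extender.2 ⟨hprod.1 hg1, hg2, h, hprod.1 hh, hgh⟩
    refine ⟨ψ.comp (Subgroup.inclusion hle), ?_, fun x hP hN => hag x hP _⟩
    rw [hR _ fun g hg => (mem_extender.1 hg).1]
    exact restrict hψ hle

include hS hF hprod h₁ h₂ hR' in
theorem DirectFactor.isSaturated_fix : R'.IsSaturated p := by
  intro P hP
  have hinv := DirectFactor.isInvariantIn_fix hS hF hprod h₁ h₂ hR'
  obtain ⟨-, -, -, hfrat⟩ := hinv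
  obtain ⟨Q, ⟨ρ, hρ, hρQ⟩, hQn⟩ := exists_fullyNormalized (F := F) (hP.trans hprod.1)
  obtain ⟨α, hα, φ₀, hφ₀, hag⟩ := hfrat P hP ρ hρ
  set Q' := φ₀.range with hQ'def
  have hQ' : Q' ≤ S₁ := range_le hφ₀
  obtain ⟨β, hβ, hβ1, -⟩ := DirectFactor.exists_ext hS hF hprod h₁ h₂ le_rfl
    ((mem_autGroup h₁.1).1 hα)
  have hSsup : S ≤ S₁ ⊔ S₂ := hprod.2.2.2.2.ge
  set b : ↥S →* Ω := β.comp (Subgroup.inclusion hSsup)
  have hb : b ∈ F.Hom S := restrict hβ hSsup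
  have hbQ : ∀ y : Q', ∀ hy : (y : Ω) ∈ S, b ⟨y, hy⟩ ∈ Q := by
    rintro ⟨_, x, rfl⟩ hy
    show β ⟨φ₀ x, _⟩ ∈ Q
    rw [show (⟨φ₀ x, hSsup hy⟩ : ↥(S₁ ⊔ S₂)) = Subgroup.inclusion le_sup_left ⟨φ₀ x, hQ' ⟨x, rfl⟩⟩ from rfl,
      hβ1, ← hρQ]
    exact ⟨x, hag x _⟩
  have hbQ2 : ∀ z ∈ Q, ∃ y : Q', b ⟨y, hprod.1 (hQ' y.2)⟩ = z := by
    rw [← hρQ]
    rintro _ ⟨x, rfl⟩
    refine ⟨⟨φ₀ x, x, rfl⟩, ?_⟩
    show β ⟨φ₀ x, _⟩ = _
    rw [show (⟨φ₀ x, _⟩ : ↥(S₁ ⊔ S₂)) = Subgroup.inclusion le_sup_left ⟨φ₀ x, hQ' ⟨x, rfl⟩⟩ from rfl, hβ1,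
      hag x (hQ' ⟨x, rfl⟩)]
    rfl
  have hQ'n : F.IsFullyNormalized Q' := by
    have hQS : Q' ≤ S := hQ'.trans hprod.1
    refine ⟨hQS, fun R₀ hR₀ => ?_⟩
    have hc : F.IsConj Q R₀ := IsConj.trans (IsConj.symm ⟨ρ, hρ, hρQ⟩)
      (IsConj.trans ⟨φ₀, DirectFactor.sub_fix hR' P hφ₀, rfl⟩ hR₀)
    refine (hQn.2 R₀ hc).trans ?_
    obtain ⟨c, hc', hcr, -, hc2⟩ := exists_inv hb (Q := S)
      (Subgroup.eq_of_le_of_card_ge (range_le hb) (IsConj.card_eq ⟨b, hb, rfl⟩).le)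
    haveI := finite_normalizerIn (S := S) Q'
    refine Nat.card_le_card_of_injective (fun g : normalizerIn S Q =>
      (⟨c ⟨g, g.2.1⟩, val_mem hc' _, ?_⟩ : normalizerIn S Q')) fun g g' h => ?_
    · refine Subgroup.mem_normalizer_iff.2 fun y => ?_
      have key : ∀ y ∈ S, (y ∈ Q' ↔ ∀ hy : y ∈ S, b ⟨y, hy⟩ ∈ Q) := by
        intro y hy
        refine ⟨fun h hy' => hbQ ⟨y, h⟩ hy', fun h => ?_⟩
        obtain ⟨z, hz⟩ := hbQ2 _ (h hy)
        have e : (z : Ω) = y := congrArg Subtype.val (F.injective_of_mem hb hz)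
        exact e ▸ z.2
      set h0 : S := ⟨c ⟨g, g.2.1⟩, val_mem hc' _⟩
      have hbc : b h0 = (g : Ω) := hc2 ⟨g, g.2.1⟩ _
      by_cases hy : y ∈ S
      · have e : ∀ h' : c ⟨g, g.2.1⟩ * y * (c ⟨g, g.2.1⟩)⁻¹ ∈ S,
            b ⟨_, h'⟩ = (g : Ω) * b ⟨y, hy⟩ * (g : Ω)⁻¹ := by
          intro h'
          calc b ⟨_, h'⟩ = b (h0 * ⟨y, hy⟩ * h0⁻¹) := rfl
            _ = _ := by rw [map_mul, map_mul, map_inv, hbc]
        have hy' : c ⟨g, g.2.1⟩ * y * (c ⟨g, g.2.1⟩)⁻¹ ∈ S := (h0 * ⟨y, hy⟩ * h0⁻¹).2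
        rw [key y hy, key _ hy']
        constructor
        · intro h' hh
          rw [e]
          exact (Subgroup.mem_normalizer_iff.1 g.2.2 _).1 (h' hy)
        · intro h' hh
          have := h' hy'
          rw [e] at this
          exact (Subgroup.mem_normalizer_iff.1 g.2.2 _).2 this
      · refine ⟨fun h' => absurd (hQS h') hy, fun h' => absurd ?_ hy⟩
        have h3 := S.mul_mem (S.mul_mem (S.inv_mem h0.2) (hQS h')) h0.2
        simpa [h0, mul_assoc] using h3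
    · have e := F.injective_of_mem hc' (congrArg Subtype.val h)
      exact Subtype.ext (congrArg (fun z : S => (z : Ω)) e)
  refine ⟨Q', ⟨φ₀, hφ₀, rfl⟩, ⟨hQ', ?_⟩, hQ', fun P' φ hφ hφQ => ?_⟩
  · obtain ⟨-, T, hT⟩ := fullyAutomized_of_fullyNormalized hS hF hQ'n
    have hle : R'.autGroup Q' ≤ F.autGroup Q' := fun γ hγ =>
      (mem_autGroup (hQ'.trans hprod.1)).2 (DirectFactor.sub_fix hR' Q' ((mem_autGroup hQ').1 hγ))
    have hTle : autInducedBy S Q' ≤ R'.autGroup Q' := by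
      rw [← DirectFactor.autInducedBy_eq hprod hQ']
      exact autInducedBy_le_autGroup hQ'
    rw [DirectFactor.autInducedBy_eq hprod hQ']
    haveI := finite_mulAut (S := S) (hQ'.trans hprod.1)
    have hcard : Nat.card ((autInducedBy S Q').subgroupOf (R'.autGroup Q')) =
        p ^ (Nat.card (R'.autGroup Q')).factorization p := by
      have h1 : Nat.card ((autInducedBy S Q').subgroupOf (R'.autGroup Q')) =
          p ^ (Nat.card (F.autGroup Q')).factorization p := by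
        rw [Nat.card_congr (Subgroup.subgroupOfEquivOfLe hTle).toEquiv, ← T.card_eq_multiplicity, hT,
          Nat.card_congr (Subgroup.subgroupOfEquivOfLe (hTle.trans hle)).toEquiv]
      rw [h1]
      refine congrArg _ (le_antisymm ?_ ?_)
      · exact ((Fact.out : p.Prime).pow_dvd_iff_le_factorization Nat.card_pos.ne').1
          (h1 ▸ Subgroup.card_subgroup_dvd_card _)
      · exact (Nat.factorization_le_iff_dvd Nat.card_pos.ne' Nat.card_pos.ne').2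
          (Subgroup.card_dvd_of_le hle) p
    exact ⟨Sylow.ofCard _ hcard, Sylow.coe_ofCard _ _⟩
  · have hP' : P' ≤ S₁ := (R'.le_of_mem hφ).1
    rw [hR' P' hP'] at hφ
    obtain ⟨hφF, -, -, φh, hφh, hφh1, hφh2⟩ := hφ
    have hr : φh.range = Q' ⊔ S₂ := by
      rw [MonoidHom.range_eq_map]
      refine le_antisymm ?_ (sup_le ?_ fun y hy => ?_)
      · rw [Subgroup.map_le_iff_le_comap]
        have : (P' ⊔ S₂ : Subgroup Ω) ≤ ((Q' ⊔ S₂).comap φh).map (P' ⊔ S₂).subtype := by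
          refine sup_le (fun z hz => ?_) fun z hz => ?_
          · exact ⟨⟨z, Subgroup.mem_sup_left hz⟩,
              Subgroup.mem_sup_left ((hφh1 ⟨z, hz⟩).symm ▸ mem_of_range_eq hφQ ⟨z, hz⟩ :), rfl⟩
          · refine ⟨⟨z, Subgroup.mem_sup_right hz⟩, Subgroup.mem_sup_right ?_, rfl⟩
            exact h₂.2 S₂ le_rfl _ (restrict hφh le_sup_right) ⟨z, hz⟩
        intro x _
        obtain ⟨y, hy, e⟩ := this x.2
        rwa [← Subtype.ext e]
      · rw [← hφQ]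
        rintro _ ⟨x, rfl⟩
        exact ⟨_, trivial, hφh1 x⟩
      · exact ⟨_, trivial, hφh2 ⟨y, hy⟩⟩
    have hfc : F.IsFullyCentralized (Q' ⊔ S₂) := by
      refine ⟨sup_le (hQ'.trans hprod.1) hprod.2.1, fun X hX => ?_⟩
      obtain ⟨ξ, hξ, hξr⟩ := hX
      set X₁ := (Q'.subgroupOf (Q' ⊔ S₂)).map ξ
      have hξ1 : ξ.comp (Subgroup.inclusion le_sup_left) ∈ F.Hom Q' := restrict hξ le_sup_left
      have hX₁r : (ξ.comp (Subgroup.inclusion (le_sup_left : Q' ≤ Q' ⊔ S₂))).range = X₁ := by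
        ext y
        constructor
        · rintro ⟨x, rfl⟩; exact ⟨_, x.2, rfl⟩
        · rintro ⟨x, hx, rfl⟩; exact ⟨⟨x, hx⟩, rfl⟩
      have hX₁ : X₁ ≤ S₁ := by
        rw [← hX₁r]; rintro _ ⟨x, rfl⟩; exact h₁.2 Q' hQ' _ hξ1 x
      have hX : X = X₁ ⊔ S₂ := by
        rw [← hξr, MonoidHom.range_eq_map]
        refine le_antisymm ?_ (sup_le ?_ fun y hy => ?_)
        · rw [Subgroup.map_le_iff_le_comap]
          have : (Q' ⊔ S₂ : Subgroup Ω) ≤ ((X₁ ⊔ S₂).comap ξ).map (Q' ⊔ S₂).subtype := by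
            refine sup_le (fun z hz => ?_) fun z hz => ?_
            · exact ⟨⟨z, Subgroup.mem_sup_left hz⟩,
                Subgroup.mem_sup_left ⟨⟨z, Subgroup.mem_sup_left hz⟩, hz, rfl⟩, rfl⟩
            · refine ⟨⟨z, Subgroup.mem_sup_right hz⟩, Subgroup.mem_sup_right ?_, rfl⟩
              exact h₂.2 S₂ le_rfl _ (restrict hξ le_sup_right) ⟨z, hz⟩
          intro x _
          obtain ⟨y, hy, e⟩ := this x.2
          rwa [← Subtype.ext e]
        · rintro _ ⟨x, _, rfl⟩; exact ⟨x, trivial, rfl⟩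
        · obtain ⟨x, hx⟩ := DirectFactor.onto₂ h₂ le_sup_right hξ y hy
          exact ⟨_, trivial, hx⟩
      rw [hX, (DirectFactor.card_centralizerIn hprod hX₁).2, (DirectFactor.card_centralizerIn hprod hQ').2]
      have h3 := (fullyCentralized_of_fullyNormalized hS hF hQ'n).2 X₁ ⟨_, hξ1, hX₁r⟩
      rw [(DirectFactor.card_centralizerIn hprod hX₁).1, (DirectFactor.card_centralizerIn hprod hQ').1] at h3
      haveI := finite_of_le hprod.2.1
      exact Nat.mul_le_mul_right _ (Nat.le_of_mul_le_mul_right h3 Nat.card_pos)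
    obtain ⟨ψ, hψ, hψag⟩ := (receptive_of_fullyCentralized hS hF hfc).2 _ φh hφh hr
    have hle : extender S₁ P' φ ⊔ S₂ ≤ extender S (P' ⊔ S₂) φh := by
      refine sup_le (fun g hg => ?_) (le_sup_right.trans (le_extender hφh))
      obtain ⟨hg1, hg2, h, hh, hgh⟩ := mem_extender.1 hg
      have hg2' : g ∈ Subgroup.normalizer ((P' ⊔ S₂ : Subgroup Ω) : Set Ω) := by
          have hmap : ∀ a, a ∈ P' ⊔ S₂ → ∀ k ∈ S₁, k ∈ Subgroup.normalizer (P' : Set Ω) →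
              k * a * k⁻¹ ∈ P' ⊔ S₂ := by
            intro a ha k hk hkN
            have : P' ⊔ S₂ ≤ (P' ⊔ S₂).comap (MulAut.conj k).toMonoidHom := by
              refine sup_le (fun z hz => Subgroup.mem_sup_left ((Subgroup.mem_normalizer_iff.1 hkN z).1 hz))
                fun z hz => Subgroup.mem_sup_right ?_
              show k * z * k⁻¹ ∈ S₂
              rw [DirectFactor.comm hprod hk hz, mul_inv_cancel_right]
              exact hz
            exact this ha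
          refine Subgroup.mem_normalizer_iff.2 fun a => ⟨fun ha => hmap a ha g hg1 hg2, fun ha => ?_⟩
          have := hmap _ ha g⁻¹ (inv_mem hg1) (inv_mem hg2)
          simpa [mul_assoc] using this
      refine mem_extender.2 ⟨hprod.1 hg1, hg2', h, hprod.1 hh, ?_⟩
      have key : ∀ x : ↥(P' ⊔ S₂), ∀ hx : g * (x : Ω) * g⁻¹ ∈ P' ⊔ S₂,
          φh ⟨g * x * g⁻¹, hx⟩ = h * φh x * h⁻¹ := by
        intro x hx
        let c : ↥(P' ⊔ S₂) →* ↥(P' ⊔ S₂) :=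
          ((MulAut.conj g).toMonoidHom.comp (P' ⊔ S₂).subtype).codRestrict _ fun y =>
            (Subgroup.mem_normalizer_iff.1 hg2' y).1 y.2
        have : (P' ⊔ S₂ : Subgroup Ω) ≤
            ((φh.comp c).eqLocus ((MulAut.conj h).toMonoidHom.comp φh)).map (P' ⊔ S₂).subtype := by
          refine sup_le (fun z hz => ?_) fun z hz => ?_
          · refine ⟨⟨z, Subgroup.mem_sup_left hz⟩, ?_, rfl⟩
            show φh ⟨g * z * g⁻¹, _⟩ = h * φh ⟨z, _⟩ * h⁻¹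
            have hz' := (Subgroup.mem_normalizer_iff.1 hg2 z).1 hz
            have e1 := hφh1 ⟨z, hz⟩
            have e2 := hφh1 ⟨_, hz'⟩
            refine e2.trans ?_
            rw [hgh ⟨z, hz⟩ hz']
            exact congrArg (fun w => h * w * h⁻¹) e1.symm
          · refine ⟨⟨z, Subgroup.mem_sup_right hz⟩, ?_, rfl⟩
            show φh ⟨g * z * g⁻¹, _⟩ = h * φh ⟨z, _⟩ * h⁻¹
            have e : g * z * g⁻¹ = z := by rw [DirectFactor.comm hprod hg1 hz, mul_inv_cancel_right]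
            rw [show φh ⟨z, Subgroup.mem_sup_right hz⟩ = z from hφh2 ⟨z, hz⟩,
              DirectFactor.comm hprod hh hz, mul_inv_cancel_right]
            exact (congrArg φh (Subtype.ext e)).trans (hφh2 ⟨z, hz⟩)
        obtain ⟨y, hy, e⟩ := this x.2
        obtain rfl : y = x := Subtype.ext e
        exact hy
      exact key
    set χ := ψ.comp (Subgroup.inclusion hle)
    have hχ : χ ∈ F.Hom (extender S₁ P' φ ⊔ S₂) := restrict hψ hle
    have hext : extender S₁ P' φ ≤ S₁ := fun g hg => (mem_extender.1 hg).1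
    have hval : ∀ x : extender S₁ P' φ, χ (Subgroup.inclusion le_sup_left x) ∈ S₁ :=
      h₁.2 _ hext _ (restrict hχ le_sup_left)
    refine ⟨χ.comp (Subgroup.inclusion le_sup_left), ?_, fun x hP hN => ?_⟩
    · rw [hR' _ hext]
      refine ⟨restrict hχ le_sup_left, fun a ha => ⟨hprod.1 (hext ha), fun c hc =>
          (DirectFactor.comm hprod (hext ha) hc).symm⟩,
        fun x => ⟨hprod.1 (hval x), fun c hc => (DirectFactor.comm hprod (hval x) hc).symm⟩,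
        χ, hχ, fun x => rfl, fun c => ?_⟩
      exact (hψag c (Subgroup.mem_sup_right c.2) _).trans (hφh2 c)
    · exact (hψag x (Subgroup.mem_sup_left hP) _).trans (hφh1 ⟨x, hP⟩)

include hS hF hprod h₁ h₂ hR hR' in
theorem DirectFactor.main : R.IsSaturated p ∧ R'.IsSaturated p ∧ R'.IsNormalIn F p ∧ R'.IsNormalIn R p ∧
    R.IsWeaklyNormalIn F p := by
  have hRsat := DirectFactor.isSaturated_full hS hF hprod h₁ hR
  have hR'sat := DirectFactor.isSaturated_fix hS hF hprod h₁ h₂ hR'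
  have hinv := DirectFactor.isInvariantIn_fix hS hF hprod h₁ h₂ hR'
  haveI := finite_of_le hprod.1
  have hsubR : R'.IsSubsystemOf R := fun P φ h => by
    rw [hR P (R'.le_of_mem h).1]; exact DirectFactor.sub_fix hR' P h
  have hclR : R.StronglyClosed S₁ := ⟨le_rfl, fun A _ φ hφ => val_mem hφ⟩
  have hinvR : R'.IsInvariantIn R := isInvariantIn_of_stronglyInvariant (hS.to_le hprod.1) hRsat hsubR hclR
    fun P Q hPQ hQ φ hφ hφQ ψ hψ =>
      DirectFactor.stronglyInvariant_fix hS hF hprod h₁ h₂ hR' P Q hPQ hQ φ hφ hφQ ψ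
        (DirectFactor.sub_full hR Q hψ)
  have hinvRF : R.IsInvariantIn F := by
    refine isInvariantIn_of_stronglyInvariant hS hF (DirectFactor.sub_full hR) h₁ ?_
    intro P Q hPQ hQ φ hφ hφQ ψ hψ
    rw [hR P (hPQ.trans hQ)] at hφ
    have hθ := restrict hψ hPQ
    obtain ⟨τ, hτ, hτr, hτ1, -⟩ := exists_inv hθ (Q := (P.subgroupOf Q).map ψ) (by
      ext y
      constructor
      · rintro ⟨x, rfl⟩; exact ⟨_, x.2, rfl⟩
      · rintro ⟨x, hx, rfl⟩; exact ⟨⟨x, hx⟩, rfl⟩)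
    have hC := F.comp_mem (F.comp_mem hτ hφ (mem_of_range_eq hτr)) hψ fun y => hφQ _
    refine ⟨_, by rw [hR _ (by rintro _ ⟨x, -, rfl⟩; exact h₁.2 Q hQ ψ hψ x)]; exact hC, fun x hx => ?_⟩
    refine congrArg ψ (Subtype.ext ?_)
    show φ ⟨τ ⟨_, hx⟩, _⟩ = φ x
    exact congrArg φ (Subtype.ext (hτ1 x hx))
  refine ⟨hRsat, hR'sat, ⟨⟨hR'sat, hF, hinv⟩, fun α hα => ?_⟩, ⟨⟨hR'sat, hRsat, hinvR⟩, fun α hα => ?_⟩,
    hRsat, hF, hinvRF⟩
  · have hα' := (mem_autGroup (le_refl S₁)).1 hα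
    rw [hR' S₁ le_rfl] at hα'
    obtain ⟨-, -, -, ψ, hψ, hψ1, hψ2⟩ := hα'
    set T := S₁ ⊔ centralizerIn S S₁
    have hT : T = S₁ ⊔ S₂ := by
      refine le_antisymm (sup_le le_sup_left ?_) (sup_le le_sup_left ?_)
      · exact inf_le_left.trans hprod.2.2.2.2.ge
      · exact (DirectFactor.S₂_le_centralizerIn hprod le_rfl).trans le_sup_right
    have hTS : T ≤ S := hT ▸ sup_le hprod.1 hprod.2.1
    have hψT : ψ.comp (Subgroup.inclusion hT.le) ∈ F.Hom T := restrict hψ hT.le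
    have hr : (ψ.comp (Subgroup.inclusion hT.le)).range = T := by
      haveI := finite_of_le hTS
      refine Subgroup.eq_of_le_of_card_ge ?_ (IsConj.card_eq ⟨_, hψT, rfl⟩).le
      rintro _ ⟨x, rfl⟩
      exact (hT.trans hprod.2.2.2.2).ge (val_mem hψT x)
    refine ⟨isoOfHom (F.injective_of_mem hψT) hr, mem_autGroup_of_eq hψT fun x => isoOfHom_apply _ _ _,
      fun x => ?_, fun c hc => ?_⟩
    · rw [isoOfHom_apply]
      exact hψ1 x
    · rw [isoOfHom_apply]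
      obtain ⟨a, ha, b, hb, e⟩ := DirectFactor.exists_factor hprod hc.1
      have hψab : (ψ.comp (Subgroup.inclusion hT.le)) c = ((α ⟨a, ha⟩ : S₁) : Ω) * b := by
        have : Subgroup.inclusion hT.le c =
            Subgroup.inclusion le_sup_left ⟨a, ha⟩ * Subgroup.inclusion le_sup_right ⟨b, hb⟩ :=
          Subtype.ext e
        show ψ (Subgroup.inclusion hT.le c) = _
        rw [this, map_mul, hψ1, hψ2]
        rfl
      have hac : ∀ x ∈ S₁, x * a = a * x := by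
        intro x hx
        have h1 := hc.2 x hx
        rw [e] at h1
        calc x * a = x * (a * b) * b⁻¹ := by group
          _ = a * (b * x) * b⁻¹ := by rw [h1]; group
          _ = a * (x * b) * b⁻¹ := by rw [DirectFactor.comm hprod hx hb]
          _ = a * x := by group
      have hαa : ∀ x ∈ S₁, x * (α ⟨a, ha⟩ : Ω) = (α ⟨a, ha⟩ : Ω) * x := by
        intro x hx
        obtain ⟨y, hy⟩ := α.surjective ⟨x, hx⟩
        have h1 : y * ⟨a, ha⟩ = ⟨a, ha⟩ * y := Subtype.ext (hac y y.2)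
        have h2 := congrArg (fun z => ((α z : S₁) : Ω)) h1
        simp only [map_mul, Subgroup.coe_mul, hy] at h2
        exact h2
      have hval : (c : Ω)⁻¹ * (ψ.comp (Subgroup.inclusion hT.le)) c = a⁻¹ * (α ⟨a, ha⟩ : Ω) := by
        rw [hψab, e, mul_inv_rev, mul_assoc, ← mul_assoc a⁻¹,
          ← mul_assoc, ← DirectFactor.comm hprod (mul_mem (Subgroup.inv_mem _ ha) (α ⟨a, ha⟩).2) (Subgroup.inv_mem _ hb)]
        group
      rw [hval]
      refine ⟨mul_mem (Subgroup.inv_mem _ ha) (α ⟨a, ha⟩).2, Subgroup.mul_mem _ (Subgroup.inv_mem _ ?_) ?_⟩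
      · exact hac
      · exact hαa
  · set T := S₁ ⊔ centralizerIn S₁ S₁
    have hT : T = S₁ := sup_eq_left.2 inf_le_left
    have hαR : α ∈ R.autGroup S₁ := (mem_autGroup le_rfl).2 (hsubR S₁ ((mem_autGroup le_rfl).1 hα))
    set φ := (S₁.subtype.comp α.toMonoidHom).comp (Subgroup.inclusion hT.le)
    have hφ : φ ∈ R.Hom T := restrict ((mem_autGroup le_rfl).1 hαR) hT.le
    have hr : φ.range = T := by
      ext y
      refine ⟨?_, fun hy => ?_⟩
      · rintro ⟨x, rfl⟩; exact hT.ge (α _).2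
      · obtain ⟨z, hz⟩ := α.surjective ⟨y, hT.le hy⟩
        exact ⟨⟨z, hT.ge z.2⟩, congrArg Subtype.val hz⟩
    refine ⟨isoOfHom (R.injective_of_mem hφ) hr, mem_autGroup_of_eq hφ fun x => isoOfHom_apply _ _ _,
      fun x => ?_, fun c hc => ?_⟩
    · rw [isoOfHom_apply]; rfl
    · rw [isoOfHom_apply]
      have hα1 : ∀ x ∈ S₁, x * (α ⟨c, hc.1⟩ : Ω) = (α ⟨c, hc.1⟩ : Ω) * x := by
        intro x hx
        obtain ⟨y, hy⟩ := α.surjective ⟨x, hx⟩
        have h1 : y * ⟨c, hc.1⟩ = ⟨c, hc.1⟩ * y := Subtype.ext (hc.2 y y.2)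
        have h2 := congrArg (fun z => ((α z : S₁) : Ω)) h1
        simp only [map_mul, Subgroup.coe_mul, hy] at h2
        exact h2
      exact ⟨mul_mem (Subgroup.inv_mem _ hc.1) (α ⟨c, hc.1⟩).2, Subgroup.mul_mem _ (Subgroup.inv_mem _ hc.2) hα1⟩

end CfsgLib.Fusion
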