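import Cfsg.Agent.Fusion.ResidualAut
import Cfsg.Agent.Fusion.NormalOfGroup
import Cfsg.Agent.Fusion.Group
import Cfsg.Agent.S5093

/-!
The `p`-residual subsystem of the fusion system of a group.
-/

set_option autoImplicit false
set_option linter.style.haveILetI false

open Cfsg

namespace CfsgLib.Fusion

open Cfsg.FusionSystem

universe u

variable {G : Type u} [Group G] [Finite G] {p : ℕ} [Fact p.Prime]

theorem pPowerIndex_unique_group (S : Sylow p G) (R : Subgroup G) [R.Normal] (hR : Cfsg.pResidual p G ≤ R)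
    (T : Subgroup G) (hT : T = (S : Subgroup G) ⊓ R) (E : Cfsg.FusionSystem T) (hE : E.IsSaturated p)
    (hEi : E.HasPPowerIndexIn (Cfsg.groupFusionSystem (S : Subgroup G)) p) (P : Subgroup G) :
    E.Hom P = (Cfsg.fusionSystemOfSubgroup R ((S : Subgroup G) ⊓ R) inf_le_right).Hom P := by
  subst hT
  set F := Cfsg.groupFusionSystem (S : Subgroup G)
  set D := Cfsg.fusionSystemOfSubgroup R ((S : Subgroup G) ⊓ R) inf_le_right
  have hDs : D.IsSaturated p := isSaturated_fusionSystemOfSubgroup_inf S R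
  have hDF : D.IsSubsystemOf F := by
    rintro P φ ⟨hP, hφ, g, -, hg⟩
    exact ⟨hP.trans inf_le_left, fun x => (hφ x).1, g, hg⟩
  have hTS : (S : Subgroup G) ⊓ R ≤ (S : Subgroup G) := inf_le_left
  refine Set.Subset.antisymm
    (le_of_residual (F := F) S.isPGroup' hTS E D hE hEi.1 (fun Q hQ => ?_) P)
    (le_of_residual (F := F) S.isPGroup' hTS D E hDs hDF (fun Q hQ => hEi.2.2 Q hQ) P)
  rw [Subgroup.map_le_iff_le_comap, Cfsg.pResidual, Subgroup.closure_le]
  intro c hc
  have hc' : (c : MulAut Q) ∈ autInducedBy ⊤ Q := (autGroup_group (hQ.trans hTS)).le c.2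
  obtain ⟨g, -, hg⟩ := mem_autInducedBy.1 hc'
  obtain ⟨k, hk, hk1⟩ := exists_pow_coprime (p := p) g (n := orderOf (c : MulAut Q))
    (by rw [Subgroup.orderOf_coe]; exact hc)
  have key : ∀ (n : ℕ) (x : Q), ((((c : MulAut Q) ^ n) x : Q) : G) = g ^ n * (x : G) * (g ^ n)⁻¹ := by
    intro n
    induction n with
    | zero => intro x; simp
    | succ n ih =>
      intro x
      rw [pow_succ', MulAut.mul_apply, hg, ih, pow_succ']
      group
  have hck : (c : MulAut Q) ^ k = c := pow_eq_self_of_modEq hk1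
  refine (mem_autGroup hQ).2 ⟨hQ, fun x => hQ ((c : MulAut Q) x).2, g ^ k,
    hR (CfsgLib.Transfer.mem_pResidual_of_coprime hk), fun x => ?_⟩
  show (((c : MulAut Q) x : Q) : G) = _
  rw [← key, hck]

end CfsgLib.Fusion
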