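import Cfsg.Agent.Fusion.TwistProduct

/-!
Invariance of a subsystem is equivalent to strong invariance.
-/

set_option autoImplicit false
set_option linter.style.haveILetI false

open Cfsg

namespace CfsgLib.Fusion

open Cfsg.FusionSystem

variable {Ω : Type*} [Group Ω] {S T : Subgroup Ω} {F : Cfsg.FusionSystem S} {E : Cfsg.FusionSystem T}
variable {P Q R : Subgroup Ω}

/-- The strong invariance condition. -/
def StronglyInvariant (E : Cfsg.FusionSystem T) (F : Cfsg.FusionSystem S) : Prop :=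
  ∀ (P Q : Subgroup Ω) (hPQ : P ≤ Q) (_ : Q ≤ T) (φ : P →* Ω) (_ : φ ∈ E.Hom P) (hφQ : ∀ x : P, φ x ∈ Q)
    (ψ : Q →* Ω) (_ : ψ ∈ F.Hom Q), ∃ χ ∈ E.Hom ((P.subgroupOf Q).map ψ),
      ∀ (x : P) (hx : ψ (Subgroup.inclusion hPQ x) ∈ (P.subgroupOf Q).map ψ),
        χ ⟨ψ (Subgroup.inclusion hPQ x), hx⟩ = ψ ⟨φ x, hφQ x⟩

theorem stronglyInvariant_of_invariant (h : E.IsInvariantIn F) : StronglyInvariant E F := by
  obtain ⟨-, -, hinv, hfrat⟩ := h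
  intro P Q hPQ hQT φ hφ hφQ ψ hψ
  obtain ⟨α, hα, ψ₀, hψ₀, hag⟩ := hfrat Q hQT ψ hψ
  set ψP : P →* Ω := ψ₀.comp (Subgroup.inclusion hPQ)
  have hψP : ψP ∈ E.Hom P := restrict hψ₀ hPQ
  obtain ⟨γ, hγ, hγr, hγ1, -⟩ := exists_inv hψP (rfl : ψP.range = ψP.range)
  have hγQ : ∀ y, γ y ∈ P := mem_of_range_eq hγr
  have hθ := E.comp_mem (E.comp_mem hγ hφ hγQ) hψ₀ fun y => hφQ _
  obtain ⟨χ, hχ, hχag⟩ := hinv ψP.range (range_le hψP) _ hθ α hα
  have hsrc : (P.subgroupOf Q).map ψ ≤ (ψP.range.subgroupOf T).map (T.subtype.comp α.toMonoidHom) := by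
    rintro _ ⟨q, hq, rfl⟩
    exact ⟨⟨ψ₀ q, val_mem hψ₀ q⟩, ⟨⟨q, hq⟩, rfl⟩, (hag q _).symm⟩
  refine ⟨_, restrict hχ hsrc, fun x hx => ?_⟩
  have h1 := hχag ⟨ψP x, x, rfl⟩ (val_mem hθ _)
    (by rw [show ((α ⟨ψP x, range_le hψP ⟨x, rfl⟩⟩ : T) : Ω) = ψ (Subgroup.inclusion hPQ x) from
      (hag _ _).symm]; exact hsrc hx)
  refine Eq.trans (congrArg χ (Subtype.ext ?_)) (h1.trans ?_)
  · exact hag (Subgroup.inclusion hPQ x) _
  · rw [hag ⟨φ x, hφQ x⟩ (val_mem hψ₀ _)]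
    refine congrArg (fun z : T => ((α z : T) : Ω)) (Subtype.ext (congrArg ψ₀ (Subtype.ext ?_)))
    show φ ⟨γ _, _⟩ = φ x
    exact congrArg φ (Subtype.ext (hγ1 x ⟨x, rfl⟩))

variable {p : ℕ} [Fact p.Prime]

theorem isInvariantIn_of_stronglyInvariant [Finite S] (hS : IsPGroup p S) (hF : F.IsSaturated p)
    (hEF : E.IsSubsystemOf F) (hT : F.StronglyClosed T) (h : StronglyInvariant E F) :
    E.IsInvariantIn F := by
  have hinv : ∀ (P : Subgroup Ω) (hPT : P ≤ T) (φ : P →* Ω), φ ∈ E.Hom P → ∀ α ∈ F.autGroup T,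
      ∃ χ ∈ E.Hom ((P.subgroupOf T).map (T.subtype.comp α.toMonoidHom)),
        ∀ (x : P) (hφx : φ x ∈ T)
          (hαx : ((α ⟨x, hPT x.2⟩ : T) : Ω) ∈ (P.subgroupOf T).map (T.subtype.comp α.toMonoidHom)),
          χ ⟨(α ⟨x, hPT x.2⟩ : T), hαx⟩ = ((α ⟨φ x, hφx⟩ : T) : Ω) := by
    intro P hPT φ hφ α hα
    obtain ⟨χ, hχ, hag⟩ := h P T hPT le_rfl φ hφ (val_mem hφ) _ ((mem_autGroup hT.1).1 hα)
    exact ⟨χ, hχ, fun x _ hαx => hag x hαx⟩
  refine ⟨hEF, hT, hinv, ?_⟩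
  have hIB : InvBy E (F.autGroup T) := by
    intro P φ hφ α hα R hR hm
    obtain ⟨χ, hχ, hag⟩ := hinv P (le_of_hom hφ) φ hφ α⁻¹ (inv_mem hα)
    refine restrict_of_eq hχ (fun r hr => ?_) fun r => ?_
    · exact ⟨⟨_, (α ⟨r, hR hr⟩).2⟩, hm ⟨r, hr⟩,
        congrArg Subtype.val (MulAut.inv_apply_self _ α ⟨r, hR hr⟩)⟩
    · have e : ((α⁻¹ ⟨((α ⟨(r : Ω), hR r.2⟩ : T) : Ω), le_of_hom hφ (hm r)⟩ : T) : Ω) = r :=
        congrArg Subtype.val (MulAut.inv_apply_self _ α ⟨(r : Ω), hR r.2⟩)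
      rw [twist_apply]
      refine (hag ⟨_, hm r⟩ (val_mem hφ _) ?_).symm.trans (congrArg χ (Subtype.ext e))
      exact ⟨⟨_, le_of_hom hφ (hm r)⟩, hm r, rfl⟩
  haveI := finite_of_le hT.1
  set G := twistProduct E (F.autGroup T) hIB
  suffices hmain : ∀ (n : ℕ) (P : Subgroup Ω), Nat.card T - Nat.card P = n → P ≤ T →
      ∀ φ ∈ F.Hom P, φ ∈ G.Hom P from
    fun P hP φ hφ => hmain _ P rfl hP φ hφ
  intro n
  induction n using Nat.strong_induction_on with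
  | _ n IH =>
  intro P hn hPT φ hφ
  rcases hPT.eq_or_lt with rfl | hlt
  · have hr : φ.range = P := Subgroup.eq_of_le_of_card_ge
      (by rintro _ ⟨x, rfl⟩; exact hT.2 _ le_rfl φ hφ x) (IsConj.card_eq ⟨φ, hφ, rfl⟩).le
    exact ⟨isoOfHom (F.injective_of_mem hφ) hr, mem_autGroup_of_eq hφ fun _ => rfl, P.subtype,
      subtype_mem le_rfl, fun x _ => rfl⟩
  have hbig : ∀ P' : Subgroup Ω, Nat.card P' = Nat.card P → P' ≤ T →
      ∀ ψ ∈ F.Hom (normalizerIn T P'), ψ ∈ G.Hom (normalizerIn T P') := by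
    intro P' hcard hP' ψ hψ
    refine IH _ ?_ (normalizerIn T P') rfl inf_le_left ψ hψ
    have hne : P' < T := lt_of_le_of_ne hP' fun he => by
      subst he
      haveI := finite_of_le hT.1
      exact hlt.ne (Subgroup.eq_of_le_of_card_ge hPT hcard.le)
    have h1 := lt_normalizerIn (hS.to_le hT.1) hne
    haveI := finite_normalizerIn (S := T) P'
    have h2 : Nat.card P' < Nat.card (normalizerIn T P') := by
      refine lt_of_le_of_ne (Subgroup.card_le_of_le h1.le) fun he => h1.ne ?_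
      exact Subgroup.eq_of_le_of_card_ge h1.le he.ge
    have h3 : Nat.card (normalizerIn T P') ≤ Nat.card T := Subgroup.card_le_of_le inf_le_left
    omega
  obtain ⟨R, hPR, hRn⟩ := exists_fullyNormalized (F := F) (hPT.trans hT.1)
  have hRa := fullyAutomized_of_fullyNormalized hS hF hRn
  have hRr := receptive_of_fullyNormalized hS hF hRn
  have hRT : R ≤ T := by
    obtain ⟨ρ, hρ, hρR⟩ := hPR
    rw [← hρR]; rintro _ ⟨x, rfl⟩
    exact hT.2 P hPT ρ hρ x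
  have hRcard : Nat.card R = Nat.card P := (IsConj.card_eq hPR).symm
  have haut : F.autGroup R ≤ G.autGroup R := by
    refine autGroup_le_of_normal (p := p) hS hRa hRr hT.1 hRT (E.autGroup R) ?_ ?_ ?_
      (autInducedBy_le_autGroup hRT) ?_
    · exact fun γ hγ => (mem_autGroup hRT).2 (mem_twistProduct_of_mem ((mem_autGroup hRT).1 hγ))
    · exact fun γ hγ => (mem_autGroup hRn.1).2 (hEF R ((mem_autGroup hRT).1 hγ))
    · intro β hβ c hc
      obtain ⟨χ, hχ, hag⟩ := h R R le_rfl hRT _ ((mem_autGroup hRT).1 hc) (fun x => (c x).2) _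
        ((mem_autGroup hRn.1).1 hβ)
      have hsrc : R ≤ (R.subgroupOf R).map (R.subtype.comp β.toMonoidHom) := fun r hr =>
        ⟨β⁻¹ ⟨r, hr⟩, (β⁻¹ ⟨r, hr⟩).2, congrArg Subtype.val (MulAut.apply_inv_self _ β ⟨r, hr⟩)⟩
      refine mem_autGroup_of_eq (restrict hχ hsrc) fun r => ?_
      obtain ⟨x, rfl⟩ := β.surjective r
      show ((β (c (β⁻¹ (β x))) : R) : Ω) = _
      rw [MulAut.inv_apply_self]
      refine Eq.trans (hag x (hsrc (β x).2)).symm ?_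
      rfl
    · intro ψ hψ _ hRN
      exact restrict (hbig R hRcard hRT ψ hψ) hRN
  have hiso : ∀ (P' : Subgroup Ω), P' ≤ T → ∀ ψ ∈ F.Hom P', ψ.range = R → ψ ∈ G.Hom P' := by
    intro P' hP' ψ hψ hψR
    obtain ⟨φ₁, hφ₁, hP'N, hφ₁R, -⟩ := exists_map_normalizer p hS hRa hRr (Q := P') ⟨ψ, hψ, hψR⟩
    have hNN : normalizerIn T P' ≤ normalizerIn S P' := inf_le_inf_right _ hT.1
    have hP'M : P' ≤ normalizerIn T P' := le_inf hP' Subgroup.le_normalizer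
    set ψ₁ := φ₁.comp (Subgroup.inclusion hP'N)
    have hψ₁G : ψ₁ ∈ G.Hom P' := restrict_of_eq
      (hbig P' ((IsConj.card_eq ⟨ψ, hψ, hψR⟩).trans hRcard) hP' _ (restrict hφ₁ hNN)) hP'M fun x => rfl
    have hψ₁ : ψ₁ ∈ F.Hom P' := restrict hφ₁ hP'N
    set β := (isoOfHom (F.injective_of_mem hψ₁) hφ₁R).symm.trans (isoOfHom (F.injective_of_mem hψ) hψR)
    obtain ⟨τ, hτ, hτr, hτ1, -⟩ := exists_inv hψ₁ hφ₁R
    have hβ : β ∈ F.autGroup R := mem_autGroup_of_eq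
      (F.comp_mem hτ hψ (mem_of_range_eq hτr)) fun y => by
        obtain ⟨x, rfl⟩ := (isoOfHom (F.injective_of_mem hψ₁) hφ₁R).surjective y
        refine Eq.trans ?_ (congrArg ψ (Subtype.ext (hτ1 x (mem_of_range_eq hφ₁R x)).symm))
        exact congrArg (fun z : P' => ψ z) ((isoOfHom (F.injective_of_mem hψ₁) hφ₁R).symm_apply_apply x)
    refine comp_of_eq hψ₁G ((mem_autGroup hRT).1 (haut hβ)) (mem_of_range_eq hφ₁R) fun x => ?_
    exact (congrArg ψ ((isoOfHom (F.injective_of_mem hψ₁) hφ₁R).symm_apply_apply x)).symm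
  obtain ⟨ρ, hρ, hρR⟩ := hPR
  have hP'T : φ.range ≤ T := by rintro _ ⟨x, rfl⟩; exact hT.2 P hPT φ hφ x
  obtain ⟨τ, hτ, hτr, hτ1, hτ2⟩ := exists_inv hφ (rfl : φ.range = φ.range)
  set σ : φ.range →* Ω := ρ.comp (τ.codRestrict P (mem_of_range_eq hτr))
  have hσ : σ ∈ F.Hom φ.range := F.comp_mem hτ hρ _
  have hσR : σ.range = R := by
    rw [← hρR]
    ext y
    constructor
    · rintro ⟨x, rfl⟩; exact ⟨_, rfl⟩
    · rintro ⟨x, rfl⟩
      exact ⟨⟨φ x, x, rfl⟩, congrArg ρ (Subtype.ext (hτ1 x ⟨x, rfl⟩))⟩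
  obtain ⟨ζ, hζ, -, hζ1, -⟩ := exists_inv (hiso φ.range hP'T σ hσ hσR) hσR
  refine comp_of_eq (hiso P hPT ρ hρ hρR) hζ (mem_of_range_eq hρR) fun x => ?_
  refine (hζ1 ⟨φ x, x, rfl⟩ (mem_of_range_eq hσR _)).symm.trans (congrArg ζ (Subtype.ext ?_))
  exact congrArg ρ (Subtype.ext (hτ1 x ⟨x, rfl⟩))

theorem isInvariantIn_iff_stronglyInvariant [Finite S] (hS : IsPGroup p S) (hF : F.IsSaturated p)
    (hEF : E.IsSubsystemOf F) (hT : F.StronglyClosed T) :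
    E.IsInvariantIn F ↔ StronglyInvariant E F :=
  ⟨stronglyInvariant_of_invariant, isInvariantIn_of_stronglyInvariant hS hF hEF hT⟩

end CfsgLib.Fusion
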