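import Mathlib.GroupTheory.Transfer
import Mathlib.Data.Fintype.BigOperators
import Cfsg.Agent.Fusion.AlperinCor
import Cfsg.Agent.Fusion.Group
import Cfsg.Agent.Fusion.StrongInvariance
import Cfsg.Agent.PReduced.Basic
import Cfsg.Agent.PCore.Basic

/-!
Pieces for the correspondence between normal subsystems and normal subgroups in constrained groups.
-/

set_option autoImplicit false
set_option linter.style.haveILetI false

open Cfsg

namespace CfsgLib.Fusion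

open Cfsg.FusionSystem

/-- Two elements of order prime to `|D|` congruent modulo the abelian normal subgroup `D` are conjugate by it. -/
theorem exists_conj_of_congr_abelian {L : Type*} [Group L] [Finite L] (D : Subgroup L) [D.Normal]
    (hD : ∀ a ∈ D, ∀ b ∈ D, a * b = b * a) {α β : L} (hd : β * α⁻¹ ∈ D) {r : ℕ}
    (hcop : (Nat.card D).Coprime r) (hα : α ^ r = 1) (hβ : β ^ r = 1) : ∃ c ∈ D, β = c * α * c⁻¹ := by
  letI : CommGroup D := { (inferInstance : Group D) with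
    mul_comm := fun a b => Subtype.ext (hD a a.2 b b.2) }
  have hq : (QuotientGroup.mk' D) β = QuotientGroup.mk' D α := by
    rw [← mul_inv_eq_one, ← map_inv, ← map_mul]
    exact (QuotientGroup.eq_one_iff _).2 hd
  let f : ℕ → D := fun i => ⟨β ^ i * (α ^ i)⁻¹, (QuotientGroup.eq_one_iff _).1 (by
    show QuotientGroup.mk' D (β ^ i * (α ^ i)⁻¹) = 1
    rw [map_mul, map_inv, map_pow, map_pow, hq, mul_inv_cancel])⟩
  let cb : D →* D :=
    { toFun := fun x => ⟨β * x * β⁻¹, Subgroup.Normal.conj_mem inferInstance _ x.2 _⟩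
      map_one' := Subtype.ext (by simp)
      map_mul' := fun x y => Subtype.ext (by simp [mul_assoc]) }
  have hstep : ∀ i, f (i + 1) = cb (f i) * f 1 := fun i => Subtype.ext (by
    show β ^ (i + 1) * (α ^ (i + 1))⁻¹ = β * (β ^ i * (α ^ i)⁻¹) * β⁻¹ * (β ^ 1 * (α ^ 1)⁻¹)
    rw [pow_succ' β, pow_succ α, pow_one, pow_one, mul_inv_rev]
    have h : α ^ i * α = α * α ^ i := (pow_mul_comm' α i)
    have h' : α⁻¹ * (α ^ i)⁻¹ = (α ^ i)⁻¹ * α⁻¹ := by rw [← mul_inv_rev, ← mul_inv_rev, h]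
    rw [h']
    group)
  set C := ∏ i ∈ Finset.range r, f i with hC
  have hshift : ∏ i ∈ Finset.range r, f (i + 1) = C := by
    have h1 := Finset.prod_range_succ' f r
    rw [Finset.prod_range_succ] at h1
    have h0 : f 0 = 1 := Subtype.ext (by simp [f])
    have hr : f r = 1 := Subtype.ext (by simp [f, hα, hβ])
    rw [h0, hr, mul_one, mul_one] at h1
    exact h1.symm
  have hkey : cb C * f 1 ^ r = C := by
    conv_rhs => rw [← hshift]
    rw [Finset.prod_congr rfl (fun i _ => hstep i), Finset.prod_mul_distrib, Finset.prod_const, Finset.card_range,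
      hC, map_prod]
  let e := powCoprime (G := D) hcop
  set c := e.symm C with hc
  have hcp : c ^ r = C := e.apply_symm_apply C
  have h2 : cb c * f 1 = c := e.injective (show (cb c * f 1) ^ r = c ^ r by rw [mul_pow, ← map_pow, hcp, hkey])
  refine ⟨c, c.2, ?_⟩
  have h3 : β * (c : L) * β⁻¹ * (β ^ 1 * (α ^ 1)⁻¹) = (c : L) := congrArg Subtype.val h2
  rw [pow_one, pow_one] at h3
  calc β = β * (c : L) * β⁻¹ * (β * α⁻¹) * α * (c : L)⁻¹ := by group
    _ = (c : L) * α * (c : L)⁻¹ := by rw [h3]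

/-- A subgroup containing a Sylow subgroup and all `p'`-elements is everything. -/
theorem eq_top_of_sylow_of_coprime {A : Type*} [Group A] [Finite A] {p : ℕ} [hp : Fact p.Prime] (N : Subgroup A)
    [N.Normal] (P : Sylow p A) (hP : (P : Subgroup A) ≤ N) (h : ∀ x : A, (orderOf x).Coprime p → x ∈ N) :
    N = ⊤ := by
  refine eq_top_iff.2 fun x _ => ?_
  obtain ⟨e, r, hr, hxo⟩ := Nat.exists_eq_pow_mul_and_not_dvd (orderOf_pos x).ne' p hp.out.ne_one
  have hne : p ^ e ≠ 0 := pow_ne_zero _ hp.out.ne_zero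
  have h1 : x ^ p ^ e ∈ N := h _ (by
    rw [orderOf_pow_of_dvd hne (hxo ▸ dvd_mul_right _ _), hxo, Nat.mul_div_cancel_left _ (Nat.pos_of_ne_zero hne)]
    exact ((hp.out.coprime_iff_not_dvd).2 hr).symm)
  have h2 : x ^ N.index ∈ N := Subgroup.pow_index_mem N x
  have hcop : Nat.gcd (p ^ e) N.index = 1 := Nat.Coprime.pow_left e
    ((hp.out.coprime_iff_not_dvd).2 fun hd => P.not_dvd_index (hd.trans (Subgroup.index_dvd_of_le hP)))
  have hxe : x = (x ^ p ^ e) ^ Nat.gcdA (p ^ e) N.index * (x ^ N.index) ^ Nat.gcdB (p ^ e) N.index := by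
    rw [← zpow_natCast, ← zpow_natCast, ← zpow_mul, ← zpow_mul, ← zpow_add, ← Nat.gcd_eq_gcd_ab, hcop,
      Nat.cast_one, zpow_one]
  rw [hxe]
  exact N.mul_mem (N.zpow_mem h1 _) (N.zpow_mem h2 _)

/-- A power of `g` of order prime to `p` with the same image, when the image has order prime to `p`. -/
theorem exists_pow_coprime_map {G M : Type*} [Group G] [Group M] [Finite G] {p : ℕ} [hp : Fact p.Prime]
    (f : G →* M) (g : G) (h : (orderOf (f g)).Coprime p) :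
    ∃ j : ℕ, f (g ^ j) = f g ∧ (orderOf (g ^ j)).Coprime p := by
  obtain ⟨e, r, hr, hgo⟩ := Nat.exists_eq_pow_mul_and_not_dvd (orderOf_pos g).ne' p hp.out.ne_one
  have hne : p ^ e ≠ 0 := pow_ne_zero _ hp.out.ne_zero
  have hdvd : orderOf (f g) ∣ r :=
    (Nat.Coprime.pow_right e h).dvd_of_dvd_mul_left (hgo ▸ orderOf_map_dvd f g)
  have hrcop : (p ^ e).Coprime (orderOf (f g)) := (Nat.Coprime.pow_right e h).symm
  obtain ⟨m, -, hm⟩ := Nat.exists_mul_mod_eq_of_coprime 1 hrcop (orderOf_pos_iff.2 (f.isOfFinOrder (isOfFinOrder_of_finite g))).ne'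
  refine ⟨p ^ e * m, ?_, ?_⟩
  · rw [map_pow, ← pow_mod_orderOf, hm, pow_mod_orderOf, pow_one]
  · rw [pow_mul]
    refine Nat.Coprime.coprime_dvd_left (orderOf_pow_dvd (x := g ^ p ^ e) m) ?_
    rw [orderOf_pow_of_dvd hne (hgo ▸ dvd_mul_right _ _), hgo, Nat.mul_div_cancel_left _ (Nat.pos_of_ne_zero hne)]
    exact ((hp.out.coprime_iff_not_dvd).2 hr).symm

variable {G : Type*} [Group G] [Finite G] {p : ℕ} [Fact p.Prime]

/-- Elements stabilizing the series `1 ≤ K ≤ O_p(G)` lie in `O_p(G)`, when it contains its centralizer. -/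
theorem stab_le_pCore (hG : Subgroup.centralizer ((Cfsg.pCore p G : Subgroup G) : Set G) ≤ Cfsg.pCore p G)
    (hQp : IsPGroup p (Cfsg.pCore p G)) (K : Subgroup G) [K.Normal] (hK : K ≤ Cfsg.pCore p G) :
    Subgroup.centralizer (K : Set G) ⊓
      (Subgroup.centralizer (((Cfsg.pCore p G).map (QuotientGroup.mk' K) : Subgroup (G ⧸ K)) : Set (G ⧸ K))).comap
        (QuotientGroup.mk' K) ≤ Cfsg.pCore p G := by
  set D := Subgroup.centralizer (K : Set G) ⊓
    (Subgroup.centralizer (((Cfsg.pCore p G).map (QuotientGroup.mk' K) : Subgroup (G ⧸ K)) : Set (G ⧸ K))).comap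
      (QuotientGroup.mk' K)
  haveI hn1 : (Cfsg.pCore p G).Normal := Cfsg.pCore_normal p G
  haveI : ((Cfsg.pCore p G).map (QuotientGroup.mk' K)).Normal := hn1.map _ (QuotientGroup.mk'_surjective K)
  haveI hDn : D.Normal := Subgroup.normal_inf_normal _ _
  obtain ⟨k, hk⟩ := IsPGroup.iff_card.1 (hQp.to_le hK)
  obtain ⟨l, hl⟩ := IsPGroup.iff_card.1 hQp
  refine CfsgLib.PCore.le_pCore hDn (fun ⟨g, hgK, hgQ⟩ => ⟨k + l, Subtype.ext ?_⟩)
  have hnc : ∀ (i : ℕ) (q : G) (hq : q ∈ Cfsg.pCore p G),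
      g ^ i * q * (g ^ i)⁻¹ = (g * q * g⁻¹ * q⁻¹) ^ i * q ∧ g * q * g⁻¹ * q⁻¹ ∈ K := by
    intro i q hq
    have hd : g * q * g⁻¹ * q⁻¹ ∈ K := by
      rw [← QuotientGroup.eq_one_iff (N := K)]
      have h1 := Subgroup.mem_centralizer_iff.1 hgQ _ ⟨q, hq, rfl⟩
      show QuotientGroup.mk' K (g * q * g⁻¹ * q⁻¹) = 1
      simp only [map_mul, map_inv, ← h1, mul_inv_cancel_right, mul_inv_cancel]
    refine ⟨?_, hd⟩
    induction i with
    | zero => simp
    | succ i ih =>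
      have hc := Subgroup.mem_centralizer_iff.1 hgK _ (K.pow_mem hd i)
      calc g ^ (i + 1) * q * (g ^ (i + 1))⁻¹ = g * (g ^ i * q * (g ^ i)⁻¹) * g⁻¹ := by rw [pow_succ']; group
        _ = g * ((g * q * g⁻¹ * q⁻¹) ^ i) * q * g⁻¹ := by rw [ih]; group
        _ = (g * q * g⁻¹ * q⁻¹) ^ i * (g * q * g⁻¹ * q⁻¹) * q := by rw [← hc]; group
        _ = (g * q * g⁻¹ * q⁻¹) ^ (i + 1) * q := by rw [pow_succ]
  have hn : g ^ p ^ k ∈ Cfsg.pCore p G := hG (Subgroup.mem_centralizer_iff.2 fun q hq => by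
    obtain ⟨h1, h2⟩ := hnc (p ^ k) q hq
    have h3 : (g * q * g⁻¹ * q⁻¹) ^ p ^ k = 1 := by
      rw [← hk]
      exact congrArg Subtype.val (pow_card_eq_one' (x := (⟨_, h2⟩ : K)))
    rw [h3, one_mul, mul_inv_eq_iff_eq_mul] at h1
    exact h1.symm)
  show g ^ p ^ (k + l) = 1
  rw [pow_add, pow_mul, ← hl]
  exact congrArg Subtype.val (pow_card_eq_one' (x := (⟨_, hn⟩ : Cfsg.pCore p G)))

/-- `Aut_E(R)` is normalized by `Aut_F(R)`. -/
theorem conj_mem_autGroup_invariant {Ω : Type*} [Group Ω] {S T : Subgroup Ω} [Finite S]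
    {F : Cfsg.FusionSystem S} {E : Cfsg.FusionSystem T} (hE : E.IsInvariantIn F) {R : Subgroup Ω} (hRT : R ≤ T)
    {γ β : MulAut R} (hγ : γ ∈ E.autGroup R) (hβ : β ∈ F.autGroup R) : β * γ * β⁻¹ ∈ E.autGroup R := by
  have hRS : R ≤ S := hRT.trans hE.2.1.1
  obtain ⟨χ, hχ, hag⟩ := stronglyInvariant_of_invariant hE R R le_rfl hRT _ ((mem_autGroup hRT).1 hγ)
    (fun x => (γ x).2) _ ((mem_autGroup hRS).1 hβ)
  have hsrc : R ≤ (R.subgroupOf R).map (R.subtype.comp β.toMonoidHom) := fun x hx =>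
    ⟨β⁻¹ ⟨x, hx⟩, Subgroup.mem_subgroupOf.2 (β⁻¹ ⟨x, hx⟩).2,
      congrArg Subtype.val (MulAut.apply_inv_self _ β ⟨x, hx⟩)⟩
  refine mem_autGroup_of_eq (restrict hχ hsrc) fun y => ?_
  obtain ⟨x, rfl⟩ := β.surjective y
  show ((β (γ (β⁻¹ (β x))) : R) : Ω) = _
  rw [MulAut.inv_apply_self]
  exact (hag x (hsrc (β x).2)).symm

/-- Centric radical subgroups of a saturated subsystem of a group contain the normal `p`-subgroups in `T`. -/
theorem le_of_centric_radical_group {T K : Subgroup G} [K.Normal] (hT : IsPGroup p T) (hK : K ≤ T)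
    {X : Cfsg.FusionSystem T} (hX : ∀ (P : Subgroup G) (φ : P →* G), φ ∈ X.Hom P →
      ∃ g : G, ∀ x : P, φ x = g * (x : G) * g⁻¹) {P : Subgroup G} (hc : X.IsCentric P) (hr : X.IsRadical p P) :
    K ≤ P := by
  haveI := finite_mulAut (S := T) hc.1
  have hN : ∀ q ∈ K, q ∈ Subgroup.normalizer (P : Set G) → q ∈ P := by
    intro q hq hqn
    set B := autInducedBy K P
    have hBX : B ≤ X.autGroup P := fun γ hγ => by
      obtain ⟨k, hk, hkγ⟩ := mem_autInducedBy.1 hγ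
      exact mem_autGroup_of_eq (X.conj_mem hc.1 (hK hk)) hkγ
    have hBn : (B.subgroupOf (X.autGroup P)).Normal := by
      constructor
      rintro ⟨γ, hγX⟩ hγ ⟨a, ha⟩
      obtain ⟨k, hk, hkγ⟩ := mem_autInducedBy.1 (Subgroup.mem_subgroupOf.1 hγ)
      obtain ⟨g, hg⟩ := hX P _ ((mem_autGroup hc.1).1 ha)
      refine Subgroup.mem_subgroupOf.2 (mem_autInducedBy.2 ⟨g * k * g⁻¹,
        Subgroup.Normal.conj_mem inferInstance k hk g, fun x => ?_⟩)
      obtain ⟨x, rfl⟩ := a.surjective x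
      show ((a (γ (a⁻¹ (a x))) : P) : G) = _
      rw [MulAut.inv_apply_self]
      have h1 : ((a (γ x) : P) : G) = g * ((γ x : P) : G) * g⁻¹ := hg _
      have h2 : ((a x : P) : G) = g * (x : G) * g⁻¹ := hg _
      rw [h1, h2, hkγ]
      group
    have hBp : IsPGroup p (B.subgroupOf (X.autGroup P)) :=
      ((isPGroup_autInducedBy p (hT.to_le hK) P)).of_equiv (Subgroup.subgroupOfEquivOfLe hBX).symm
    have hqB : conjAut P K ⟨q, hq, hqn⟩ ∈ B := (range_conjAut (P := P) K).le ⟨_, rfl⟩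
    obtain ⟨y, hy⟩ := hr.2.le ⟨⟨_, hBX hqB⟩, CfsgLib.PCore.le_pCore hBn hBp (Subgroup.mem_subgroupOf.2 hqB), rfl⟩
    have hcq : (y : G)⁻¹ * q ∈ centralizerIn T P := by
      refine ⟨T.mul_mem (T.inv_mem (hc.1 y.2)) (hK hq), Subgroup.mem_centralizer_iff.2 fun x hx => ?_⟩
      have h3 : (y : G) * x * (y : G)⁻¹ = q * x * q⁻¹ :=
        congrArg (fun γ : MulAut P => ((γ ⟨x, hx⟩ : P) : G)) hy
      calc x * ((y : G)⁻¹ * q) = (y : G)⁻¹ * ((y : G) * x * (y : G)⁻¹) * q := by group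
        _ = (y : G)⁻¹ * (q * x * q⁻¹) * q := by rw [h3]
        _ = (y : G)⁻¹ * q * x := by group
    simpa using P.mul_mem y.2 (hc.2 P (IsConj.refl hc.1) hcq)
  by_contra hKP
  have hlt : P < P ⊔ K := lt_of_le_of_ne le_sup_left fun e => hKP (e.symm ▸ le_sup_right)
  haveI := finite_of_le (S := T) (sup_le hc.1 hK)
  obtain ⟨g, hg, hgn, hgP⟩ := exists_normalizer_not_mem (hT.to_le (sup_le hc.1 hK)) hlt
  rw [Subgroup.mem_sup_of_normal_right] at hg
  obtain ⟨a, ha, q, hq, rfl⟩ := hg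
  refine hgP (P.mul_mem ha (hN q hq ?_))
  have h4 := mul_mem (inv_mem (Subgroup.le_normalizer ha)) hgn
  rwa [inv_mul_cancel_left] at h4

/-- Automorphisms of order prime to `p` of `P`, in groups normalized by the automizer, agreeing on a centric `K`. -/
theorem mem_of_restrict_coprime {T K P : Subgroup G} [K.Normal] (hT : IsPGroup p T) (hKP : K ≤ P) (hPT : P ≤ T)
    (hcent : ∀ x ∈ T, (∀ k ∈ K, k * x = x * k) → x ∈ K) {K₂ : Subgroup (MulAut P)}
    (hK₂ : K₂ ≤ autInducedBy ⊤ P) (hK₂n : ∀ b ∈ autInducedBy ⊤ P, ∀ k ∈ K₂, b * k * b⁻¹ ∈ K₂)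
    {α : MulAut P} (hα : α ∈ autInducedBy ⊤ P) (hαo : (orderOf α).Coprime p) {β : MulAut P} (hβ : β ∈ K₂)
    (hag : ∀ x : P, (x : G) ∈ K → β x = α x) : α ∈ K₂ := by
  set L := autInducedBy (⊤ : Subgroup G) P with hL
  haveI := finite_mulAut (S := T) hPT
  have hKinv : ∀ γ ∈ L, ∀ x : P, (x : G) ∈ K → ((γ x : P) : G) ∈ K := by
    intro γ hγ x hx
    obtain ⟨g, -, hg⟩ := mem_autInducedBy.1 hγ
    rw [hg]
    exact Subgroup.Normal.conj_mem inferInstance _ hx g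
  let D : Subgroup L :=
    { carrier := {δ | ∀ x : P, (x : G) ∈ K → (δ : MulAut P) x = x}
      one_mem' := fun x _ => rfl
      mul_mem' := fun {a b} ha hb x hx => by
        show (a : MulAut P) ((b : MulAut P) x) = x
        rw [hb x hx, ha x hx]
      inv_mem' := fun {a} ha x hx => by
        show (a : MulAut P)⁻¹ x = x
        conv_lhs => rw [← ha x hx]
        exact MulAut.inv_apply_self _ (a : MulAut P) x }
  have hDn : D.Normal := ⟨fun δ hδ b x hx => by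
    show (b : MulAut P) ((δ : MulAut P) ((b : MulAut P)⁻¹ x)) = x
    rw [hδ _ (hKinv _ (L.inv_mem b.2) x hx), MulAut.apply_inv_self]⟩
  have hz : ∀ δ ∈ D, ∀ x : P, ((x⁻¹ * (δ : MulAut P) x : P) : G) ∈ K := by
    intro δ hδ x
    refine hcent _ (hPT (x⁻¹ * (δ : MulAut P) x).2) fun k hk => ?_
    set k' : P := ⟨(x : G) * k * (x : G)⁻¹, hKP (Subgroup.Normal.conj_mem inferInstance _ hk _)⟩
    have h1 := hδ k' (Subgroup.Normal.conj_mem inferInstance _ hk _)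
    rw [show k' = x * ⟨k, hKP hk⟩ * x⁻¹ from rfl, map_mul, map_mul, map_inv, hδ ⟨k, hKP hk⟩ hk] at h1
    have h2 : (⟨k, hKP hk⟩ : P) * (x⁻¹ * (δ : MulAut P) x) = x⁻¹ * (δ : MulAut P) x * ⟨k, hKP hk⟩ := by
      calc (⟨k, hKP hk⟩ : P) * (x⁻¹ * (δ : MulAut P) x)
          = x⁻¹ * (x * ⟨k, hKP hk⟩ * x⁻¹) * (δ : MulAut P) x := by group
        _ = x⁻¹ * ((δ : MulAut P) x * ⟨k, hKP hk⟩ * ((δ : MulAut P) x)⁻¹) * (δ : MulAut P) x := by rw [h1]
        _ = x⁻¹ * (δ : MulAut P) x * ⟨k, hKP hk⟩ := by group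
    exact congrArg Subtype.val h2
  have hDab : ∀ a ∈ D, ∀ b ∈ D, a * b = b * a := by
    intro a ha b hb
    refine Subtype.ext (MulEquiv.ext fun x => ?_)
    show (a : MulAut P) ((b : MulAut P) x) = (b : MulAut P) ((a : MulAut P) x)
    obtain ⟨u, hu⟩ : ∃ u, u = x⁻¹ * (a : MulAut P) x := ⟨_, rfl⟩
    obtain ⟨v, hv⟩ : ∃ v, v = x⁻¹ * (b : MulAut P) x := ⟨_, rfl⟩
    have ea : (a : MulAut P) x = x * u := by rw [hu, mul_inv_cancel_left]
    have eb : (b : MulAut P) x = x * v := by rw [hv, mul_inv_cancel_left]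
    have huK : (u : G) ∈ K := hu ▸ hz a ha x
    have hvK : (v : G) ∈ K := hv ▸ hz b hb x
    rw [eb, ea, map_mul, map_mul, ha v hvK, hb u huK, ea, eb, mul_assoc, mul_assoc]
    congr 1
    -- `u` centralizes `K`
    have h5 : ∀ k : P, (k : G) ∈ K → k * u = u * k := by
      intro k hk
      have hk' : ((x * k * x⁻¹ : P) : G) ∈ K := Subgroup.Normal.conj_mem inferInstance _ hk _
      have h1 := ha _ hk'
      rw [map_mul, map_mul, map_inv, ha k hk, ea] at h1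
      calc k * u = x⁻¹ * (x * k * x⁻¹) * (x * u) := by group
        _ = x⁻¹ * (x * u * k * (x * u)⁻¹) * (x * u) := by rw [h1]
        _ = u * k := by group
    exact (h5 v hvK).symm
  have hDp : IsPGroup p D := by
    haveI : Finite K := inferInstance
    obtain ⟨k, hk⟩ := IsPGroup.iff_card.1 (hT.to_le (hKP.trans hPT))
    rintro ⟨δ, hδ⟩
    refine ⟨k, Subtype.ext (Subtype.ext (MulEquiv.ext fun x => ?_))⟩
    show ((δ : MulAut P) ^ p ^ k) x = x
    have hu : ∀ n : ℕ, ((δ : MulAut P) ^ n) x = x * (x⁻¹ * (δ : MulAut P) x) ^ n := by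
      intro n
      induction n with
      | zero => simp
      | succ n ih =>
        rw [pow_succ' (δ : MulAut P), MulAut.mul_apply, ih, map_mul, map_pow, hδ _ (hz δ hδ x), pow_succ',
          ← mul_assoc x, mul_inv_cancel_left]
    rw [hu, show (x⁻¹ * (δ : MulAut P) x) ^ p ^ k = 1 from Subtype.ext (by
      rw [← hk]
      simp only [SubmonoidClass.coe_pow, OneMemClass.coe_one]
      exact congrArg Subtype.val (pow_card_eq_one' (x := (⟨_, hz δ hδ x⟩ : K)))), mul_one]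
  -- replace `β` by a power of order prime to `p`
  obtain ⟨e, r, hr, hβo⟩ := Nat.exists_eq_pow_mul_and_not_dvd (orderOf_pos β).ne' p (Fact.out : p.Prime).ne_one
  have hpe : (p ^ e).Coprime (orderOf α) := (Nat.Coprime.pow_right e hαo).symm
  obtain ⟨m, -, hm⟩ := Nat.exists_mul_mod_eq_of_coprime 1 hpe (orderOf_pos α).ne'
  set β' := β ^ (p ^ e * m) with hβ'
  have hαpow : α ^ (p ^ e * m) = α := by
    rw [← pow_mod_orderOf, hm, pow_mod_orderOf, pow_one]
  have hagp : ∀ (n : ℕ) (x : P), (x : G) ∈ K → (β ^ n) x = (α ^ n) x ∧ (((α ^ n) x : P) : G) ∈ K := by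
    intro n
    induction n with
    | zero => exact fun x hx => ⟨rfl, hx⟩
    | succ n ih =>
      intro x hx
      obtain ⟨h1, h2⟩ := ih x hx
      rw [pow_succ' β, pow_succ' α, MulAut.mul_apply, MulAut.mul_apply, h1]
      exact ⟨hag _ h2, hKinv α hα _ h2⟩
  have hβ'o : (orderOf β').Coprime p := by
    rw [hβ', pow_mul]
    refine Nat.Coprime.coprime_dvd_left (orderOf_pow_dvd (x := β ^ p ^ e) m) ?_
    rw [orderOf_pow_of_dvd (pow_ne_zero _ (Fact.out : p.Prime).ne_zero) (hβo ▸ dvd_mul_right _ _), hβo,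
      Nat.mul_div_cancel_left _ (pow_pos (Fact.out : p.Prime).pos _)]
    exact (((Fact.out : p.Prime).coprime_iff_not_dvd).2 hr).symm
  have hβ'2 : β' ∈ K₂ := K₂.pow_mem hβ _
  haveI := hDn
  obtain ⟨c, -, hc⟩ := exists_conj_of_congr_abelian D hDab (α := (⟨β', hK₂ hβ'2⟩ : L)) (β := ⟨α, hα⟩)
    (fun x hx => by
      show α ((β' : MulAut P)⁻¹ x) = x
      obtain ⟨y, rfl⟩ : ∃ y, β' y = x := ⟨β'⁻¹ x, MulAut.apply_inv_self _ _ _⟩
      rw [MulAut.inv_apply_self]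
      have hy : (y : G) ∈ K := by
        have := hKinv _ (L.inv_mem (hK₂ hβ'2)) _ hx
        rwa [MulAut.inv_apply_self] at this
      rw [hβ', (hagp _ y hy).1, hαpow])
    (r := orderOf α * orderOf β') (by
      obtain ⟨k, hk⟩ := IsPGroup.iff_card.1 hDp
      rw [hk]
      exact Nat.Coprime.pow_left k (hαo.mul_left hβ'o).symm)
    (Subtype.ext (orderOf_dvd_iff_pow_eq_one.1 (dvd_mul_left _ _)))
    (Subtype.ext (orderOf_dvd_iff_pow_eq_one.1 (dvd_mul_right _ _)))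
  rw [show α = (c : MulAut P) * β' * (c : MulAut P)⁻¹ from congrArg Subtype.val hc]
  exact hK₂n _ c.2 _ hβ'2

/-- The transfer argument: a normal closure meeting `S` inside `T`. -/
theorem normalClosure_inf_le (S : Sylow p G) {T D Q₀ M : Subgroup G} [M.Normal]
    (hTM : T ≤ M) (hTS : T ≤ (S : Subgroup G)) (hDM : D ≤ M) (hQ₀ : Q₀ ≤ T)
    (hcl : ∀ g : G, ∀ t ∈ T, g * t * g⁻¹ ∈ (S : Subgroup G) → g * t * g⁻¹ ∈ T)
    (hMD : ∀ m ∈ M, ∀ d ∈ D, m * d * m⁻¹ * d⁻¹ ∈ Q₀)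
    (hdec : ∀ s ∈ (S : Subgroup G), s ∈ M → ∃ t ∈ T, ∃ d ∈ D, d ∈ (S : Subgroup G) ∧ s = t * d) :
    Subgroup.normalClosure ((T : Set G) ∪ {g : G | g ∈ M ∧ (orderOf g).Coprime p}) ⊓ (S : Subgroup G) ≤ T := by
  classical
  obtain ⟨R, hR⟩ := CfsgLib.PReduced.exists_sylow_inf S M
  set W := (R : Subgroup M) with hW
  have hWmem : ∀ {x : M}, x ∈ W ↔ (x : G) ∈ (S : Subgroup G) := fun {x} => by
    rw [hR, Subgroup.mem_subgroupOf]
    exact ⟨fun h => h.1, fun h => ⟨h, x.2⟩⟩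
  set N := (T.subgroupOf M).subgroupOf W with hN
  have hNmem : ∀ {x : W}, x ∈ N ↔ ((x : M) : G) ∈ T := fun {x} => Iff.rfl
  haveI hNn : N.Normal := ⟨fun x hx w => hNmem.2 (hcl _ _ (hNmem.1 hx)
    ((S : Subgroup G).mul_mem ((S : Subgroup G).mul_mem (hWmem.1 w.2) (hWmem.1 x.2))
      ((S : Subgroup G).inv_mem (hWmem.1 w.2))))⟩
  have hcomm : ∀ a b : W ⧸ N, a * b = b * a := by
    have hdmem : ∀ x : W, ∃ d : W, ((d : M) : G) ∈ D ∧ QuotientGroup.mk' N x = QuotientGroup.mk' N d := by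
      intro x
      obtain ⟨t, ht, d, hd, hdS, he⟩ := hdec _ (hWmem.1 x.2) (x : M).2
      refine ⟨⟨⟨d, hDM hd⟩, hWmem.2 hdS⟩, hd, ?_⟩
      have ht' : (⟨⟨t, hTM ht⟩, hWmem.2 (hTS ht)⟩ : W) ∈ N := hNmem.2 ht
      rw [show x = (⟨⟨t, hTM ht⟩, hWmem.2 (hTS ht)⟩ : W) * ⟨⟨d, hDM hd⟩, hWmem.2 hdS⟩ from
        Subtype.ext (Subtype.ext he), map_mul, QuotientGroup.mk'_apply _ (⟨⟨t, hTM ht⟩, _⟩ : W),
        (QuotientGroup.eq_one_iff _).2 ht', one_mul]
    intro a b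
    obtain ⟨x, rfl⟩ := QuotientGroup.mk'_surjective N a
    obtain ⟨y, rfl⟩ := QuotientGroup.mk'_surjective N b
    obtain ⟨d, hd, ex⟩ := hdmem x
    obtain ⟨d', hd', ey⟩ := hdmem y
    rw [ex, ey]
    have h : d * d' * d⁻¹ * d'⁻¹ ∈ N := hNmem.2 (hQ₀ (hMD _ (hDM hd) _ hd'))
    have h' := (QuotientGroup.eq_one_iff _).2 h
    change QuotientGroup.mk' N (d * d' * d⁻¹ * d'⁻¹) = 1 at h'
    simp only [map_mul, map_inv, mul_inv_eq_iff_eq_mul, one_mul] at h'
    exact h'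
  letI : CommGroup (W ⧸ N) := { (inferInstance : Group (W ⧸ N)) with mul_comm := hcomm }
  let φ : W →* W ⧸ N := QuotientGroup.mk' N
  let τ : M →* W ⧸ N := φ.transfer
  haveI := Fintype.ofFinite (M ⧸ W)
  have hfac : ∀ (u : M), (∀ (k : ℕ) (g₀ : M) (h : g₀⁻¹ * u ^ k * g₀ ∈ W), ((g₀⁻¹ * u ^ k * g₀ : M) : G) ∈ T) →
      τ u = 1 := by
    intro u hu
    haveI : Fintype (Quotient (MulAction.orbitRel (Subgroup.zpowers u) (M ⧸ W))) := Fintype.ofFinite _
    refine (MonoidHom.transfer_eq_prod_quotient_orbitRel_zpowers_quot φ u).trans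
      (Finset.prod_eq_one fun q _ => ?_)
    exact (QuotientGroup.eq_one_iff _).2 (hu _ _ (QuotientGroup.out_conj_pow_minimalPeriod_mem W u q.out))
  have hker : Subgroup.normalClosure ((T : Set G) ∪ {g : G | g ∈ M ∧ (orderOf g).Coprime p}) ≤
      τ.ker.map M.subtype := by
    refine (Subgroup.closure_le _).2 fun y hy => ?_
    obtain ⟨x, hx, hxy⟩ := Group.mem_conjugatesOfSet_iff.1 hy
    obtain ⟨g, rfl⟩ := isConj_iff.1 hxy
    rcases hx with hx | ⟨hxM, hxo⟩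
    · refine ⟨⟨_, Subgroup.Normal.conj_mem inferInstance _ (hTM hx) g⟩, hfac _ fun k g₀ hg₀ => ?_, rfl⟩
      have e : ((g₀⁻¹ * (⟨g * x * g⁻¹, Subgroup.Normal.conj_mem inferInstance _ (hTM hx) g⟩ : M) ^ k * g₀ : M) : G)
          = ((g₀ : G)⁻¹ * g) * x ^ k * ((g₀ : G)⁻¹ * g)⁻¹ := by
        push_cast
        rw [conj_pow]
        group
      have hS := hWmem.1 hg₀
      rw [e] at hS ⊢
      exact hcl _ _ (T.pow_mem hx k) hS
    · refine ⟨⟨_, Subgroup.Normal.conj_mem inferInstance _ hxM g⟩, ?_, rfl⟩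
      have h1 : orderOf (⟨g * x * g⁻¹, Subgroup.Normal.conj_mem inferInstance _ hxM g⟩ : M) = orderOf x := by
        rw [← Subgroup.orderOf_coe]
        exact orderOf_injective (MulAut.conj g).toMonoidHom (MulAut.conj g).injective x
      refine orderOf_eq_one_iff.1 ?_
      have h2 := (orderOf_map_dvd τ (⟨g * x * g⁻¹, Subgroup.Normal.conj_mem inferInstance _ hxM g⟩ : M)).trans h1.dvd
      obtain ⟨k, hk⟩ := IsPGroup.iff_card.1 (R.isPGroup'.to_quotient N)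
      exact Nat.eq_one_of_dvd_coprimes (Nat.Coprime.pow_right k hxo) h2 (hk ▸ orderOf_dvd_natCard _)
  rintro s ⟨hsH, hsS⟩
  obtain ⟨u, hu, hus⟩ := hker hsH
  obtain ⟨t, ht, d, hd, hdS, rfl⟩ := hdec s hsS (hus ▸ u.2)
  refine T.mul_mem ht ?_
  set d' : M := ⟨d, hDM hd⟩
  have hd'W : d' ∈ W := hWmem.2 hdS
  have hτt : τ ⟨t, hTM ht⟩ = 1 := hfac _ fun k g₀ hg₀ => by
    have e : ((g₀⁻¹ * (⟨t, hTM ht⟩ : M) ^ k * g₀ : M) : G) = (g₀ : G)⁻¹ * t ^ k * ((g₀ : G)⁻¹)⁻¹ := by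
      push_cast
      rw [inv_inv]
    have hS := hWmem.1 hg₀
    rw [e] at hS ⊢
    exact hcl _ _ (T.pow_mem ht k) hS
  have hτd' : τ d' = 1 := by
    have h1 : u = (⟨t, hTM ht⟩ : M) * d' := Subtype.ext hus
    have h2 : τ u = 1 := hu
    rwa [h1, map_mul, hτt, one_mul] at h2
  haveI : Fintype (Quotient (MulAction.orbitRel (Subgroup.zpowers d') (M ⧸ W))) := Fintype.ofFinite _
  have hτd : τ d' = φ ⟨d', hd'W⟩ ^ W.index := by
    refine (MonoidHom.transfer_eq_prod_quotient_orbitRel_zpowers_quot φ d').trans ?_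
    rw [Subgroup.index_eq_sum_minimalPeriod W d', ← Finset.prod_pow_eq_pow_sum]
    refine Finset.prod_congr rfl fun q _ => ?_
    rw [← map_pow]
    refine QuotientGroup.eq.2 (hNmem.2 (hQ₀ ?_))
    set g₀ : M := q.out.out
    set k := Function.minimalPeriod (d' • ·) q.out
    have h := hMD _ (inv_mem g₀.2) _ (D.inv_mem (D.pow_mem hd k))
    simp only [inv_inv] at h
    show ((g₀⁻¹ * d' ^ k * g₀)⁻¹ * d' ^ k : G) ∈ Q₀
    simpa [mul_assoc] using h
  rw [hτd', eq_comm, ← map_pow] at hτd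
  have h3 : d ^ W.index ∈ T := hNmem.1 ((QuotientGroup.eq_one_iff _).1 hτd)
  obtain ⟨k, hk⟩ := S.isPGroup' ⟨d, hdS⟩
  have hk' : d ^ p ^ k = 1 := congrArg Subtype.val hk
  have hcop : (W.index).Coprime (p ^ k) := Nat.Coprime.pow_right k
    (((Fact.out : p.Prime).coprime_iff_not_dvd).2 R.not_dvd_index).symm
  have hde : d = (d ^ W.index) ^ Nat.gcdA W.index (p ^ k) * (d ^ p ^ k) ^ Nat.gcdB W.index (p ^ k) := by
    rw [← zpow_natCast, ← zpow_natCast, ← zpow_mul, ← zpow_mul, ← zpow_add, ← Nat.gcd_eq_gcd_ab, hcop,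
      Nat.cast_one, zpow_one]
  rw [hde, hk', one_zpow, mul_one]
  exact T.zpow_mem h3 _

end CfsgLib.Fusion
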