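import Cfsg.Agent.Fusion.RealizedNormal
import Cfsg.Agent.Fusion.ResidualLeast
import Cfsg.Agent.Fusion.ResidualAut
import Cfsg.Agent.Fusion.AxiomaticThompson
import Cfsg.Agent.Fusion.Group
import Cfsg.Agent.Components.CharP
import Cfsg.Agent.PReduced.Basic
import Cfsg.Agent.S5093

/-!
Models of the residual subsystems of a fusion system having a model.
-/

set_option autoImplicit false
set_option linter.style.haveILetI false

open Cfsg

namespace CfsgLib.Fusion

open Cfsg.FusionSystem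

universe u v

variable {Ω : Type u} [Group Ω] {S : Subgroup Ω} {F : Cfsg.FusionSystem S} {P : Subgroup Ω}
variable {p : ℕ} [Fact p.Prime] {G : Type v} [Group G] {ι : S →* G}

/-- Normal subgroups of a group of characteristic `p` have characteristic `p`. -/
lemma centralizer_pCore_le_of_normal [Finite G]
    (hC : Subgroup.centralizer ((Cfsg.pCore p G : Subgroup G) : Set G) ≤ Cfsg.pCore p G) (N : Subgroup G)
    [N.Normal] : Subgroup.centralizer ((Cfsg.pCore p N : Subgroup N) : Set N) ≤ Cfsg.pCore p N := by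
  haveI : (Cfsg.pCore p G).Normal := Cfsg.pCore_normal p G
  have htop : CfsgLib.Components.IsCharP p (⊤ : Subgroup G) := by
    intro x hx
    have hle : Cfsg.pCore p G ≤ CfsgLib.Components.pCoreIn p (⊤ : Subgroup G) :=
      CfsgLib.Components.le_pCoreIn le_top
        (le_top.trans_eq (Subgroup.normalizer_eq_top_iff.mpr inferInstance).symm)
        (CfsgLib.Components.pCore_isPGroup p)
    exact hle (hC (Subgroup.centralizer_le hle hx.2))
  exact (CfsgLib.Components.isCharP_iff p N).1 (CfsgLib.Components.isCharP_of_normal htop le_top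
    (Subgroup.normalizer_eq_top_iff.mpr inferInstance).ge)

/-- The subgroup generated by the elements of `p`-power order. -/
def pElemGroup (p : ℕ) (G : Type v) [Group G] : Subgroup G :=
  Subgroup.closure {g : G | ∃ k : ℕ, orderOf g = p ^ k}

instance pElemGroup_normal : (pElemGroup p G).Normal := by
  refine ⟨fun n hn g => ?_⟩
  induction hn using Subgroup.closure_induction with
  | mem z hz =>
    obtain ⟨k, hk⟩ := hz
    refine Subgroup.subset_closure ⟨k, ?_⟩
    rwa [← MulAut.conj_apply, MulEquiv.orderOf_eq]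
  | one => simp
  | mul a b _ _ iha ihb => simpa [mul_assoc] using mul_mem iha ihb
  | inv a _ iha => simpa [mul_assoc] using inv_mem iha

lemma mem_pElemGroup {g : G} {k : ℕ} (h : orderOf g ∣ p ^ k) : g ∈ pElemGroup p G := by
  obtain ⟨j, -, hj⟩ := (Nat.dvd_prime_pow (Fact.out : p.Prime)).1 h
  exact Subgroup.subset_closure ⟨j, hj⟩

lemma sylow_le_pElemGroup [Finite G] (T : Sylow p G) : (T : Subgroup G) ≤ pElemGroup p G := by
  intro t ht
  obtain ⟨k, hk⟩ := (IsPGroup.iff_orderOf.1 T.isPGroup') ⟨t, ht⟩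
  exact Subgroup.subset_closure ⟨k, by rw [← hk, Subgroup.orderOf_mk]⟩

lemma index_pElemGroup_coprime [Finite G] (T : Sylow p G) : (pElemGroup p G).index.Coprime p := by
  rw [Nat.coprime_comm]
  exact ((Fact.out : p.Prime).coprime_iff_not_dvd).2 fun h =>
    T.not_dvd_index (h.trans (Subgroup.index_dvd_of_le (sylow_le_pElemGroup T)))

/-- Powers of a realized automorphism are realized by the powers. -/
lemma realized_pow (hP : P ≤ S) {α : MulAut P} {g : G}
    (h : ∀ x : P, ι (Subgroup.inclusion hP (α x)) = g * ι (Subgroup.inclusion hP x) * g⁻¹) (n : ℕ) :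
    ∀ x : P, ι (Subgroup.inclusion hP ((α ^ n) x)) = g ^ n * ι (Subgroup.inclusion hP x) * (g ^ n)⁻¹ := by
  induction n with
  | zero => intro x; simp
  | succ n ih =>
    intro x
    rw [pow_succ', MulAut.mul_apply, h, ih, pow_succ']
    group

/-- An element of `G` normalizing the image of `P` induces an automorphism of `P` in the system. -/
lemma exists_aut_realized (hR : F.IsRealizedBy ι) (hP : P ≤ S) [Finite S] (g : G)
    (hg : ∀ x : P, g * ι (Subgroup.inclusion hP x) * g⁻¹ ∈ imageAlong ι P) :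
    ∃ β ∈ F.autGroup P, (∀ x : P, ι (Subgroup.inclusion hP (β x)) = g * ι (Subgroup.inclusion hP x) * g⁻¹) ∧
      orderOf β ∣ orderOf g := by
  haveI := finite_of_le hP
  obtain ⟨φ, hφ, hφι⟩ := exists_hom_of_conj hR hP g fun x => imageAlong_le P (hg x)
  have hr : φ.range ≤ P := by
    rintro _ ⟨x, rfl⟩
    refine (mem_imageAlong_iff (ι := ι) hR.1 (val_mem hφ x)).1 ?_
    rw [hφι]
    exact hg x
  have hr' : φ.range = P := Subgroup.eq_of_le_of_card_ge hr
    (le_of_eq (Nat.card_congr (MonoidHom.ofInjective (F.injective_of_mem hφ)).toEquiv))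
  set β := isoOfHom (F.injective_of_mem hφ) hr'
  have hβ : ∀ x : P, ι (Subgroup.inclusion hP (β x)) = g * ι (Subgroup.inclusion hP x) * g⁻¹ := fun x => hφι x _
  refine ⟨β, mem_autGroup_of_eq hφ fun _ => rfl, hβ, ?_⟩
  refine orderOf_dvd_of_pow_eq_one (MulEquiv.ext fun x => Subgroup.inclusion_injective hP (hR.1 ?_))
  rw [realized_pow hP hβ, pow_orderOf_eq_one]
  simp

/-- The hyperfocal subgroup of a realized system comes from `O^p` of the group. -/
theorem hyperfocal_realized [Finite G] (hR : F.IsRealizedBy ι) (T : Sylow p G)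
    (hT : (T : Subgroup G) = ι.range) :
    preimageAlong ι (Cfsg.pResidual p G) = F.hyperfocalSubgroup p := by
  haveI : Finite S := Finite.of_injective _ hR.1
  haveI := CfsgLib.Transfer.pResidual_normal (p := p) (G := G)
  set K := Cfsg.pResidual p G
  refine le_antisymm ?_ ?_
  · have hgrp : (T : Subgroup G) ⊓ K ≤ imageAlong ι (F.hyperfocalSubgroup p) := by
      rw [← Cfsg.Agent.S5093.result p T, FusionSystem.hyperfocalSubgroup, Subgroup.closure_le]
      rintro _ ⟨P', α, x, hP', hα, rfl⟩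
      revert x
      unfold Cfsg.pResidual at hα
      induction hα using Subgroup.closure_induction with
      | one => intro x; simp
      | mul a b _ _ iha ihb =>
        intro x
        have h2 := mul_mem (ihb x) (iha ((b : MulAut P') x))
        simpa [mul_assoc] using h2
      | inv a _ iha =>
        intro x
        have h2 := inv_mem (iha ((a : MulAut P')⁻¹ x))
        simpa using h2
      | mem γ hγ =>
        intro x
        obtain ⟨g, -, hg⟩ := mem_autInducedBy.1 ((autGroup_group hP').le γ.2)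
        obtain ⟨k, hk, hk1⟩ := exists_pow_coprime (p := p) g (n := orderOf (γ : MulAut P'))
          (by rw [Subgroup.orderOf_coe]; exact hγ)
        have key : ∀ (n : ℕ) (y : P'), ((((γ : MulAut P') ^ n) y : P') : G) = g ^ n * (y : G) * (g ^ n)⁻¹ := by
          intro n
          induction n with
          | zero => intro y; simp
          | succ n ih =>
            intro y
            rw [pow_succ', MulAut.mul_apply, hg, ih, pow_succ']
            group
        have hγk : ∀ y : P', (((γ : MulAut P') y : P') : G) = g ^ k * (y : G) * (g ^ k)⁻¹ := fun y => by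
          rw [← key, pow_eq_self_of_modEq hk1]
        have hP'r : P' ≤ ι.range := hT ▸ hP'
        set P := preimageAlong ι P' with hPdef
        have hPS : P ≤ S := preimageAlong_le P'
        have himg : imageAlong ι P = P' := imageAlong_preimageAlong hP'r
        obtain ⟨β, hβ, hβι, hβo⟩ := exists_aut_realized hR hPS (g ^ k) fun y => by
          have hy : ι (Subgroup.inclusion hPS y) ∈ P' := (mem_preimageAlong.1 y.2).2
          rw [himg, ← hγk ⟨_, hy⟩]
          exact Subtype.prop _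
        have hxi : (x : G) ∈ imageAlong ι P := himg.symm ▸ x.2
        obtain ⟨s, hs, hsx⟩ := hxi
        refine ⟨⟨(s : Ω)⁻¹ * ((β ⟨s, hs⟩ : P) : Ω), S.mul_mem (S.inv_mem s.2) (hPS (β ⟨s, hs⟩).2)⟩,
          Subgroup.subset_closure ⟨P, ⟨β, hβ⟩, ⟨s, hs⟩, hPS, Subgroup.subset_closure ?_, rfl⟩, ?_⟩
        · show Nat.Coprime (orderOf (⟨β, hβ⟩ : F.autGroup P)) p
          rw [Subgroup.orderOf_mk]
          exact Nat.Coprime.coprime_dvd_left hβo hk
        · show ι (s⁻¹ * Subgroup.inclusion hPS (β ⟨s, hs⟩)) = (x : G)⁻¹ * (((γ : MulAut P') x : P') : G)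
          rw [map_mul, map_inv, hβι, hγk]
          have e : ι (Subgroup.inclusion hPS ⟨s, hs⟩) = (x : G) := hsx
          rw [e, ← hsx]
    intro y hy
    obtain ⟨hyS, hyK⟩ := mem_preimageAlong.1 hy
    exact (mem_imageAlong_iff (ι := ι) hR.1 hyS).1 (hgrp ⟨hT ▸ ⟨_, rfl⟩, hyK⟩)
  · rw [FusionSystem.hyperfocalSubgroup, Subgroup.closure_le]
    rintro _ ⟨P, α, x, hP, hα, rfl⟩
    refine mem_preimageAlong.2 ⟨S.mul_mem (S.inv_mem (hP x.2)) (hP (Subtype.prop _)), ?_⟩
    suffices ∀ y : P, (ι (Subgroup.inclusion hP y))⁻¹ * ι (Subgroup.inclusion hP ((α : MulAut P) y)) ∈ K by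
      have h1 := this x
      rw [← map_inv, ← map_mul] at h1
      exact h1
    clear x
    unfold Cfsg.pResidual at hα
    induction hα using Subgroup.closure_induction with
    | one => intro x; simp
    | mul a b _ _ iha ihb =>
      intro x
      have h2 := K.mul_mem (ihb x) (iha ((b : MulAut P) x))
      simpa [mul_assoc] using h2
    | inv a _ iha =>
      intro x
      have h2 := K.inv_mem (iha ((a : MulAut P)⁻¹ x))
      simpa using h2
    | mem γ hγ =>
      intro x
      obtain ⟨g, hg⟩ := (mem_autGroup_realized hR hP).1 γ.2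
      obtain ⟨k, hk, hk1⟩ := exists_pow_coprime (p := p) g (n := orderOf (γ : MulAut P))
        (by rw [Subgroup.orderOf_coe]; exact hγ)
      have h1 := realized_pow hP hg k x
      rw [pow_eq_self_of_modEq hk1] at h1
      rw [h1]
      have hgK : g ^ k ∈ K := CfsgLib.Transfer.mem_pResidual_of_coprime hk
      set z := ι (Subgroup.inclusion hP x)
      have h2 := K.mul_mem (Subgroup.Normal.conj_mem inferInstance _ hgK z⁻¹) (K.inv_mem hgK)
      simpa [mul_assoc] using h2

variable [Finite S]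

/-- The subsystem of a normal subgroup has that subgroup as a model. -/
theorem isModel_subgroupSystem (hG : F.IsModel p G ι) (N : Subgroup G) [N.Normal] {U : Subgroup Ω}
    (E : Cfsg.FusionSystem U) (e : preimageAlong ι N = U)
    (h : ∀ P, E.Hom P = (subgroupSystem ι N).Hom P) : ∃ ι' : U →* N, E.IsModel p N ι' := by
  subst e
  obtain ⟨hfin, hR, ⟨T, hT⟩, hC⟩ := hG
  set Q := preimageAlong ι N
  have hQS : Q ≤ S := preimageAlong_le N
  have hmem : ∀ x : Q, ι (Subgroup.inclusion hQS x) ∈ N := fun x => (mem_preimageAlong.1 x.2).2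
  let ι' : Q →* N := (ι.comp (Subgroup.inclusion hQS)).codRestrict N hmem
  refine ⟨ι', inferInstance, ⟨fun x y hxy => Subgroup.inclusion_injective hQS
      (hR.1 (congrArg Subtype.val hxy)), fun U hU φ hφ => ?_⟩, ?_, centralizer_pCore_le_of_normal hC N⟩
  · rw [h]
    constructor
    · rintro ⟨_, _, -, g, hg, hgx⟩
      exact ⟨⟨g, hg⟩, fun x => Subtype.ext (hgx x)⟩
    · rintro ⟨g, hgx⟩
      refine ⟨hU, hφ, fun a b hab => ?_, g, g.2, fun x => congrArg Subtype.val (hgx x)⟩
      have h1 := hgx a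
      have h2 : ι' ⟨φ b, hφ b⟩ = g * ι' ⟨b, hU b.2⟩ * g⁻¹ := hgx b
      simp only [hab] at h1
      rw [h2] at h1
      have h3 := hR.1 (congrArg Subtype.val (mul_left_cancel (mul_right_cancel h1)))
      exact Subtype.ext (congrArg Subtype.val h3.symm :)
  · obtain ⟨P, hP⟩ := CfsgLib.PReduced.exists_sylow_inf T N
    refine ⟨P, hP.trans ?_⟩
    ext y
    constructor
    · rintro ⟨h1, h2⟩
      have h1' : (y : G) ∈ (T : Subgroup G) := h1
      rw [hT] at h1'
      obtain ⟨s, hs⟩ := h1'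
      exact ⟨⟨s, mem_preimageAlong.2 ⟨s.2, hs ▸ h2⟩⟩, Subtype.ext hs⟩
    · rintro ⟨x, rfl⟩
      exact ⟨hT ▸ ⟨_, rfl⟩, (ι' x).2⟩

lemma preimage_pElemGroup (hG : F.IsModel p G ι) : preimageAlong ι (pElemGroup p G) = S := by
  obtain ⟨hfin, hR, ⟨T, hT⟩, -⟩ := hG
  exact le_antisymm (preimageAlong_le _) fun x hx =>
    mem_preimageAlong.2 ⟨hx, sylow_le_pElemGroup T (hT ▸ ⟨_, rfl⟩)⟩

/-- The `p'`-residual subsystem of a system with model `G` has the model generated by the `p`-elements. -/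
theorem residual_model (hS : IsPGroup p S) (hG : F.IsModel p G ι) {E : Cfsg.FusionSystem S}
    (hE : F.IsPPrimeResidual p E) : ∃ ι' : S →* pElemGroup p G, E.IsModel p (pElemGroup p G) ι' := by
  have e := preimage_pElemGroup hG
  refine isModel_subgroupSystem hG _ E e fun P => ?_
  obtain ⟨-, Q, hQn, hQc⟩ := isConstrained_of_model hG
  obtain ⟨hWn, hWC⟩ := normal_of_model hS hG hQn hQc
  obtain ⟨hfin, hR, ⟨T, hT⟩, -⟩ := hG
  set M := pElemGroup p G
  have hsub : (subgroupSystem ι M).IsNormalIn F p := isNormalIn_subgroupSystem hR T hT M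
  refine Set.Subset.antisymm ?_ ?_
  · refine hE.2.2 (retarget (subgroupSystem ι M) e) (isSaturated_retarget _ e hsub.1.1)
      ⟨fun P φ hφ => hsub.1.2.2.1 P hφ, fun R hRS => ?_⟩ P
    rw [Subgroup.map_le_iff_le_comap, Subgroup.closure_le]
    rintro γ ⟨k, hk⟩
    obtain ⟨g, hg⟩ := (mem_autGroup_realized hR hRS).1 γ.2
    obtain ⟨a, m, hm, hgo⟩ := Nat.exists_eq_pow_mul_and_not_dvd (orderOf_pos g).ne' p (Fact.out : p.Prime).ne_one
    have hcop : Nat.Coprime (p ^ k) m := (((Fact.out : p.Prime).coprime_iff_not_dvd).2 hm).pow_left k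
    obtain ⟨j, hj1, hj0⟩ := Nat.chineseRemainder hcop 1 0
    have hγj : (γ : MulAut R) ^ j = γ := pow_eq_self_of_modEq (by rwa [Subgroup.orderOf_coe, hk])
    have hgM : g ^ j ∈ M := by
      refine mem_pElemGroup (k := a) (orderOf_dvd_of_pow_eq_one ?_)
      obtain ⟨c, rfl⟩ := Nat.modEq_zero_iff_dvd.1 hj0
      rw [← pow_mul, show m * c * p ^ a = p ^ a * m * c by ring, ← hgo, pow_mul, pow_orderOf_eq_one, one_pow]
    have h1 := realized_pow hRS hg j
    rw [hγj] at h1
    refine (mem_autGroup hRS).2 ?_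
    exact ⟨hRS.trans e.ge, fun x => e.ge (hRS ((γ : MulAut R) x).2),
      fun x y hxy => (γ : MulAut R).injective (Subtype.ext hxy), g ^ j, hgM, fun x => h1 x⟩
  · rintro φ ⟨hPe, hφe, hφi, m, hm, hmx⟩
    have hP : P ≤ S := hPe.trans e.le
    have hQ : Q ≤ S := hQn.1
    haveI := finite_of_le hQ
    -- `m` acts on `Q` as an automorphism in `E`
    obtain ⟨a, ha, haι⟩ : ∃ a ∈ E.autGroup Q, ∀ x : Q,
        ι (Subgroup.inclusion hQ (a x)) = m * ι (Subgroup.inclusion hQ x) * m⁻¹ := by
      clear hmx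
      revert hm
      intro hm
      induction hm using Subgroup.closure_induction with
      | mem z hz =>
        obtain ⟨k, hk⟩ := hz
        obtain ⟨β, hβ, hβι, hβo⟩ := exists_aut_realized hR hQ z fun x =>
          hWn.conj_mem _ ⟨_, x.2, rfl⟩ z
        obtain ⟨j, -, hj⟩ := (Nat.dvd_prime_pow (Fact.out : p.Prime)).1 (hk ▸ hβo)
        exact ⟨β, hE.2.1.2 Q hQ ⟨⟨β, hβ⟩, Subgroup.subset_closure ⟨j, by rw [Subgroup.orderOf_mk]; exact hj⟩,
          rfl⟩, hβι⟩
      | one => exact ⟨1, one_mem _, fun x => by simp⟩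
      | mul u w _ _ ihu ihw =>
        obtain ⟨a, ha, hau⟩ := ihu
        obtain ⟨b, hb, hbw⟩ := ihw
        refine ⟨a * b, mul_mem ha hb, fun x => ?_⟩
        rw [MulAut.mul_apply, hau, hbw]
        group
      | inv u _ ihu =>
        obtain ⟨a, ha, hau⟩ := ihu
        refine ⟨a⁻¹, inv_mem ha, fun x => ?_⟩
        have h1 := hau (a⁻¹ x)
        rw [MulAut.apply_inv_self] at h1
        rw [h1]
        group
    have hSn : ∀ s ∈ S, s ∈ Subgroup.normalizer (Q : Set Ω) := fun s hs =>
      le_normalizer_of_weaklyClosed_fusion (weaklyClosed_of_stronglyClosed (stronglyClosed_of_isNormal hQn)) hs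
    haveI : Finite ↥(normalizerIn S Q) := Finite.of_injective (Subgroup.inclusion (inf_le_left : normalizerIn S Q ≤ S)) (Subgroup.inclusion_injective _)
    have hfn : E.IsFullyNormalized Q :=
      ⟨hQ, fun R _ => Subgroup.card_le_of_le fun g hg => ⟨hg.1, hSn g hg.1⟩⟩
    obtain ⟨-, hrec⟩ := receptive_of_fullyNormalized hS hE.1 hfn
    set χ : Q →* Ω := Q.subtype.comp a.toMonoidHom
    obtain ⟨ψ, hψ, hψχ⟩ := hrec Q χ ((mem_autGroup hQ).1 ha) (by
      ext y
      exact ⟨fun ⟨x, hx⟩ => hx ▸ (a x).2, fun hy => ⟨a.symm ⟨y, hy⟩, congrArg Subtype.val (a.apply_symm_apply _)⟩⟩)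
    have hPN : P ≤ extender S Q χ := by
      intro x hx
      refine Subgroup.subset_closure ⟨hP hx, hSn x (hP hx), φ ⟨x, hx⟩, e.le (hφe _), fun q hq => ?_⟩
      refine congrArg Subtype.val (hR.1 ?_ : (Subgroup.inclusion hQ (a ⟨x * q * x⁻¹, hq⟩) : S) =
        ⟨φ ⟨x, hx⟩, e.le (hφe _)⟩ * Subgroup.inclusion hQ (a q) * ⟨φ ⟨x, hx⟩, e.le (hφe _)⟩⁻¹)
      rw [map_mul, map_mul, map_inv, haι, haι, hmx]
      show m * ι (⟨x, hP hx⟩ * Subgroup.inclusion hQ q * ⟨x, hP hx⟩⁻¹) * m⁻¹ = _
      rw [map_mul, map_mul, map_inv]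
      group
    have hQN : Q ≤ extender S Q χ := by
      intro x hx
      refine Subgroup.subset_closure ⟨hQ hx, hSn x (hQ hx), χ ⟨x, hx⟩, hQ (a _).2, fun q hq => ?_⟩
      show χ ⟨x * q * x⁻¹, hq⟩ = χ ⟨x, hx⟩ * χ q * (χ ⟨x, hx⟩)⁻¹
      rw [← map_inv, ← map_mul, ← map_mul]
      rfl
    obtain ⟨g, hg⟩ := exists_of_hom hR (hE.2.1.1 _ hψ)
    have hcent : g⁻¹ * m ∈ Subgroup.centralizer ((imageAlong ι Q : Subgroup G) : Set G) := by
      refine Subgroup.mem_centralizer_iff.2 ?_
      rintro _ ⟨q, hq, rfl⟩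
      have h1 : ι ⟨ψ ⟨q, hQN hq⟩, val_mem hψ _⟩ = m * ι q * m⁻¹ := by
        rw [show (⟨ψ ⟨q, hQN hq⟩, val_mem hψ _⟩ : S) = Subgroup.inclusion hQ (a ⟨q, hq⟩) from
          Subtype.ext (hψχ q hq (hQN hq)), haι]
        rfl
      rw [hg] at h1
      calc ι q * (g⁻¹ * m) = g⁻¹ * (g * ι q * g⁻¹) * m := by group
        _ = g⁻¹ * (m * ι q * m⁻¹) * m := by rw [h1]
        _ = g⁻¹ * m * ι q := by group
    obtain ⟨z, hz, hzι⟩ := hWC hcent
    have hzN : (z : Ω) ∈ extender S Q χ := hQN hz
    have hm' : m = g * ι z := by rw [hzι, mul_inv_cancel_left]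
    have hconj : ∀ x : P, conjHom P (z : Ω) x ∈ extender S Q χ := fun x =>
      (extender S Q χ).mul_mem ((extender S Q χ).mul_mem hzN (hPN x.2)) ((extender S Q χ).inv_mem hzN)
    refine comp_of_eq (E.conj_mem hP z.2) hψ hconj fun x => ?_
    refine congrArg Subtype.val (hR.1 ?_ : (⟨φ x, e.le (hφe x)⟩ : S) = ⟨ψ ⟨_, hconj x⟩, val_mem hψ _⟩)
    rw [hmx, hg, hm']
    show g * ι z * ι ⟨x, _⟩ * (g * ι z)⁻¹ = g * ι (z * ⟨x, hP x.2⟩ * z⁻¹) * g⁻¹
    rw [map_mul, map_mul, map_inv]
    group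

/-- In a system with model `G`, `O^p(G)` gives the `p`-residual subsystem. -/
theorem isPResidual_subgroupSystem (hG : F.IsModel p G ι)
    (e : preimageAlong ι (Cfsg.pResidual p G) = F.hyperfocalSubgroup p) :
    F.IsPResidual p (retarget (subgroupSystem ι (Cfsg.pResidual p G)) e) := by
  obtain ⟨hfin, hR, ⟨T, hT⟩, -⟩ := hG
  haveI := CfsgLib.Transfer.pResidual_normal (p := p) (G := G)
  set K := Cfsg.pResidual p G
  have hsub : (subgroupSystem ι K).IsNormalIn F p := isNormalIn_subgroupSystem hR T hT K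
  refine ⟨isSaturated_retarget _ e hsub.1.1, fun P φ hφ => hsub.1.2.2.1 P hφ, le_rfl, fun R hRT => ?_⟩
  have hRS : R ≤ S := hRT.trans (e ▸ preimageAlong_le K)
  rw [Subgroup.map_le_iff_le_comap, Cfsg.pResidual, Subgroup.closure_le]
  intro γ hγ
  obtain ⟨g, hg⟩ := (mem_autGroup_realized hR hRS).1 γ.2
  obtain ⟨k, hk, hk1⟩ := exists_pow_coprime (p := p) g (n := orderOf (γ : MulAut R))
    (by rw [Subgroup.orderOf_coe]; exact hγ)
  have h1 := realized_pow hRS hg k
  rw [pow_eq_self_of_modEq hk1] at h1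
  refine (mem_autGroup hRT).2 ?_
  exact ⟨hRT.trans e.ge, fun x => e.ge (hRT ((γ : MulAut R) x).2),
    fun x y hxy => (γ : MulAut R).injective (Subtype.ext hxy), g ^ k,
    CfsgLib.Transfer.mem_pResidual_of_coprime hk, fun x => h1 x⟩

/-- The `p`-residual subsystem of a system with model `G` has model `O^p(G)`. -/
theorem presidual_model (hS : IsPGroup p S) (hG : F.IsModel p G ι)
    {D : Cfsg.FusionSystem (F.hyperfocalSubgroup p)} (hD : F.IsPResidual p D) :
    ∃ ι' : F.hyperfocalSubgroup p →* Cfsg.pResidual p G, D.IsModel p (Cfsg.pResidual p G) ι' := by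
  haveI := CfsgLib.Transfer.pResidual_normal (p := p) (G := G)
  obtain ⟨hfin, hR, ⟨T, hT⟩, hC⟩ := id hG
  have e := hyperfocal_realized hR T hT
  refine isModel_subgroupSystem hG _ D e fun P => ?_
  have h0 := isPResidual_subgroupSystem hG e
  have hTS : F.hyperfocalSubgroup p ≤ S := e ▸ preimageAlong_le _
  exact Set.Subset.antisymm
    (le_of_residual (F := F) hS hTS D (retarget (subgroupSystem ι (Cfsg.pResidual p G)) e) hD.1 hD.2.1
      h0.2.2.2 P)
    (le_of_residual (F := F) hS hTS (retarget (subgroupSystem ι (Cfsg.pResidual p G)) e) D h0.1 h0.2.1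
      hD.2.2.2 P)

end CfsgLib.Fusion
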