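import Cfsg.Agent.Fusion.Alperin
import Cfsg.Agent.Fusion.AlperinCor

/-!
Saturation follows from: `Inn(S)` is Sylow in `Aut_F(S)` and fully normalized subgroups are receptive.
-/

set_option autoImplicit false
set_option linter.style.haveILetI false

open Cfsg

namespace CfsgLib.Fusion

open Cfsg.FusionSystem

variable {Ω : Type*} [Group Ω] {S : Subgroup Ω} {F : Cfsg.FusionSystem S} {p : ℕ} [Fact p.Prime]

/-- An element of a finite group whose `k`-th power can be chosen to be a `p`-element, with `k` congruent to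
`1` modulo a given power of `p`. -/
lemma exists_pow_pElement {A : Type*} [Group A] [Finite A] (β : A) (b : ℕ) :
    ∃ k a : ℕ, (β ^ k) ^ p ^ a = 1 ∧ k ≡ 1 [MOD p ^ b] := by
  have hp : p.Prime := Fact.out
  obtain ⟨a, m, hm, he⟩ := Nat.exists_eq_pow_mul_and_not_dvd (orderOf_pos β).ne' p hp.ne_one
  have hco : Nat.Coprime m (p ^ b) := ((hp.coprime_iff_not_dvd.2 hm).symm).pow_right b
  obtain ⟨k, hk0, hk1⟩ := Nat.chineseRemainder hco 0 1
  refine ⟨k, a, ?_, hk1⟩
  obtain ⟨c, rfl⟩ := (Nat.modEq_zero_iff_dvd.1 hk0)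
  rw [← pow_mul, show m * c * p ^ a = orderOf β * c by rw [he]; ring, pow_mul, pow_orderOf_eq_one,
    one_pow]

/-- If every fully normalized subgroup is receptive and `S` is fully automized, every fully normalized
subgroup is fully automized. -/
theorem isFullyAutomized_of_fullyNormalized_receptive [Finite S] (hS : IsPGroup p S)
    (ha : F.IsFullyAutomized p S) (hr : ∀ P : Subgroup Ω, F.IsFullyNormalized P → F.IsReceptive P)
    (P : Subgroup Ω) (hP : F.IsFullyNormalized P) : F.IsFullyAutomized p P := by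
  induction hd : Nat.card S - Nat.card P using Nat.strong_induction_on generalizing P with
  | _ d IH =>
    rcases hP.1.eq_or_lt with rfl | hlt
    · exact ha
    refine ⟨hP.1, ?_⟩
    haveI := finite_mulAut hP.1
    set G := F.autGroup P
    set A := (autInducedBy S P).subgroupOf G
    have hApg : IsPGroup p A :=
      (isPGroup_autInducedBy p hS P).of_equiv
        (Subgroup.subgroupOfEquivOfLe (autInducedBy_le_autGroup hP.1)).symm
    obtain ⟨T, hT⟩ := hApg.exists_le_sylow
    rcases hT.eq_or_lt with heq | hAT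
    · exact ⟨T, heq.symm⟩
    exfalso
    -- an element of `T` normalizing `A` outside `A`
    haveI : Group.IsNilpotent (T : Subgroup G) := T.2.isNilpotent
    have hA' : A.subgroupOf (T : Subgroup G) < ⊤ := by
      rw [lt_top_iff_ne_top, Ne, Subgroup.subgroupOf_eq_top]
      exact fun h => hAT.not_ge h
    obtain ⟨t, htN, htA⟩ := SetLike.exists_of_lt (normalizerCondition_of_isNilpotent _ hA')
    rw [Subgroup.mem_subgroupOf] at htA
    obtain ⟨b, hb⟩ := T.2 t
    set α : MulAut P := ((t : G) : MulAut P) with hαdef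
    have hαG : α ∈ G := (t : G).2
    have hαb : α ^ p ^ b = 1 := by
      have := congrArg (fun z : (T : Subgroup G) => ((z : G) : MulAut P)) hb
      simpa using this
    have hαconj : ∀ c ∈ autInducedBy S P, α * c * α⁻¹ ∈ autInducedBy S P := by
      intro c hc
      have hcG := autInducedBy_le_autGroup (F := F) hP.1 hc
      have hcT : (⟨c, hcG⟩ : G) ∈ (T : Subgroup G) := hT hc
      have h := (Subgroup.mem_normalizer_iff.1 htN ⟨⟨c, hcG⟩, hcT⟩).1 hc
      exact h
    -- extend to `N_S(P)`
    set N := normalizerIn S P with hN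
    have hPN : P ≤ N := le_inf hP.1 Subgroup.le_normalizer
    obtain ⟨ψ, hψ, hag⟩ := (hr P hP).2 P _ ((mem_autGroup hP.1).1 hαG) (range_aut α)
    have hNle : N ≤ extender S P (P.subtype.comp α.toMonoidHom) := by
      intro g hg
      refine mem_extender.2 ⟨hg.1, hg.2, ?_⟩
      have hc : conjAut P S ⟨g, hg⟩ ∈ autInducedBy S P := range_conjAut (P := P) S ▸ ⟨_, rfl⟩
      obtain ⟨h, hh, hh'⟩ := mem_autInducedBy.1 (hαconj _ hc)
      refine ⟨h, hh, fun x hx => ?_⟩
      have h1 := hh' (α x)
      simp only [MulAut.mul_apply, MulAut.inv_apply_self] at h1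
      exact h1
    set ψN : N →* Ω := ψ.comp (Subgroup.inclusion hNle)
    have hψN : ψN ∈ F.Hom N := restrict hψ hNle
    have hagN : ∀ x : P, ψN ⟨x, hPN x.2⟩ = (α x : Ω) := fun x => hag x x.2 (hNle (hPN x.2))
    have hmem : ∀ x : N, ψN x ∈ N := fun x => ⟨val_mem hψN x, by
      have := map_mem_normalizer (φ := P.subtype.comp α.toMonoidHom) hPN hagN x.2 x.2.2
      rwa [range_aut] at this⟩
    haveI := finite_normalizerIn (S := S) P
    let βh : N →* N := ψN.codRestrict N hmem
    have hβinj : Function.Injective βh := fun x y h =>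
      F.injective_of_mem hψN (congrArg Subtype.val h)
    let β : MulAut N := MulEquiv.ofBijective βh ⟨hβinj, Finite.injective_iff_surjective.1 hβinj⟩
    have hβF : β ∈ F.autGroup N := mem_autGroup_of_eq hψN fun _ => rfl
    haveI : Finite (MulAut N) := finite_mulAut (inf_le_left : N ≤ S)
    obtain ⟨k, a, hka, hk⟩ := exists_pow_pElement (p := p) β b
    have hres : ∀ (n : ℕ) (x : P), ((β ^ n) ⟨x, hPN x.2⟩ : Ω) = ((α ^ n) x : P) := by
      intro n
      induction n with
      | zero => intro x; rfl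
      | succ n ihn =>
        intro x
        rw [pow_succ', pow_succ', MulAut.mul_apply, MulAut.mul_apply]
        have e : (β ^ n) ⟨x, hPN x.2⟩ = ⟨((α ^ n) x : P), hPN ((α ^ n) x).2⟩ := Subtype.ext (ihn x)
        rw [e]
        exact hagN _
    have hαk : α ^ k = α := by
      conv_rhs => rw [← pow_one α]
      exact pow_eq_pow_iff_modEq.2 (hk.of_dvd (orderOf_dvd_of_pow_eq_one hαb))
    -- move to a fully normalized, fully automized conjugate of `N`
    obtain ⟨R, hcR, hRn⟩ := exists_fullyNormalized (F := F) (show N ≤ S from inf_le_left)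
    have hcard : Nat.card P < Nat.card N := by
      refine lt_of_le_of_ne (Subgroup.card_le_of_le hPN) fun h => (lt_normalizerIn hS hlt).ne ?_
      exact Subgroup.eq_of_le_of_card_ge hPN h.ge
    have hRa : F.IsFullyAutomized p R := by
      refine IH (Nat.card S - Nat.card R) ?_ R hRn rfl
      have h1 : Nat.card N ≤ Nat.card S := Subgroup.card_le_of_le inf_le_left
      rw [← IsConj.card_eq hcR]; omega
    obtain ⟨φ, hφ, hφR⟩ := hcR
    set e := isoOfHom (F.injective_of_mem hφ) hφR
    set γ := MulAut.congr e (β ^ k) with hγdef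
    have hγ : γ ∈ F.autGroup R := congr_mem_autGroup hφ hφR (pow_mem hβF k)
    have hγp : IsPGroup p (Subgroup.zpowers γ) := by
      rintro ⟨y, j, rfl⟩
      refine ⟨a, Subtype.ext ?_⟩
      show (γ ^ j) ^ p ^ a = 1
      rw [← zpow_natCast, ← zpow_mul, mul_comm, zpow_mul, zpow_natCast, hγdef,
        ← map_pow (MulAut.congr e), hka, map_one, one_zpow]
    obtain ⟨χ, hχ, hχγ⟩ := exists_conj_le_autInducedBy p hRa _ hγp (Subgroup.zpowers_le.2 hγ)
    obtain ⟨g, hg, hgx⟩ := mem_autInducedBy.1 (hχγ γ (Subgroup.mem_zpowers γ))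
    -- the composite isomorphism `θ : N ≅ R`
    let θ : N →* Ω := R.subtype.comp ((χ : R ≃* R).toMonoidHom.comp e.toMonoidHom)
    have hθ : θ ∈ F.Hom N :=
      comp_of_eq hφ ((mem_autGroup hRn.1).1 hχ) (mem_of_range_eq hφR) fun _ => rfl
    have hθR : θ.range = R := by
      ext y
      exact ⟨by rintro ⟨x, rfl⟩; exact (χ (e x)).2,
        fun hy => ⟨e.symm (χ⁻¹ ⟨y, hy⟩), by
          show ((χ (e (e.symm (χ⁻¹ ⟨y, hy⟩))) : R) : Ω) = y
          rw [MulEquiv.apply_symm_apply, MulAut.apply_inv_self]⟩⟩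
    have hθβ : ∀ x : N, θ ((β ^ k) x) = g * θ x * g⁻¹ := by
      intro x
      have h1 := hgx (χ (e x))
      have h2 : γ (e x) = e ((β ^ k) x) := by
        show e ((β ^ k) (e.symm (e x))) = _
        rw [MulEquiv.symm_apply_apply]
      simp only [MulAut.mul_apply, MulAut.inv_apply_self, h2] at h1
      exact h1
    set θP : P →* Ω := θ.comp (Subgroup.inclusion hPN)
    have hθP : θP ∈ F.Hom P := restrict hθ hPN
    have hP'c : F.IsConj P θP.range := ⟨θP, hθP, rfl⟩
    have hRN : R ≤ normalizerIn S θP.range := by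
      intro y hy
      refine ⟨hRn.1 hy, ?_⟩
      rw [← hθR] at hy
      obtain ⟨x, rfl⟩ := hy
      exact map_mem_normalizer hPN (φ := θP) (fun _ => rfl) x.2 x.2.2
    haveI := finite_normalizerIn (S := S) θP.range
    have hReq : R = normalizerIn S θP.range := by
      refine Subgroup.eq_of_le_of_card_ge hRN ((hP.2 _ hP'c).trans ?_)
      exact (IsConj.card_eq ⟨φ, hφ, hφR⟩).le
    have hgN : g ∈ normalizerIn S θP.range := by
      refine ⟨hg, Subgroup.mem_normalizer_iff.2 fun y => ⟨?_, ?_⟩⟩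
      · rintro ⟨x, rfl⟩
        refine ⟨α x, ?_⟩
        have h3 : θP x = θ ⟨(x : Ω), hPN x.2⟩ := rfl
        rw [h3, ← hθβ]
        show θ _ = θ _
        congr 1
        exact Subtype.ext ((hres k x).trans (by rw [hαk]; rfl)).symm
      · rintro ⟨x, hx⟩
        refine ⟨α⁻¹ x, ?_⟩
        have h1 := hθβ ⟨(α⁻¹ x : P), hPN (α⁻¹ x).2⟩
        have e2 : (β ^ k) ⟨(α⁻¹ x : P), hPN (α⁻¹ x).2⟩ = ⟨(x : Ω), hPN x.2⟩ := Subtype.ext (by
          rw [hres, hαk, MulAut.apply_inv_self])
        rw [e2] at h1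
        have h3 : θP x = θ ⟨(x : Ω), hPN x.2⟩ := rfl
        rw [h3, h1] at hx
        exact mul_left_cancel (mul_right_cancel hx)
    rw [← hReq, ← hθR] at hgN
    obtain ⟨n, rfl⟩ := hgN
    refine htA ?_
    show α ∈ autInducedBy S P
    refine mem_autInducedBy.2 ⟨n, n.2.1, fun x => ?_⟩
    have h1 := hθβ ⟨(x : Ω), hPN x.2⟩
    rw [← map_inv, ← map_mul, ← map_mul] at h1
    have h2 := congrArg Subtype.val (F.injective_of_mem hθ h1)
    rw [hres, hαk] at h2
    exact h2

theorem saturated_iff_receptive [Finite S] (hS : IsPGroup p S) :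
    F.IsSaturated p ↔ (F.IsFullyAutomized p S ∧
      ∀ P : Subgroup Ω, F.IsFullyNormalized P → F.IsReceptive P) := by
  refine ⟨fun hF => ⟨fullyAutomized_of_fullyNormalized hS hF (isFullyNormalized_self F),
    fun P hP => receptive_of_fullyNormalized hS hF hP⟩, fun ⟨ha, hr⟩ P hP => ?_⟩
  obtain ⟨Q, hc, hQ⟩ := exists_fullyNormalized (F := F) hP
  exact ⟨Q, hc, isFullyAutomized_of_fullyNormalized_receptive hS ha hr Q hQ, hr Q hQ⟩

end CfsgLib.Fusion
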