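import Cfsg.Agent.Fusion.SolvableSystem

/-!
Solvability of fusion systems passes to normal subsystems and factor systems, and back.
-/

set_option autoImplicit false
set_option linter.style.haveILetI false

open Cfsg
open scoped commutatorElement

namespace CfsgLib.Fusion

open Cfsg.FusionSystem

universe u w

variable {Ω : Type u} [Group Ω] {S T : Subgroup Ω} {F : Cfsg.FusionSystem S}
variable {Ω' : Type w} [Group Ω'] {S' : Subgroup Ω'} {θ : S →* Ω'} {D : Cfsg.FusionSystem S'}
variable {p : ℕ} [Fact p.Prime]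

theorem solvable_iff_extension [Finite S] (hS : IsPGroup p S) (hF : F.IsSaturated p) {E : Cfsg.FusionSystem T}
    (hE : E.IsNormalIn F p) (hD : F.IsFactorSystem T θ D) :
    F.IsSolvableSystem ↔ (E.IsSolvableSystem ∧ D.IsSolvableSystem) := by
  classical
  obtain ⟨⟨hEs, -, hEF, hT, hinv, hfrat⟩, -⟩ := hE
  haveI := finite_of_le hT.1
  have hTp := hS.to_le hT.1
  have hDs := isSaturated_factor hS hF hT hD
  obtain ⟨-, hker, hrange, -⟩ := id hD
  haveI : Finite S' := by rw [← hrange]; exact Finite.of_surjective θ.rangeRestrict θ.rangeRestrict_surjective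
  have hS'p : IsPGroup p S' := by
    rw [← hrange]; exact hS.of_surjective θ.rangeRestrict θ.rangeRestrict_surjective
  constructor
  · intro h
    obtain ⟨n, C, h0, hn, hmono, hsc, hab⟩ :=
      exists_series_of_solvable hS hF h (Nat.card S) ⊥ (Nat.le_add_left _ _) (stronglyClosed_of_isNormal (isNormal_bot F))
    refine ⟨solvable_of_series hTp hEs (n := n) (T := fun i => C i ⊓ T) (by simp [h0])
      (by simp [hn, hT.1]) (fun i => ⟨inf_le_right, fun R hR φ hφ x =>
        ⟨(hsc i).2 R (hR.trans inf_le_left) φ (hEF R hφ) x, val_mem hφ x⟩⟩) (fun i hi => ?_),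
      solvable_of_series hS'p hDs (n := n) (T := fun i => imageAlong θ (C i)) ?_ ?_
        (fun i => stronglyClosed_imageAlong hD (hsc i)) (fun i hi => ?_)⟩
    · refine le_inf ((Subgroup.commutator_mono inf_le_left inf_le_left).trans (hab i hi)) ?_
      refine (Subgroup.commutator_mono inf_le_right inf_le_right).trans ?_
      rw [Subgroup.commutator_le]
      intro a ha b hb
      rw [commutatorElement_def]
      exact T.mul_mem (T.mul_mem (T.mul_mem ha hb) (T.inv_mem ha)) (T.inv_mem hb)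
    · rw [eq_bot_iff]
      rintro _ ⟨x, hx, rfl⟩
      have hx' : (x : Ω) ∈ C 0 := hx
      rw [h0, Subgroup.mem_bot] at hx'
      rw [Subgroup.mem_bot, show x = 1 from Subtype.ext hx', map_one]
    · rw [← hrange, hn, FusionSystem.imageAlong, Subgroup.subgroupOf_self, MonoidHom.range_eq_map]
    · rw [Subgroup.commutator_le]
      rintro _ ⟨a, ha, rfl⟩ _ ⟨b, hb, rfl⟩
      rw [← map_commutatorElement]
      exact ⟨_, hab i hi (Subgroup.commutator_mem_commutator (show (a : Ω) ∈ C (i + 1) from ha)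
        (show (b : Ω) ∈ C (i + 1) from hb)), rfl⟩
  · rintro ⟨hEsol, hDsol⟩
    obtain ⟨n, C, h0, hn, hmono, hscE, habE⟩ :=
      exists_series_of_solvable hTp hEs hEsol (Nat.card T) ⊥ (Nat.le_add_left _ _) (stronglyClosed_of_isNormal (isNormal_bot E))
    obtain ⟨m, B, g0, gm, gmono, hscD, habD⟩ :=
      exists_series_of_solvable hS'p hDs hDsol (Nat.card S') ⊥ (Nat.le_add_left _ _)
        (stronglyClosed_of_isNormal (isNormal_bot D))
    -- the `Aut_F(T)`-invariant core of the series of `E`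
    let R : ℕ → Subgroup Ω := fun i =>
      ⨅ α : F.autGroup T, ((C i).subgroupOf T).map (T.subtype.comp (α : MulAut T).toMonoidHom)
    have hmem : ∀ i {y : Ω}, y ∈ R i ↔ ∃ hy : y ∈ T, ∀ α : F.autGroup T,
        (((α : MulAut T)⁻¹ ⟨y, hy⟩ : T) : Ω) ∈ C i := by
      intro i y
      rw [Subgroup.mem_iInf]
      constructor
      · intro h
        have hy : y ∈ T := by
          obtain ⟨t, -, rfl⟩ := h 1
          exact Subtype.prop _
        refine ⟨hy, fun α => ?_⟩
        obtain ⟨t, ht, e⟩ := h α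
        have e' : (α : MulAut T) t = ⟨y, hy⟩ := Subtype.ext e
        rw [← e', MulAut.inv_apply_self]
        exact ht
      · rintro ⟨hy, h⟩ α
        exact ⟨(α : MulAut T)⁻¹ ⟨y, hy⟩, h α,
          congrArg Subtype.val (MulAut.apply_inv_self _ (α : MulAut T) ⟨y, hy⟩)⟩
    have hRT : ∀ i, R i ≤ T := fun i y hy => ((hmem i).1 hy).1
    have hRC : ∀ i, R i ≤ C i := fun i y hy => by
      obtain ⟨hyT, h⟩ := (hmem i).1 hy
      simpa using h 1
    have hRsc : ∀ i, F.StronglyClosed (R i) := by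
      intro i
      refine ⟨(hRT i).trans hT.1, fun P hP φ hφ x => ?_⟩
      obtain ⟨α, hα, φ₀, hφ₀, hag⟩ := hfrat P (hP.trans (hRT i)) φ hφ
      rw [hag x (val_mem hφ₀ x), hmem]
      refine ⟨(α _).2, fun β => ?_⟩
      -- twisting by `γ = α⁻¹ β`
      set γ : F.autGroup T := (⟨α, hα⟩ : F.autGroup T)⁻¹ * β
      have hγ : ((β : MulAut T)⁻¹ (α ⟨φ₀ x, val_mem hφ₀ x⟩) : T) =
          (γ : MulAut T)⁻¹ ⟨φ₀ x, val_mem hφ₀ x⟩ := by
        show _ = ((α⁻¹ * (β : MulAut T))⁻¹ : MulAut T) _
        rw [mul_inv_rev, inv_inv]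
        rfl
      show (((β : MulAut T)⁻¹ ⟨((α ⟨φ₀ x, _⟩ : T) : Ω), _⟩ : T) : Ω) ∈ C i
      rw [show (⟨((α ⟨φ₀ x, val_mem hφ₀ x⟩ : T) : Ω), (α _).2⟩ : T) = α ⟨φ₀ x, val_mem hφ₀ x⟩ from rfl, hγ]
      -- the conjugate map `γ⁻¹ φ₀ γ`
      have hPT : P ≤ T := hP.trans (hRT i)
      obtain ⟨χ, hχ, hχag⟩ := hinv P hPT φ₀ hφ₀ (γ : MulAut T)⁻¹ (inv_mem γ.2)
      have hsrc : (P.subgroupOf T).map (T.subtype.comp ((γ : MulAut T)⁻¹).toMonoidHom) ≤ C i := by
        rintro _ ⟨y, hy, rfl⟩
        obtain ⟨_, h⟩ := (hmem i).1 (hP hy)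
        exact h γ
      have hx : (((γ : MulAut T)⁻¹ ⟨x, hPT x.2⟩ : T) : Ω) ∈
          (P.subgroupOf T).map (T.subtype.comp ((γ : MulAut T)⁻¹).toMonoidHom) := ⟨⟨x, hPT x.2⟩, x.2, rfl⟩
      rw [← hχag x (val_mem hφ₀ x) hx]
      exact (hscE i).2 _ hsrc χ hχ _
    -- the series of `F`
    have hR0 : R 0 = ⊥ := le_bot_iff.1 ((hRC 0).trans h0.le)
    have hRn : R n = T := le_antisymm (hRT n) fun y hy => (hmem n).2 ⟨hy, fun α => by
      rw [hn]; exact Subtype.prop _⟩
    have hBpre : ∀ j, F.StronglyClosed (preimageAlong θ (B j)) := fun j =>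
      stronglyClosed_preimageAlong hS hF hT hD (hscD j)
    refine solvable_of_series hS hF (n := n + m) (T := fun i => if i ≤ n then R i else preimageAlong θ (B (i - n)))
      (by simpa using hR0) ?_ (fun i => by split_ifs; exacts [hRsc i, hBpre _]) (fun i hi => ?_)
    · have hpre : preimageAlong θ (B m) = S := by
        refine le_antisymm (preimageAlong_le _) fun x hx => mem_preimageAlong.2 ⟨hx, ?_⟩
        rw [gm, ← hrange]
        exact ⟨_, rfl⟩
      rcases Nat.eq_zero_or_pos m with rfl | hm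
      · rw [show n + 0 = n from rfl, if_pos le_rfl, hRn]
        refine le_antisymm hT.1 fun x hx => (hker ⟨x, hx⟩).1 ?_
        have := hpre.ge hx
        obtain ⟨_, h1⟩ := mem_preimageAlong.1 this
        rw [g0, Subgroup.mem_bot] at h1
        exact h1
      · rw [if_neg (by omega), Nat.add_sub_cancel_left, hpre]
    · rcases Nat.lt_or_ge i n with hin | hin
      · rw [if_pos (by omega : i + 1 ≤ n), if_pos hin.le, Subgroup.commutator_le]
        intro a ha b hb
        obtain ⟨haT, haC⟩ := (hmem _).1 ha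
        obtain ⟨hbT, hbC⟩ := (hmem _).1 hb
        refine (hmem i).2 ⟨(⁅(⟨a, haT⟩ : T), (⟨b, hbT⟩ : T)⁆ : T).2, fun α => ?_⟩
        show (((α : MulAut T)⁻¹ ⁅(⟨a, haT⟩ : T), ⟨b, hbT⟩⁆ : T) : Ω) ∈ C i
        rw [map_commutatorElement]
        exact habE i hin (Subgroup.commutator_mem_commutator (haC α) (hbC α))
      · obtain ⟨j, rfl⟩ := Nat.exists_eq_add_of_le hin
        have hj : j < m := by omega
        have hlow : preimageAlong θ (B j) ≤ if n + j ≤ n then R (n + j) else preimageAlong θ (B (n + j - n)) := by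
          rcases Nat.eq_zero_or_pos j with rfl | hj0
          · rw [if_pos (by omega), Nat.add_zero, hRn]
            intro x hx
            obtain ⟨hxS, h1⟩ := mem_preimageAlong.1 hx
            rw [g0, Subgroup.mem_bot] at h1
            exact (hker _).1 h1
          · rw [if_neg (by omega), Nat.add_sub_cancel_left]
        rw [if_neg (by omega : ¬ n + j + 1 ≤ n), show n + j + 1 - n = j + 1 by omega]
        refine le_trans ?_ hlow
        rw [Subgroup.commutator_le]
        intro a ha b hb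
        obtain ⟨haS, haB⟩ := mem_preimageAlong.1 ha
        obtain ⟨hbS, hbB⟩ := mem_preimageAlong.1 hb
        refine mem_preimageAlong.2 ⟨(⁅(⟨a, haS⟩ : S), (⟨b, hbS⟩ : S)⁆ : S).2, ?_⟩
        show θ ⁅(⟨a, haS⟩ : S), ⟨b, hbS⟩⁆ ∈ B j
        rw [map_commutatorElement]
        exact habD j hj (Subgroup.commutator_mem_commutator haB hbB)

end CfsgLib.Fusion
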