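import Cfsg.Agent.Fusion.GroupAlperin
import Cfsg.Agent.PReduced.Basic
import Cfsg.Prelude.Def_TwoFusion

/-!
An abelian strongly closed subgroup controls strong fusion.
-/

set_option autoImplicit false

namespace CfsgLib.GroupAlperin

variable {G : Type*} [Group G] [Finite G] {p : ℕ} [Fact p.Prime] (S : Sylow p G)
variable {A : Subgroup G}

/-- One tame step, given the statement for larger subgroups. -/
theorem stronglyClosed_step (hA : IsMulCommutative ↥A) (hsc : Cfsg.IsStronglyClosed A (S : Subgroup G))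
    (Q : Sylow p G) (htame : Tame S Q) {x : G}
    (hx : x ∈ Subgroup.normalizer ((((S : Subgroup G) ⊓ (Q : Subgroup G)) : Subgroup G) : Set G))
    (ih : ∀ (U : Subgroup G) (g : G), Nat.card ↥((S : Subgroup G) ⊓ Q) < Nat.card U → U ≤ S →
      cj U g ≤ S → ∃ c ∈ Subgroup.centralizer (U : Set G),
        ∃ n ∈ Subgroup.normalizer (A : Set G), c * n = g) :
    ∃ c ∈ Subgroup.centralizer ((((S : Subgroup G) ⊓ (Q : Subgroup G)) : Subgroup G) : Set G),
      ∃ n ∈ Subgroup.normalizer (A : Set G), c * n = x := by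
  obtain ⟨hS1, -⟩ := htame
  set D := (S : Subgroup G) ⊓ (Q : Subgroup G) with hDdef
  set N := Subgroup.normalizer (D : Set G) with hNdef
  have hDS : D ≤ (S : Subgroup G) := inf_le_left
  have hconj : ∀ m : G, m ∈ N → ∀ d ∈ D, m * d * m⁻¹ ∈ D :=
    fun m hm d hd => (Subgroup.mem_normalizer_iff.1 hm d).1 hd
  have hEinv : ∀ m : G, m ∈ N → ∀ e ∈ A ⊓ D, m * e * m⁻¹ ∈ A ⊓ D := fun m hm e he =>
    ⟨hsc.2 e he.1 m (hDS (hconj m hm e he.2)), hconj m hm e he.2⟩
  by_cases hAD : A ≤ D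
  · refine ⟨1, one_mem _, x, ?_, one_mul x⟩
    rw [Subgroup.mem_normalizer_iff]
    refine fun a => ⟨fun ha => hsc.2 a ha x (hDS (hconj x hx a (hAD ha))), fun ha => ?_⟩
    have := hsc.2 _ ha x⁻¹ (hDS (hconj x⁻¹ (N.inv_mem hx) _ (hAD ha)))
    simpa [mul_assoc] using this
  -- the stabilizer of the chain `1 ≤ A ∩ D ≤ D`, inside `N`
  have hconj' : ∀ m n : N, ∀ d ∈ D, ((m * n : N) : G) * d * ((m * n : N) : G)⁻¹ =
      m * ((n : G) * d * (n : G)⁻¹) * (m : G)⁻¹ := fun m n d _ => by simp [mul_assoc]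
  let X : Subgroup N :=
    { carrier := {m | (∀ e ∈ A ⊓ D, (m : G) * e * (m : G)⁻¹ = e) ∧
        ∀ d ∈ D, (m : G) * d * (m : G)⁻¹ * d⁻¹ ∈ A ⊓ D}
      one_mem' := ⟨fun e _ => by simp, fun d _ => by simp⟩
      mul_mem' := by
        rintro m n ⟨hm1, hm2⟩ ⟨hn1, hn2⟩
        refine ⟨fun e he => by rw [hconj' m n e he.2, hn1 e he, hm1 e he], fun d hd => ?_⟩
        have h2 := hn2 d hd
        have h3 := hm2 d hd
        have : ((m * n : N) : G) * d * ((m * n : N) : G)⁻¹ * d⁻¹ =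
            ((m : G) * ((n : G) * d * (n : G)⁻¹ * d⁻¹) * (m : G)⁻¹) *
              ((m : G) * d * (m : G)⁻¹ * d⁻¹) := by simp [mul_assoc]
        rw [this, hm1 _ h2]
        exact (A ⊓ D).mul_mem h2 h3
      inv_mem' := by
        rintro m ⟨hm1, hm2⟩
        refine ⟨fun e he => ?_, fun d hd => ?_⟩
        · conv_lhs => rw [← hm1 e he]
          simp [mul_assoc]
        · have h2 := hm2 _ (hconj _ (N.inv_mem m.2) d hd)
          have : ((m⁻¹ : N) : G) * d * ((m⁻¹ : N) : G)⁻¹ * d⁻¹ =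
              ((m : G) * (((m : G)⁻¹) * d * ((m : G)⁻¹)⁻¹) * (m : G)⁻¹ *
                (((m : G)⁻¹) * d * ((m : G)⁻¹)⁻¹)⁻¹)⁻¹ := by simp [mul_assoc]
          rw [this]
          exact (A ⊓ D).inv_mem h2 }
  haveI hXn : X.Normal := by
    refine ⟨fun m hm n => ⟨fun e he => ?_, fun d hd => ?_⟩⟩
    · have h1 := hm.1 _ (hEinv _ (N.inv_mem n.2) e he)
      calc ((n * m * n⁻¹ : N) : G) * e * ((n * m * n⁻¹ : N) : G)⁻¹
          = n * ((m : G) * ((n : G)⁻¹ * e * (n : G)⁻¹⁻¹) * (m : G)⁻¹) * (n : G)⁻¹ := by simp [mul_assoc]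
        _ = e := by rw [h1]; simp [mul_assoc]
    · have h1 := hm.2 _ (hconj _ (N.inv_mem n.2) d hd)
      have := hEinv n n.2 _ h1
      simpa [mul_assoc] using this
  let C : Subgroup N := (Subgroup.centralizer (D : Set G)).subgroupOf N
  haveI hCn : C.Normal := by
    refine ⟨fun m hm n => ?_⟩
    rw [Subgroup.mem_subgroupOf, Subgroup.mem_centralizer_iff] at hm ⊢
    intro d hd
    have h1 := hm _ (hconj _ (N.inv_mem n.2) d hd)
    calc d * ((n * m * n⁻¹ : N) : G)
        = n * (((n : G)⁻¹ * d * (n : G)⁻¹⁻¹) * m) * (n : G)⁻¹ := by simp [mul_assoc]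
      _ = n * ((m : G) * ((n : G)⁻¹ * d * (n : G)⁻¹⁻¹)) * (n : G)⁻¹ := by rw [h1]
      _ = ((n * m * n⁻¹ : N) : G) * d := by simp [mul_assoc]
  have hCX : C ≤ X := by
    intro m hm
    have hfix : ∀ d ∈ D, (m : G) * d * (m : G)⁻¹ = d := fun d hd => by
      rw [← Subgroup.mem_centralizer_iff.1 (Subgroup.mem_subgroupOf.1 hm) d hd, mul_inv_cancel_right]
    exact ⟨fun e he => hfix e he.2, fun d hd => by rw [hfix d hd, mul_inv_cancel]; exact one_mem _⟩
  obtain ⟨j, hj⟩ := IsPGroup.iff_card.1 (S.isPGroup'.to_le (inf_le_right.trans hDS : A ⊓ D ≤ S))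
  have hpow : CfsgLib.PReduced.PowMem p X C := by
    intro m hm
    refine ⟨j, ?_⟩
    rw [Subgroup.mem_subgroupOf, Subgroup.mem_centralizer_iff]
    intro d hd
    set e := (m : G) * d * (m : G)⁻¹ * d⁻¹ with he
    have hk : ∀ k : ℕ, ((m ^ k : N) : G) * d * ((m ^ k : N) : G)⁻¹ = e ^ k * d := by
      intro k
      induction k with
      | zero => simp
      | succ k ihk =>
        rw [pow_succ' m, hconj' _ _ d hd, ihk]
        calc (m : G) * (e ^ k * d) * (m : G)⁻¹
            = ((m : G) * e ^ k * (m : G)⁻¹) * ((m : G) * d * (m : G)⁻¹) := by simp [mul_assoc]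
          _ = e ^ k * (e * d) := by
              rw [hm.1 _ ((A ⊓ D).pow_mem (hm.2 d hd) k), he, inv_mul_cancel_right]
          _ = e ^ (k + 1) * d := by rw [pow_succ]; exact (mul_assoc _ _ _).symm
    have hpe : e ^ p ^ j = 1 := by
      have h1 := pow_card_eq_one' (x := (⟨e, hm.2 d hd⟩ : ↥(A ⊓ D)))
      rw [hj] at h1
      exact congrArg Subtype.val h1
    have := hk (p ^ j)
    rw [hpe, one_mul, mul_inv_eq_iff_eq_mul] at this
    exact this.symm
  obtain ⟨PN, hPN⟩ := exists_sylow_subgroupOf hS1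
  obtain ⟨W, hW⟩ := CfsgLib.PReduced.exists_sylow_inf PN X
  set Wm := ((PN : Subgroup N) ⊓ X)
  have hWmap : (W : Subgroup X).map X.subtype = Wm := by
    rw [hW, Subgroup.map_subgroupOf_eq_of_le inf_le_right]
  have htop := Sylow.normalizer_sup_eq_top W
  rw [hWmap] at htop
  obtain ⟨n, hn, k, hk, hnk⟩ := Subgroup.mem_sup_of_normal_right.1
    (htop ▸ Subgroup.mem_top (⟨x, hx⟩ : N))
  obtain ⟨t, ht, c, hc, rfl⟩ := CfsgLib.PReduced.exists_mul_of_powMem PN hCX hpow hk
  have hn' : n * t ∈ Subgroup.normalizer (Wm : Set N) :=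
    mul_mem hn (Subgroup.le_normalizer ht)
  have hxnc : (⟨x, hx⟩ : N) = (n * t) * c := by rw [← hnk, mul_assoc]
  set n' := n * t
  have hc' : (n' : G) * c * (n' : G)⁻¹ ∈ Subgroup.centralizer (D : Set G) := by
    have := hCn.conj_mem c hc n'
    simpa [C, Subgroup.mem_subgroupOf] using this
  suffices ∃ c'' ∈ Subgroup.centralizer (D : Set G), ∃ m ∈ Subgroup.normalizer (A : Set G),
      c'' * m = (n' : G) by
    obtain ⟨c'', hc'', m, hm, hcm⟩ := this
    refine ⟨(n' : G) * c * (n' : G)⁻¹ * c'', mul_mem hc' hc'', m, hm, ?_⟩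
    rw [mul_assoc, hcm, inv_mul_cancel_right]
    exact congrArg Subtype.val hxnc.symm
  -- `A ∩ N` lies in `Wm` and properly enlarges `D`
  set A1 := A ⊓ N with hA1
  have hA1W : ∀ (a : G) (ha : a ∈ A1), (⟨a, ha.2⟩ : N) ∈ Wm := by
    intro a ha
    refine ⟨?_, ?_, ?_⟩
    · show (⟨a, ha.2⟩ : N) ∈ (PN : Subgroup N)
      rw [hPN, Subgroup.mem_subgroupOf]
      exact ⟨hsc.1 ha.1, ha.2⟩
    · intro e he
      have := congrArg Subtype.val (hA.is_comm.comm (⟨a, ha.1⟩ : A) ⟨e, he.1⟩)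
      change a * e = e * a at this
      change a * e * a⁻¹ = e
      rw [this, mul_inv_cancel_right]
    · intro d hd
      refine ⟨?_, D.mul_mem (hconj a ha.2 d hd) (D.inv_mem hd)⟩
      have hda : d * a⁻¹ * d⁻¹ ∈ A := hsc.2 _ (A.inv_mem ha.1) d
        ((S : Subgroup G).mul_mem ((S : Subgroup G).mul_mem (hDS hd)
          ((S : Subgroup G).inv_mem (hsc.1 ha.1))) ((S : Subgroup G).inv_mem (hDS hd)))
      have := A.mul_mem ha.1 hda
      simpa [mul_assoc] using this
  have hnot : ¬ A1 ≤ D := by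
    intro hle
    have hlt : D < A ⊔ D := by
      refine lt_of_le_not_ge le_sup_right fun h => hAD (le_sup_left.trans h)
    obtain ⟨g, hg, hgN, hgD⟩ := CfsgLib.Fusion.exists_normalizer_not_mem
      (S.isPGroup'.to_le (sup_le hsc.1 hDS)) hlt
    have hADmul : ∀ g ∈ A ⊔ D, ∃ a ∈ A, ∃ d ∈ D, g = a * d := by
      intro g hg
      have hDN : D ≤ Subgroup.normalizer (A : Set G) := by
        intro d hd
        rw [Subgroup.mem_normalizer_iff]
        have key : ∀ d ∈ (S : Subgroup G), ∀ a ∈ A, d * a * d⁻¹ ∈ A := fun d hd a ha =>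
          hsc.2 a ha d ((S : Subgroup G).mul_mem ((S : Subgroup G).mul_mem hd (hsc.1 ha))
            ((S : Subgroup G).inv_mem hd))
        refine fun a => ⟨key d (hDS hd) a, fun h => ?_⟩
        have := key d⁻¹ ((S : Subgroup G).inv_mem (hDS hd)) _ h
        simpa [mul_assoc] using this
      rw [← SetLike.mem_coe, Subgroup.coe_mul_of_right_le_normalizer_left A D hDN] at hg
      obtain ⟨a, ha, d, hd, rfl⟩ := hg
      exact ⟨a, ha, d, hd, rfl⟩
    obtain ⟨a, ha, d, hd, rfl⟩ := hADmul g hg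
    refine hgD (D.mul_mem (hle ⟨ha, ?_⟩) hd)
    have := N.mul_mem hgN (N.inv_mem (Subgroup.le_normalizer hd))
    simpa using this
  set U := D ⊔ A1
  have hUS : U ≤ (S : Subgroup G) := sup_le hDS (inf_le_left.trans hsc.1)
  have hUlt : Nat.card D < Nat.card U :=
    card_lt_of_lt (lt_of_le_not_ge le_sup_left fun h => hnot (le_sup_right.trans h))
  have hUn : cj U (n' : G) ≤ S := by
    rw [cj, Subgroup.map_sup, sup_le_iff]
    refine ⟨?_, ?_⟩
    · rintro _ ⟨d, hd, rfl⟩
      exact hDS (by simpa using hconj _ (N.inv_mem n'.2) d hd)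
    · rintro _ ⟨a, ha, rfl⟩
      have h1 := (Subgroup.mem_normalizer_iff.1 (inv_mem hn') (⟨a, ha.2⟩ : N)).1 (hA1W a ha)
      have h2 : n'⁻¹ * (⟨a, ha.2⟩ : N) * n'⁻¹⁻¹ ∈ (PN : Subgroup N) := h1.1
      rw [hPN, Subgroup.mem_subgroupOf] at h2
      simp at h2 ⊢
      exact h2.1
  obtain ⟨c'', hc'', m, hm, hcm⟩ := ih U n' hUlt hUS hUn
  exact ⟨c'', Subgroup.centralizer_le (SetLike.coe_subset_coe.2 (le_sup_left : D ≤ U)) hc'', m, hm, hcm⟩

/-- An abelian strongly closed subgroup controls strong fusion: every fusion map factors as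
centralizer times normalizer. -/
theorem exists_centralizer_mul_normalizer (hA : IsMulCommutative ↥A)
    (hsc : Cfsg.IsStronglyClosed A (S : Subgroup G)) {T : Subgroup G} {g : G} (hT : T ≤ S)
    (hTg : cj T g ≤ S) :
    ∃ c ∈ Subgroup.centralizer (T : Set G), ∃ n ∈ Subgroup.normalizer (A : Set G), c * n = g := by
  obtain ⟨k, hk⟩ : ∃ k, Nat.card (S : Subgroup G) - Nat.card T = k := ⟨_, rfl⟩
  induction k using Nat.strong_induction_on generalizing T g with
  | _ k ih =>
    have ih' : ∀ (U : Subgroup G) (g : G), Nat.card T < Nat.card U → U ≤ S → cj U g ≤ S →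
        ∃ c ∈ Subgroup.centralizer (U : Set G), ∃ n ∈ Subgroup.normalizer (A : Set G), c * n = g := by
      intro U g hlt hU hUg
      refine ih _ ?_ hU hUg rfl
      have := Subgroup.card_le_of_le hU
      omega
    suffices ∀ T' g', AChain S T' g' → Nat.card T' = Nat.card T →
        ∃ c ∈ Subgroup.centralizer (T' : Set G), ∃ n ∈ Subgroup.normalizer (A : Set G), c * n = g'
      from this T g (exists_chain_of_fusion S hT hTg) rfl
    intro T' g' hch
    induction hch with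
    | nil _ => exact fun _ => ⟨1, one_mem _, 1, one_mem _, one_mul 1⟩
    | @cons T' Q x y htame hx hxp hT' hrest ihc =>
      intro hcard
      obtain ⟨c', hc', n', hn', rfl⟩ := ihc (by rw [card_cj]; exact hcard)
      have hle := Subgroup.card_le_of_le hT'
      have hxS : cj ((S : Subgroup G) ⊓ Q) x ≤ S := by
        rw [cj_eq_self hx]; exact inf_le_left
      have hstep : ∃ c ∈ Subgroup.centralizer ((((S : Subgroup G) ⊓ (Q : Subgroup G)) : Subgroup G) : Set G),
          ∃ n ∈ Subgroup.normalizer (A : Set G), c * n = x := by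
        rcases eq_or_lt_of_le (hcard ▸ hle) with heq | hlt
        · exact stronglyClosed_step S hA hsc Q htame hx fun U g h => ih' U g (heq ▸ h)
        · exact ih' _ x hlt inf_le_left hxS
      obtain ⟨c, hc, n, hn, rfl⟩ := hstep
      have hcT := Subgroup.centralizer_le (SetLike.coe_subset_coe.2 hT') hc
      refine ⟨c * (n * c' * n⁻¹), mul_mem hcT ?_, n * n', mul_mem hn hn', by group⟩
      rw [Subgroup.mem_centralizer_iff] at hc' ⊢
      intro t ht
      have hct := Subgroup.mem_centralizer_iff.1 hcT t ht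
      have hmem : n⁻¹ * t * n ∈ cj T' (c * n) := by
        rw [mem_cj]
        have : c * n * (n⁻¹ * t * n) * (c * n)⁻¹ = c * t * c⁻¹ := by group
        rw [this, ← hct, mul_inv_cancel_right]
        exact ht
      have h2 := hc' _ hmem
      calc t * (n * c' * n⁻¹) = n * ((n⁻¹ * t * n) * c') * n⁻¹ := by group
        _ = n * (c' * (n⁻¹ * t * n)) * n⁻¹ := by rw [h2]
        _ = n * c' * n⁻¹ * t := by group

end CfsgLib.GroupAlperin
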